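/- Weakly closed elementary abelian 2-subgroups: definitions. -/
import Cfsg.Agent.SIG.PBase
import Cfsg.Agent.TECH.SylIn

set_option autoImplicit false

namespace CL.VM
open Subgroup CL.MSS CL.PComp

variable {X : Type*} [Group X]

/-- `B` is elementary abelian, weakly closed in the Sylow subgroup `S` and Sylow in its centraliser -/
structure WC (B S : Subgroup X) : Prop where
  syl : SylIn 2 S ⊤
  le : B ≤ S
  sq : ∀ b ∈ B, b * b = 1
  wc : ∀ g : X, g •ᶜ B ≤ S → g •ᶜ B = B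
  cen : S ⊓ centralizer (B : Set X) ≤ B

/-- `C(A) = O(C(A)) N_{C(A)}(B)` -/
def Gd (B A : Subgroup X) : Prop :=
  centralizer (A : Set X) ≤ opOf 2 (centralizer (A : Set X)) ⊔ (normalizer (B : Set X) ⊓ centralizer (A : Set X))

/-- an F-pair over `A` -/
structure FP (B A D D' : Subgroup X) : Prop where
  sq : ∀ d ∈ D, d * d = 1
  norm : D ≤ normalizer (B : Set X)
  lt : A < D
  inf : D ⊓ B = A
  le : A ≤ D'
  lt' : D' < B
  card : Nat.card D = Nat.card D'
  idx : Nat.card B * Nat.card A ≤ Nat.card D' ^ 2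
  comm : ∀ d ∈ D, d ∉ A → ∀ b ∈ B, b * d * b⁻¹ * d⁻¹ ∈ A ↔ b ∈ D'

/-- `N_{C(A)}(B)` is transitive on the non-trivial cosets of `A` in `B` -/
def Tr (B A : Subgroup X) : Prop :=
  ∀ b ∈ B, b ∉ A → ∀ c ∈ B, c ∉ A →
    ∃ n ∈ normalizer (B : Set X) ⊓ centralizer (A : Set X), n * b * n⁻¹ * c⁻¹ ∈ A

/-- `M = Θ N_{C(A)}(B)` contains the centralisers in `C(A)` of the elements of `B ∖ A` -/
structure Mx (B A Θ M : Subgroup X) : Prop where
  AB : A ≤ B
  odd : (Nat.card Θ).Coprime 2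
  le : Θ ≤ centralizer (A : Set X)
  eq : M = Θ ⊔ (normalizer (B : Set X) ⊓ centralizer (A : Set X))
  norm : M ≤ normalizer (Θ : Set X)
  cen : ∀ b ∈ B, b ∉ A → centralizer (A : Set X) ⊓ centralizer {b} ≤ M

end CL.VM
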