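/- A self-centralising `V = 2 ^ 11` with `N(V) / V = M24`: coordinates. -/
import Cfsg.Agent.SPOR.J4.MSEl
import Cfsg.Agent.SPOR.J4.MSyl
import Cfsg.Agent.SPOR.GolayStabs
import Cfsg.Agent.SPOR.VM.WDef

set_option autoImplicit false

namespace CL.VM
open Subgroup Cfsg Cfsg.Spor CL.Golay CL.MSS CL.PComp
open CL.MAut (Pm)
open scoped Pointwise symmDiff

/-- the subsets of even size -/
def Ev : Set (Finset GolayPt) := {s | Even s.card}
/-- the empty and the full set -/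
def K1 : Set (Finset GolayPt) := {s | s = ∅ ∨ s = Finset.univ}

variable {G : Type*} [Group G]

/-- `θ` induces an isomorphism `Dm / Kr → V`, `π` one `N(V) / V → M24`. Type T: even sets modulo the code.
Type C: the code modulo the full set. -/
structure VD (Dm Kr : Set (Finset GolayPt)) (V : Subgroup G) (θ : Finset GolayPt → G) (π : G → Pm) : Prop where
  ty : (Dm = Ev ∧ Kr = Code) ∨ (Dm = Code ∧ Kr = K1)
  θ_mul : ∀ s ∈ Dm, ∀ t ∈ Dm, θ (s ∆ t) = θ s * θ t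
  θ_one : ∀ s ∈ Dm, θ s = 1 ↔ s ∈ Kr
  mem_V : ∀ v, v ∈ V ↔ ∃ s ∈ Dm, θ s = v
  π_mul : ∀ a ∈ normalizer (V : Set G), ∀ b ∈ normalizer (V : Set G), π (a * b) = π a * π b
  π_mem : ∀ a ∈ normalizer (V : Set G), π a ∈ M24
  π_surj : ∀ g ∈ M24, ∃ a ∈ normalizer (V : Set G), π a = g
  π_one : ∀ a ∈ normalizer (V : Set G), π a = 1 ↔ a ∈ V
  conj : ∀ a ∈ normalizer (V : Set G), ∀ s ∈ Dm, a * θ s * a⁻¹ = θ (π a • s)
  cent : centralizer (V : Set G) ≤ V

/-- type T -/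
abbrev VT (V : Subgroup G) (θ : Finset GolayPt → G) (π : G → Pm) : Prop := VD Ev Code V θ π
/-- type C -/
abbrev VC (V : Subgroup G) (θ : Finset GolayPt → G) (π : G → Pm) : Prop := VD Code K1 V θ π

/-- type C with a complement -/
structure VS (V : Subgroup G) (θ : Finset GolayPt → G) (π : G → Pm) (χ : M24 →* G) : Prop
    extends VD Code K1 V θ π where
  χ_mem : ∀ g, χ g ∈ normalizer (V : Set G)
  π_χ : ∀ g, π (χ g) = g

variable {Dm Kr : Set (Finset GolayPt)} {V : Subgroup G} {θ : Finset GolayPt → G} {π : G → Pm}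

/-- `π` as a homomorphism -/
def VD.hom (h : VD Dm Kr V θ π) : normalizer (V : Set G) →* Pm :=
  MonoidHom.mk' (fun a => π a) fun a b => h.π_mul a a.2 b b.2

/-- the preimage in `N(V)` of a subgroup of the symmetric group -/
def VD.pre (h : VD Dm Kr V θ π) (K : Subgroup Pm) : Subgroup G :=
  (K.comap h.hom).map (normalizer (V : Set G)).subtype

theorem VD.mem_pre (h : VD Dm Kr V θ π) {K : Subgroup Pm} {a : G} :
    a ∈ h.pre K ↔ a ∈ normalizer (V : Set G) ∧ π a ∈ K :=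
  ⟨by rintro ⟨a, ha, rfl⟩; exact ⟨a.2, ha⟩, fun k => ⟨⟨a, k.1⟩, k.2, rfl⟩⟩

/-- the image in the symmetric group of (the part inside `N(V)` of) a subgroup -/
def VD.im (h : VD Dm Kr V θ π) (A : Subgroup G) : Subgroup Pm :=
  (A.subgroupOf (normalizer (V : Set G))).map h.hom

theorem VD.mem_im (h : VD Dm Kr V θ π) {A : Subgroup G} {g : Pm} :
    g ∈ h.im A ↔ ∃ a ∈ A, a ∈ normalizer (V : Set G) ∧ π a = g :=
  ⟨by rintro ⟨a, ha, rfl⟩; exact ⟨a, ha, a.2, rfl⟩, by rintro ⟨a, ha, k, rfl⟩; exact ⟨⟨a, k⟩, ha, rfl⟩⟩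

end CL.VM
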