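/- Numbering the 2048 classes of `Dm / Kr`. -/
import Cfsg.Agent.SPOR.VM.Defs

set_option autoImplicit false

namespace CL.VM
open Subgroup Cfsg Cfsg.Spor CL.Golay CL.K CL.J4
open CL.MAut (Pm)
open scoped Pointwise symmDiff

/-- `rep` numbers the classes of `Dm` modulo `Kr`, `key` finds the number of a class -/
structure Cd (Dm Kr : Set (Finset GolayPt)) (rep key : ℕ → ℕ) : Prop where
  rep_lt : ∀ c < 2048, rep c < 2 ^ 24
  rep_mem : ∀ c < 2048, E.setOf (rep c) ∈ Dm
  key_rep : ∀ c < 2048, key (rep c) = c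
  key_lt : ∀ n, key n < 2048
  key_xor : ∀ a b, key (a ^^^ b) = key a ^^^ key b
  ker : ∀ n < 2 ^ 24, E.setOf n ∈ Dm → (key n = 0 ↔ E.setOf n ∈ Kr)

def repT (c : ℕ) : ℕ := Nat.shiftLeft (Nat.lor c (Nat.shiftLeft (Nat.land (pc12 c) 1) 11)) 12
def keyT (n : ℕ) : ℕ := Nat.land (syn n) 2047
def keyC (n : ℕ) : ℕ := Nat.xor (Nat.land n 2047) (Nat.mul 2047 (Nat.land (Nat.shiftRight n 11) 1))

theorem and_2047_lt (n : ℕ) : n &&& 2047 < 2048 := lt_of_le_of_lt Nat.and_le_right (by norm_num)

theorem cdT : Cd Ev Code repT keyT := by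
  have k : allLt2 (fun c => okN (repT c) && Nat.beq (keyT (repT c)) c) 32 64 = true := by decide +kernel
  have k1 : ∀ c < 2048, okN (repT c) = true ∧ keyT (repT c) = c := fun c hc => by
    have := allLt2_iff.1 k c hc
    rwa [Bool.and_eq_true, Nat.beq_eq] at this
  refine ⟨fun c hc => (okN_iff.1 (k1 c hc).1).1, fun c hc => (okN_iff.1 (k1 c hc).1).2, fun c hc => (k1 c hc).2,
    fun n => and_2047_lt _, fun a b => ?_, fun n hn he => ?_⟩
  · show syn (a ^^^ b) &&& 2047 = (syn a &&& 2047) ^^^ (syn b &&& 2047)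
    rw [syn_xor, Nat.and_xor_distrib_right]
  · rw [setOf_mem_code_iff hn, ← syn_eq_zero_iff]
    show syn n &&& 2047 = 0 ↔ _
    refine ⟨fun e => ?_, fun e => by rw [e]; rfl⟩
    have h1 := syn_lt hn
    rw [show (2047 : ℕ) = 2 ^ 11 - 1 from rfl, Nat.and_two_pow_sub_one_eq_mod] at e
    by_contra h0
    have h2 : syn n = 2048 := by omega
    have h3 : Syn (E.setOf n) = Syn (E.setOf 8388608) := by
      rw [Syn_setOf hn, h2, Syn_setOf (by norm_num)]; decide +kernel
    have := even_of_Syn_eq h3 he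
    rw [card_setOf] at this
    revert this
    decide +kernel

theorem cdC : Cd Code K1 cw keyC := by
  have k : allLt2 (fun c => Nat.beq (keyC (cw c)) c) 32 64 = true := by decide +kernel
  have k2 : allLt2 (fun c => !Nat.beq (keyC (cw c)) 0 || Nat.beq (cw c) 0 || Nat.beq (cw c) 16777215) 64 64 = true := by
    decide +kernel
  refine ⟨fun c hc => cw_lt (by omega), fun c hc => setOf_cw_mem (by omega),
    fun c hc => Nat.eq_of_beq_eq_true (allLt2_iff.1 k c hc), fun n => ?_, fun a b => ?_, fun n hn he => ?_⟩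
  · refine Nat.xor_lt_two_pow (n := 11) (and_2047_lt n) ?_
    have : (n >>> 11) &&& 1 ≤ 1 := Nat.and_le_right
    show 2047 * ((n >>> 11) &&& 1) < _
    omega
  · show ((a ^^^ b) &&& 2047) ^^^ (2047 * (((a ^^^ b) >>> 11) &&& 1)) =
      ((a &&& 2047) ^^^ (2047 * ((a >>> 11) &&& 1))) ^^^ ((b &&& 2047) ^^^ (2047 * ((b >>> 11) &&& 1)))
    rw [Nat.and_xor_distrib_right, Nat.shiftRight_xor_distrib, Nat.and_xor_distrib_right]
    have h1 : (a >>> 11) &&& 1 ≤ 1 := Nat.and_le_right
    have h2 : (b >>> 11) &&& 1 ≤ 1 := Nat.and_le_right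
    generalize (a >>> 11) &&& 1 = u at h1
    generalize (b >>> 11) &&& 1 = v at h2
    have h3 : 2047 * (u ^^^ v) = (2047 * u) ^^^ (2047 * v) := by interval_cases u <;> interval_cases v <;> rfl
    rw [h3]
    ac_rfl
  · obtain ⟨c, hc, e⟩ := mem_code_iff.1 he
    obtain rfl := (E.setOf_inj (cw_lt hc) hn).1 e
    constructor
    · intro e0
      have := allLt2_iff.1 k2 c hc
      rw [e0] at this
      simp only [Bool.or_eq_true, Nat.beq_eq] at this
      rcases this with (h | h) | h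
      · exact absurd h (by decide)
      · exact Or.inl (h ▸ E.setOf_zero)
      · exact Or.inr (h ▸ E.setOf_full)
    · rintro (h | h)
      · rw [← E.setOf_zero, E.setOf_inj hn (by norm_num)] at h
        rw [h]; rfl
      · rw [← E.setOf_full, E.setOf_inj hn (by norm_num)] at h
        rw [h]; decide +kernel

/-- the action of a table on the numbers -/
def av (rep key : ℕ → ℕ) (P c : ℕ) : ℕ := key (img24 P (rep c))

end CL.VM
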