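/- First consequences of the coordinates. -/
import Cfsg.Agent.SPOR.VM.Defs
import Cfsg.Agent.SPOR.VM.Cd
import Cfsg.Agent.SPOR.GolayMod

set_option autoImplicit false

namespace CL.VM
open Subgroup Cfsg Cfsg.Spor CL.Golay CL.MSS CL.PComp
open CL.MAut (Pm)
open scoped Pointwise symmDiff

variable {G : Type*} [Group G] {Dm Kr : Set (Finset GolayPt)} {V : Subgroup G} {θ : Finset GolayPt → G}
  {π : G → Pm}

namespace VD
variable (h : VD Dm Kr V θ π)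
include h

theorem empty_mem : ∅ ∈ Dm := by
  rcases h.ty with ⟨rfl, -⟩ | ⟨rfl, -⟩
  exacts [J4.even_empty, empty_mem_code]
theorem symmDiff_mem {s t : Finset GolayPt} (hs : s ∈ Dm) (ht : t ∈ Dm) : s ∆ t ∈ Dm := by
  rcases h.ty with ⟨rfl, -⟩ | ⟨rfl, -⟩
  exacts [J4.even_symmDiff hs ht, symmDiff_mem_code hs ht]
theorem smul_mem {g : Pm} (hg : g ∈ M24) {s : Finset GolayPt} (hs : s ∈ Dm) : g • s ∈ Dm := by
  rcases h.ty with ⟨rfl, -⟩ | ⟨rfl, -⟩
  exacts [J4.even_smul g hs, (smul_mem_code hg).2 hs]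
theorem θ_empty : θ ∅ = 1 := by
  refine (h.θ_one ∅ h.empty_mem).2 ?_
  rcases h.ty with ⟨-, rfl⟩ | ⟨-, rfl⟩
  exacts [empty_mem_code, Or.inl rfl]
theorem θ_mem {s : Finset GolayPt} (hs : s ∈ Dm) : θ s ∈ V := (h.mem_V _).2 ⟨s, hs, rfl⟩
theorem θ_sq {s : Finset GolayPt} (hs : s ∈ Dm) : θ s * θ s = 1 := by
  rw [← h.θ_mul s hs s hs, symmDiff_self]; exact h.θ_empty
theorem θ_eq_iff {s t : Finset GolayPt} (hs : s ∈ Dm) (ht : t ∈ Dm) : θ s = θ t ↔ s ∆ t ∈ Kr := by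
  rw [← h.θ_one _ (h.symmDiff_mem hs ht), h.θ_mul s hs t ht, mul_eq_one_iff_eq_inv,
    inv_eq_of_mul_eq_one_right (h.θ_sq ht)]
theorem sq_V {v : G} (hv : v ∈ V) : v * v = 1 := by
  obtain ⟨s, hs, rfl⟩ := (h.mem_V v).1 hv
  exact h.θ_sq hs
theorem inv_V {v : G} (hv : v ∈ V) : v⁻¹ = v := inv_eq_of_mul_eq_one_right (h.sq_V hv)
theorem comm_V {u v : G} (hu : u ∈ V) (hv : v ∈ V) : u * v = v * u := by
  rw [← h.inv_V (mul_mem hu hv), mul_inv_rev, h.inv_V hu, h.inv_V hv]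
theorem cent_eq : centralizer (V : Set G) = V :=
  le_antisymm h.cent fun _ hv => mem_centralizer_iff.2 fun _ hu => h.comm_V hu hv

theorem exists_cd : ∃ rep key, Cd Dm Kr rep key ∧ ((rep = repT ∧ key = keyT) ∨ (rep = cw ∧ key = keyC)) := by
  rcases h.ty with ⟨rfl, rfl⟩ | ⟨rfl, rfl⟩
  exacts [⟨_, _, cdT, Or.inl ⟨rfl, rfl⟩⟩, ⟨_, _, cdC, Or.inr ⟨rfl, rfl⟩⟩]

section
variable {rep key : ℕ → ℕ} (k : Cd Dm Kr rep key)
include k

theorem θ_key {m n : ℕ} (hm : m < 2 ^ 24) (hn : n < 2 ^ 24) (m1 : E.setOf m ∈ Dm) (n1 : E.setOf n ∈ Dm) :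
    θ (E.setOf m) = θ (E.setOf n) ↔ key m = key n := by
  rw [h.θ_eq_iff m1 n1, ← E.setOf_xor, ← k.ker _ (Nat.xor_lt_two_pow hm hn)
    (E.setOf_xor m n ▸ h.symmDiff_mem m1 n1), k.key_xor, Nat.xor_eq_zero_iff]

theorem ψ_mem {c : ℕ} (hc : c < 2048) : θ (E.setOf (rep c)) ∈ V := h.θ_mem (k.rep_mem c hc)

theorem ψ_inj {c d : ℕ} (hc : c < 2048) (hd : d < 2048) : θ (E.setOf (rep c)) = θ (E.setOf (rep d)) ↔ c = d := by
  rw [h.θ_key k (k.rep_lt c hc) (k.rep_lt d hd) (k.rep_mem c hc) (k.rep_mem d hd), k.key_rep c hc, k.key_rep d hd]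

theorem ψ_key {n : ℕ} (hn : n < 2 ^ 24) (n1 : E.setOf n ∈ Dm) : θ (E.setOf (rep (key n))) = θ (E.setOf n) :=
  (h.θ_key k (k.rep_lt _ (k.key_lt n)) hn (k.rep_mem _ (k.key_lt n)) n1).2 (k.key_rep _ (k.key_lt n))

theorem exists_ψ {v : G} (hv : v ∈ V) : ∃ c < 2048, θ (E.setOf (rep c)) = v := by
  obtain ⟨s, hs, rfl⟩ := (h.mem_V v).1 hv
  obtain ⟨n, hn, rfl⟩ := E.exists_setOf s
  exact ⟨_, k.key_lt n, h.ψ_key k hn hs⟩

theorem ψ_xor {c d : ℕ} (hc : c < 2048) (hd : d < 2048) :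
    θ (E.setOf (rep (c ^^^ d))) = θ (E.setOf (rep c)) * θ (E.setOf (rep d)) := by
  rw [← h.θ_mul _ (k.rep_mem c hc) _ (k.rep_mem d hd), ← E.setOf_xor, ← h.ψ_key k
    (Nat.xor_lt_two_pow (k.rep_lt c hc) (k.rep_lt d hd))
    (E.setOf_xor _ _ ▸ h.symmDiff_mem (k.rep_mem c hc) (k.rep_mem d hd)), k.key_xor, k.key_rep c hc, k.key_rep d hd]

theorem ψ_conj {a : G} (ha : a ∈ normalizer (V : Set G)) {P : ℕ} (hP : R (π a) P) {c : ℕ} (hc : c < 2048) :
    a * θ (E.setOf (rep c)) * a⁻¹ = θ (E.setOf (rep (av rep key P c))) := by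
  rw [h.conj a ha _ (k.rep_mem c hc), av, h.ψ_key k (hP.img_lt _)
    (hP.setOf_img _ ▸ h.smul_mem (h.π_mem a ha) (k.rep_mem c hc)), hP.setOf_img]

theorem ψ_comm {a : G} (ha : a ∈ normalizer (V : Set G)) {P : ℕ} (hP : R (π a) P) {c : ℕ} (hc : c < 2048) :
    θ (E.setOf (rep c)) ∈ centralizer {a} ↔ av rep key P c = c := by
  rw [mem_centralizer_singleton_iff, eq_comm, ← mul_inv_eq_iff_eq_mul, h.ψ_conj k ha hP hc]
  exact h.ψ_inj k (k.key_lt _) hc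

/-- counting inside `V` -/
theorem card_sub {W : Subgroup G} (hW : W ≤ V) (p : ℕ → Prop) [DecidablePred p]
    (hp : ∀ c < 2048, θ (E.setOf (rep c)) ∈ W ↔ p c) : Nat.card W = ((Finset.range 2048).filter p).card := by
  rw [← Fintype.card_coe, ← Nat.card_eq_fintype_card]
  refine (Nat.card_eq_of_bijective (fun c : (Finset.range 2048).filter p =>
    (⟨θ (E.setOf (rep c)), (hp c (Finset.mem_range.1 (Finset.mem_filter.1 c.2).1)).2
      (Finset.mem_filter.1 c.2).2⟩ : W)) ⟨fun c d e => ?_, fun w => ?_⟩).symm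
  · exact Subtype.ext ((h.ψ_inj k (Finset.mem_range.1 (Finset.mem_filter.1 c.2).1)
      (Finset.mem_range.1 (Finset.mem_filter.1 d.2).1)).1 (congrArg Subtype.val e))
  · obtain ⟨c, hc, e⟩ := h.exists_ψ k (hW w.2)
    exact ⟨⟨c, Finset.mem_filter.2 ⟨Finset.mem_range.2 hc, (hp c hc).1 (e ▸ w.2)⟩⟩, Subtype.ext e⟩

end

theorem card_V : Nat.card V = 2 ^ 11 := by
  obtain ⟨rep, key, k, -⟩ := h.exists_cd
  rw [h.card_sub k le_rfl (fun _ => True) fun c hc => iff_true_intro (h.ψ_mem k hc), Finset.filter_true,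
    Finset.card_range]
  norm_num
theorem π_one' : π 1 = 1 := (h.π_one 1 (one_mem _)).2 (one_mem _)
theorem π_inv {a : G} (ha : a ∈ normalizer (V : Set G)) : π a⁻¹ = (π a)⁻¹ :=
  map_inv h.hom ⟨a, ha⟩
theorem π_pow {a : G} (ha : a ∈ normalizer (V : Set G)) (n : ℕ) : π (a ^ n) = π a ^ n :=
  map_pow h.hom ⟨a, ha⟩ n
theorem π_conj {a b : G} (ha : a ∈ normalizer (V : Set G)) (hb : b ∈ normalizer (V : Set G)) :
    π (a * b * a⁻¹) = π a * π b * (π a)⁻¹ := by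
  rw [h.π_mul _ (mul_mem ha hb) _ (inv_mem ha), h.π_mul _ ha _ hb, h.π_inv ha]
theorem π_eq_iff {a b : G} (ha : a ∈ normalizer (V : Set G)) (hb : b ∈ normalizer (V : Set G)) :
    π a = π b ↔ a⁻¹ * b ∈ V := by
  rw [← h.π_one _ (mul_mem (inv_mem ha) hb), h.π_mul _ (inv_mem ha) _ hb, h.π_inv ha, inv_mul_eq_one]
theorem comm_θ_iff {a : G} (ha : a ∈ normalizer (V : Set G)) {s : Finset GolayPt} (hs : s ∈ Dm) :
    a * θ s = θ s * a ↔ (π a • s) ∆ s ∈ Kr := by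
  rw [← h.θ_eq_iff (h.smul_mem (h.π_mem a ha) hs) hs, ← h.conj a ha s hs, mul_inv_eq_iff_eq_mul]
/-- the commutator of an element of `N(V)` with one of `V` -/
theorem commutator_θ {a : G} (ha : a ∈ normalizer (V : Set G)) {s : Finset GolayPt} (hs : s ∈ Dm) :
    a * θ s * a⁻¹ * (θ s)⁻¹ = θ ((π a • s) ∆ s) := by
  rw [h.θ_mul _ (h.smul_mem (h.π_mem a ha) hs) _ hs, h.conj a ha s hs, h.inv_V (h.θ_mem hs)]
theorem V_le_pre (K : Subgroup Pm) : V ≤ h.pre K := fun v hv =>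
  h.mem_pre.2 ⟨le_normalizer hv, (h.π_one v (le_normalizer hv)).2 hv ▸ one_mem K⟩
theorem pre_le (K : Subgroup Pm) : h.pre K ≤ normalizer (V : Set G) := fun _ ha => (h.mem_pre.1 ha).1
theorem im_le (A : Subgroup G) : h.im A ≤ M24 := fun g hg => by
  obtain ⟨a, -, ha, rfl⟩ := h.mem_im.1 hg
  exact h.π_mem a ha
theorem card_im' {A : Subgroup G} (hA : A ≤ normalizer (V : Set G)) :
    Nat.card A = Nat.card (A ⊓ V : Subgroup G) * Nat.card (h.im A) := by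
  let f : A →* Pm := h.hom.comp (inclusion hA)
  have e1 : f.range = h.im A := by
    ext g
    rw [h.mem_im]
    exact ⟨fun ⟨a, e⟩ => ⟨a, a.2, hA a.2, e⟩, fun ⟨a, ha, _, e⟩ => ⟨⟨a, ha⟩, e⟩⟩
  have e2 : f.ker = (A ⊓ V).subgroupOf A := by
    ext a
    rw [mem_subgroupOf, mem_inf, and_iff_right a.2]
    exact h.π_one a (hA a.2)
  rw [card_eq_card_quotient_mul_card_subgroup f.ker, Nat.card_congr (QuotientGroup.quotientKerEquivRange f).toEquiv,
    e1, e2, Nat.card_congr (subgroupOfEquivOfLe inf_le_left).toEquiv, mul_comm]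
theorem im_pre {K : Subgroup Pm} (hK : K ≤ M24) : h.im (h.pre K) = K := by
  ext g
  rw [h.mem_im]
  refine ⟨?_, fun hg => ?_⟩
  · rintro ⟨a, ha, -, rfl⟩
    exact (h.mem_pre.1 ha).2
  · obtain ⟨a, ha, rfl⟩ := h.π_surj g (hK hg)
    exact ⟨a, h.mem_pre.2 ⟨ha, hg⟩, ha, rfl⟩
theorem card_pre {K : Subgroup Pm} (hK : K ≤ M24) : Nat.card (h.pre K) = 2 ^ 11 * Nat.card K := by
  rw [h.card_im' (h.pre_le K), h.im_pre hK, inf_eq_right.2 (h.V_le_pre K), h.card_V]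
theorem pre_M24 : h.pre M24 = normalizer (V : Set G) :=
  le_antisymm (h.pre_le _) fun a ha => h.mem_pre.2 ⟨ha, h.π_mem a ha⟩
theorem card_N : Nat.card (normalizer (V : Set G)) = 2 ^ 11 * 244823040 := by
  rw [← h.pre_M24, h.card_pre le_rfl, card_M24]
theorem card_im {A : Subgroup G} (hA : A ≤ normalizer (V : Set G)) :
    Nat.card A = Nat.card (A ⊓ V : Subgroup G) * Nat.card (h.im A) := h.card_im' hA
/-- an element of odd order has a lift of the same order -/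
theorem exists_lift_odd {g : Pm} (hg : g ∈ M24) {n : ℕ} (hn : Odd n) (e : g ^ n = 1) :
    ∃ a ∈ normalizer (V : Set G), π a = g ∧ a ^ n = 1 := by
  obtain ⟨a, ha, rfl⟩ := h.π_surj g hg
  have h1 : a ^ n ∈ V := (h.π_one _ (pow_mem ha n)).1 ((h.π_pow ha n).trans e)
  refine ⟨a ^ (n + 1), pow_mem ha _, by rw [h.π_pow ha, pow_succ, e, one_mul], ?_⟩
  obtain ⟨m, hm⟩ := hn.add_one
  rw [← pow_mul, mul_comm, pow_mul, hm, ← two_mul, pow_mul, pow_two, h.sq_V h1, one_pow]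

theorem map {G' : Type*} [Group G'] (φ : G ≃* G') :
    VD Dm Kr (V.map φ.toMonoidHom) (fun s => φ (θ s)) (fun a => π (φ.symm a)) := by
  have m : ∀ a, a ∈ V.map φ.toMonoidHom ↔ φ.symm a ∈ V := fun a => mem_map_equiv
  have n : ∀ a, a ∈ normalizer ((V.map φ.toMonoidHom : Subgroup G') : Set G') ↔
      φ.symm a ∈ normalizer (V : Set G) := fun a => by
    rw [← map_equiv_normalizer_eq, mem_map_equiv]
  refine ⟨h.ty, fun s hs t ht => by rw [h.θ_mul s hs t ht, map_mul], fun s hs => by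
    rw [← h.θ_one s hs, φ.map_eq_one_iff], fun v => ?_, fun a ha b hb => ?_, fun a ha => h.π_mem _ ((n a).1 ha),
    fun g hg => ?_, fun a ha => by rw [m, h.π_one _ ((n a).1 ha)], fun a ha s hs => ?_, fun c hc => ?_⟩
  · simp only [m, h.mem_V, φ.eq_symm_apply]
  · rw [map_mul, h.π_mul _ ((n a).1 ha) _ ((n b).1 hb)]
  · obtain ⟨a, ha, e⟩ := h.π_surj g hg
    exact ⟨φ a, (n _).2 (by rwa [φ.symm_apply_apply]), by rw [φ.symm_apply_apply, e]⟩
  · rw [← h.conj _ ((n a).1 ha) s hs, map_mul, map_mul, map_inv, φ.apply_symm_apply]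
  · refine (m c).2 (h.cent fun v hv => φ.injective ?_)
    rw [map_mul, map_mul, φ.apply_symm_apply]
    exact hc _ ⟨v, hv, rfl⟩
theorem cj (g : G) : VD Dm Kr (g •ᶜ V) (fun s => g * θ s * g⁻¹) (fun a => π (g⁻¹ * a * g)) := by
  simpa only [MulAut.conj_apply, MulAut.conj_symm_apply] using h.map (MulAut.conj g)

/-- PROOF. `{s ∈ Dm | θ s ∈ W}` is an `InvFam` (`SPOR/GolayMod`). -/
theorem irr {W : Subgroup G} (hW : W ≤ V) (hn : normalizer (V : Set G) ≤ normalizer (W : Set G)) :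
    W = ⊥ ∨ W = V := by
  have f : InvFam {s | s ∈ Dm ∧ θ s ∈ W} := ⟨fun s hs t ht => ⟨h.symmDiff_mem hs.1 ht.1,
    h.θ_mul s hs.1 t ht.1 ▸ mul_mem hs.2 ht.2⟩, fun g hg s hs => by
      obtain ⟨a, ha, rfl⟩ := h.π_surj g hg
      exact ⟨h.smul_mem hg hs.1, h.conj a ha s hs.1 ▸ conj_mem_of_normalizes hn ha hs.2⟩⟩
  refine or_iff_not_imp_left.2 fun h0 => le_antisymm hW fun v hv => ?_
  obtain ⟨⟨w, hw⟩, h1⟩ := ne_bot_iff_exists_ne_one.1 h0
  obtain ⟨s, hs, rfl⟩ := (h.mem_V w).1 (hW hw)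
  have h2 : s ∉ Kr := fun e => h1 (Subtype.ext ((h.θ_one s hs).2 e))
  obtain ⟨t, ht, rfl⟩ := (h.mem_V v).1 hv
  rcases h.ty with ⟨rfl, rfl⟩ | ⟨rfl, rfl⟩
  · exact (f.even_of_notMem h2 ⟨hs, hw⟩ t ht).2
  · exact (f.code_of_mem hs ⟨hs, hw⟩ (fun e => h2 (Or.inl e)) (fun e => h2 (Or.inr e)) ht).2

/-- the fixed points in `V` depend only on the class of the image -/
theorem card_fix_conj {a b : G} (ha : a ∈ normalizer (V : Set G)) (hb : b ∈ normalizer (V : Set G))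
    (e : ConjTo (π b) (π a)) :
    Nat.card (V ⊓ centralizer {a} : Subgroup G) = Nat.card (V ⊓ centralizer {b} : Subgroup G) := by
  obtain ⟨c, hc, e⟩ := e
  obtain ⟨k, hk, rfl⟩ := h.π_surj c hc
  rw [← card_cj k (V ⊓ centralizer {b}), cj_inf, cj_eq_of_mem_normalizer hk, cj_centralizer_singleton]
  congr 2
  ext v
  rw [mem_inf, mem_inf]
  refine and_congr_right fun hv => ?_
  obtain ⟨s, hs, rfl⟩ := (h.mem_V v).1 hv
  rw [mem_centralizer_singleton_iff, mem_centralizer_singleton_iff, eq_comm, h.comm_θ_iff ha hs, eq_comm,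
    h.comm_θ_iff (mul_mem (mul_mem hk hb) (inv_mem hk)) hs, h.π_conj hk hb, e]

/-- PROOF. Conjugate `π a` to `pm c2A` or `pm c2B` and count (representatives: `CL.J4.exists_rep` for type T,
`cw k` for type C, where each class is counted twice). -/
theorem card_fix {a : G} (ha : a ∈ normalizer (V : Set G)) (h2 : orderOf (π a) = 2) :
    Nat.card (V ⊓ centralizer {a} : Subgroup G) = if (fixS (π a)).card = 0 then 64 else 128 := by
  obtain ⟨rep, key, k, hk⟩ := h.exists_cd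
  have key1 : ∀ P, I M24 P → ConjTo (pm P) (π a) → Nat.card (V ⊓ centralizer {a} : Subgroup G) =
      K.sumLt2 (fun c => K.ind (av rep key P c) c) 32 64 := fun P hP e => by
    obtain ⟨b, hb, e1⟩ := h.π_surj _ hP.permOf_mem
    rw [h.card_fix_conj ha hb (e1 ▸ e), h.card_sub k inf_le_left (fun c => av rep key P c = c) fun c hc => by
      rw [mem_inf, and_iff_right (h.ψ_mem k hc), h.ψ_comm k hb (e1 ▸ hP.rep) hc], K.sumLt2_eq,
      Finset.card_filter]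
    exact Finset.sum_congr rfl fun c _ => (K.ind_eq _ _).symm
  split_ifs with h0
  · rw [key1 _ c2B_in (conjTo_2B (h.π_mem a ha) h2 h0)]
    rcases hk with ⟨rfl, rfl⟩ | ⟨rfl, rfl⟩ <;> decide +kernel
  · rw [key1 _ c2A_in (conjTo_2A (h.π_mem a ha) h2 h0)]
    rcases hk with ⟨rfl, rfl⟩ | ⟨rfl, rfl⟩ <;> decide +kernel

omit h in
/-- the check behind `lift` -/
noncomputable def liftChk (rep key : ℕ → ℕ) (L W : List ℕ) : Bool :=
  K.allLt2 (fun d => lmem (Nat.xor (av rep key c2A d) d) L) 32 64 &&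
  K.allLt2 (fun c => !Nat.beq (av rep key c2A c) c || !K.lall (fun P => lmem (Nat.xor (av rep key P c) c) L) gC2A ||
    K.lany (fun d => Nat.blt d 2048 && Nat.beq (Nat.xor (av rep key c2A d) d) c) W) 32 64

theorem lift0 : ∃ a ∈ normalizer (V : Set G), π a = pm c2A ∧ a * a = 1 := by
  obtain ⟨rep, key, k, hk⟩ := h.exists_cd
  obtain ⟨L, W, hc⟩ : ∃ L W, liftChk rep key L W = true := by
    rcases hk with ⟨rfl, rfl⟩ | ⟨rfl, rfl⟩
    · exact ⟨[0, 36, 468, 496, 541, 569, 969, 1005, 1105, 1141, 1413, 1441, 1612, 1640, 1944, 1980],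
        [0, 5, 141, 136, 133, 128, 8, 13, 4, 1, 137, 140, 129, 132, 12, 9], by decide +kernel⟩
    · exact ⟨[0, 47, 199, 232, 582, 617, 641, 686, 1089, 1134, 1158, 1193, 1543, 1576, 1728, 1775],
        [0, 74, 66, 8, 2, 72, 64, 10, 6, 76, 68, 14, 4, 78, 70, 12], by decide +kernel⟩
  rw [liftChk, Bool.and_eq_true, K.allLt2_iff, K.allLt2_iff] at hc
  obtain ⟨a, ha, e⟩ := h.π_surj _ mem_2A
  have hP : R (π a) c2A := e ▸ R_2A
  obtain ⟨c, c1, e1⟩ := h.exists_ψ k ((h.π_one _ (mul_mem ha ha)).1 (by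
    rw [h.π_mul a ha a ha, e, ← pow_two, ← orderOf_2A, pow_orderOf_eq_one]))
  have x1 : ∀ {a b : ℕ}, a < 2048 → b < 2048 → a ^^^ b < 2048 := Nat.xor_lt_two_pow (n := 11)
  have x2 : ∀ P c, av rep key P c < 2048 := fun _ _ => k.key_lt _
  have sq : ∀ d < 2048, a * θ (E.setOf (rep d)) * (a * θ (E.setOf (rep d))) =
      θ (E.setOf (rep ((av rep key c2A d ^^^ d) ^^^ c))) := fun d hd => by
    rw [h.ψ_xor k (x1 (x2 _ _) hd) c1, h.ψ_xor k (x2 _ _) hd, mul_assoc (θ _),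
      h.comm_V (h.ψ_mem k hd) (h.ψ_mem k c1), ← h.ψ_conj k ha hP hd, e1]
    group
  have := hc.2 c c1
  simp only [Bool.or_eq_true, Bool.not_eq_true', ← Bool.not_eq_true, Nat.beq_eq, K.lall_iff, K.lany_iff,
    Bool.and_eq_true, Nat.blt_eq] at this
  rcases this with (h1 | h1) | ⟨d, -, hd, h1⟩
  · exact absurd ((h.ψ_comm k ha hP c1).1 (mem_centralizer_singleton_iff.2 (by rw [e1, mul_assoc]))) h1
  · refine absurd (fun Q hQ => ?_) h1
    obtain ⟨g, hg, hr⟩ := gC2A_in Q hQ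
    obtain ⟨b, hb, rfl⟩ := h.π_surj g (mem_Cent.1 hg).1
    obtain ⟨d, hd, e2⟩ := h.exists_ψ k ((h.π_eq_iff ha (mul_mem (mul_mem hb ha) (inv_mem hb))).1 (by
      rw [h.π_conj hb ha, e, (mem_Cent.1 hg).2, mul_inv_cancel_right]))
    have e3 := sq d hd
    rw [e2, mul_inv_cancel_left, show b * a * b⁻¹ * (b * a * b⁻¹) = b * (a * a) * b⁻¹ by group, ← e1,
      h.ψ_conj k hb hr c1, h.ψ_inj k (x2 _ _) (x1 (x1 (x2 _ _) hd) c1)] at e3
    have e4 : Nat.xor (av rep key Q c) c = Nat.xor (av rep key c2A d) d := by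
      show av rep key Q c ^^^ c = av rep key c2A d ^^^ d
      rw [e3, Nat.xor_assoc, Nat.xor_self, Nat.xor_zero]
    rw [e4]
    exact hc.1 d hd
  · have m := h.ψ_mem k hd
    refine ⟨_, mul_mem ha (le_normalizer m), ?_, ?_⟩
    · rw [h.π_mul a ha _ (le_normalizer m), (h.π_one _ (le_normalizer m)).2 m, mul_one, e]
    · rw [sq d hd, show av rep key c2A d ^^^ d = c from h1, h.ψ_xor k c1 c1, h.sq_V (h.ψ_mem k c1)]

/-- PROOF. Let `x = pm c2A`, `a` a lift. `a ^ 2 ∈ C_V(x)` and its class modulo `[V, x]` is fixed by the lifts of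
`gC2A` (`k a k⁻¹ = a v` has square `a ^ 2 [a, v]`). Checked: the vectors `u ∈ C_V(x)` with `g u + u ∈ [V, x]` for both
`g ∈ gC2A` are the 16 vectors of `[V, x]`. So `a ^ 2 = [a, v]` and `a v` is an involution. -/
theorem lift {x : Pm} (hx : x ∈ M24) (h2 : x * x = 1) (hf : (fixS x).card ≠ 0) :
    ∃ a ∈ normalizer (V : Set G), π a = x ∧ a * a = 1 := by
  by_cases h1 : x = 1
  · exact ⟨1, one_mem _, h1 ▸ h.π_one', one_mul 1⟩
  obtain ⟨c, hc, rfl⟩ := conjTo_2A hx (orderOf_eq_prime ((pow_two x).trans h2) h1) hf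
  obtain ⟨k, hk, rfl⟩ := h.π_surj c hc
  obtain ⟨a, ha, e, e2⟩ := h.lift0
  refine ⟨_, mul_mem (mul_mem hk ha) (inv_mem hk), by rw [h.π_conj hk ha, e], ?_⟩
  rw [show k * a * k⁻¹ * (k * a * k⁻¹) = k * (a * a) * k⁻¹ by group, e2, mul_one, mul_inv_cancel]

end VD

theorem VD.eqT (h : VT V θ π) {s t : Finset GolayPt} (hs : Even s.card) (ht : Even t.card) :
    θ s = θ t ↔ Syn s = Syn t := by
  rw [h.θ_eq_iff hs ht, Syn_eq_iff]
/-- the non-trivial elements of type T -/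
theorem VD.casesT (h : VT V θ π) {v : G} (hv : v ∈ V) :
    v = 1 ∨ (∃ s, s.card = 2 ∧ θ s = v) ∨ ∃ s, s.card = 4 ∧ θ s = v := by
  obtain ⟨s, hs, rfl⟩ := (h.mem_V v).1 hv
  obtain ⟨u, hu, e⟩ := exists_small_Syn s
  have hu' := J4.even_of_Syn_eq e.symm hs
  have e' := (h.eqT hu' hs).2 e
  have : u.card = 0 ∨ u.card = 2 ∨ u.card = 4 := by rw [Nat.even_iff] at hu'; omega
  rcases this with e0 | e0 | e0
  · rw [Finset.card_eq_zero.1 e0, h.θ_empty] at e'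
    exact Or.inl e'.symm
  · exact Or.inr (Or.inl ⟨u, e0, e'⟩)
  · exact Or.inr (Or.inr ⟨u, e0, e'⟩)
theorem VD.conjT (h : VT V θ π) {s : Finset GolayPt} (hs : s.card = 4) :
    ∃ a ∈ normalizer (V : Set G), a * θ (E.setOf T4) * a⁻¹ = θ s := by
  obtain ⟨g, hg, e⟩ := exists_smul_eq_of_card_eq (card_T4.trans hs.symm) (by rw [card_T4]; decide)
  obtain ⟨a, ha, rfl⟩ := h.π_surj g hg
  exact ⟨a, ha, by rw [h.conj a ha _ J4.even_T4, e]⟩
theorem VD.centT (h : VT V θ π) : normalizer (V : Set G) ⊓ centralizer {θ (E.setOf T4)} =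
    h.pre (M24 ⊓ MulAction.stabilizer Pm (sex T4)) := by
  ext a
  rw [mem_inf, h.mem_pre]
  refine and_congr_right fun ha => ?_
  rw [mem_centralizer_singleton_iff, h.comm_θ_iff ha J4.even_T4, mem_inf, and_iff_right (h.π_mem a ha),
    MulAction.mem_stabilizer_iff, sex, smul_sextetOf (h.π_mem a ha), ← Syn_eq_iff]
  refine ⟨sextetOf_congr, fun e => ?_⟩
  rw [← sexHash_sextetOf ((Finset.card_smul_finset _ _).trans card_T4), e, sexHash_sextetOf card_T4]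
theorem VD.eqC (h : VC V θ π) {s t : Finset GolayPt} (hs : s ∈ Code) (ht : t ∈ Code) :
    θ s = θ t ↔ s = t ∨ s = tᶜ := by
  rw [h.θ_eq_iff hs ht]
  show s ∆ t = ⊥ ∨ s ∆ t = ⊤ ↔ _
  rw [symmDiff_eq_bot, symmDiff_eq_top, eq_compl_iff_isCompl]
/-- the non-trivial elements of type C -/
theorem VD.casesC (h : VC V θ π) {v : G} (hv : v ∈ V) :
    v = 1 ∨ (∃ s ∈ octads, θ s = v) ∨ ∃ s ∈ dodecads, θ s = v := by
  obtain ⟨s, hs, rfl⟩ := (h.mem_V v).1 hv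
  rcases card_of_mem_code hs with e | e | e | e | e
  · exact Or.inl ((h.θ_one s hs).2 (Or.inl (Finset.card_eq_zero.1 e)))
  · exact Or.inr (Or.inl ⟨s, ⟨hs, e⟩, rfl⟩)
  · exact Or.inr (Or.inr ⟨s, ⟨hs, e⟩, rfl⟩)
  · exact Or.inr (Or.inl ⟨sᶜ, ⟨compl_mem_code hs, by rw [Finset.card_compl, card_pt, e]⟩,
      (h.eqC (compl_mem_code hs) hs).2 (Or.inr rfl)⟩)
  · exact Or.inl ((h.θ_one s hs).2 (Or.inr (Finset.eq_univ_of_card _ (e.trans card_pt.symm))))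
theorem VD.conjC (h : VC V θ π) {s : Finset GolayPt} (hs : s ∈ octads) :
    ∃ a ∈ normalizer (V : Set G), a * θ (E.setOf O0) * a⁻¹ = θ s := by
  obtain ⟨g, hg, e⟩ := exists_smul_octad O0_mem hs
  obtain ⟨a, ha, rfl⟩ := h.π_surj g hg
  exact ⟨a, ha, by rw [h.conj a ha _ O0_mem.1, e]⟩
theorem VD.centC (h : VC V θ π) {s : Finset GolayPt} (hs : s ∈ octads) :
    normalizer (V : Set G) ⊓ centralizer {θ s} = h.pre (M24 ⊓ MulAction.stabilizer Pm s) := by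
  ext a
  rw [mem_inf, h.mem_pre]
  refine and_congr_right fun ha => ?_
  rw [mem_centralizer_singleton_iff, ← mul_inv_eq_iff_eq_mul, h.conj a ha s hs.1,
    h.eqC (h.smul_mem (h.π_mem a ha) hs.1) hs.1, mem_inf, and_iff_right (h.π_mem a ha), MulAction.mem_stabilizer_iff]
  refine or_iff_left fun e => ?_
  have := congrArg Finset.card e
  rw [Finset.card_smul_finset, Finset.card_compl, card_pt, (mem_octads.1 hs).2] at this
  omega

end CL.VM
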