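/- Computations in the centralisers of involutions of `M24`. -/
import Cfsg.Agent.SPOR.VM.Cd
import Cfsg.Agent.SPOR.GolayLoc

set_option autoImplicit false

namespace CL.VM.Uq
open Cfsg Cfsg.Spor CL.Golay CL.K CL.Enc CL.Orb
open scoped Pointwise

def lvB : List (ℕ × List ℕ) :=
  [(0, [956808910070693464114942713217596096, 83204951293381546236822511890414273,
  41681803006663771264372951257135810, 166208104256927678860623999984160419, 124681143114397793907714487141748388,
  664669881417103257361126678009695909, 292208848844144845761047314233473734, 250666674688622253673763736701811399,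
  830829710587878027922186778634868328, 456979270195558838106364967112660585, 747736476531141989571411414870120042,
  373892368627854780501288751498253931, 623120094996498241270572766447523436, 706212035653835559323190212789751469,
  913895052872708985147590963713232558, 498529041206137918901630025557333615, 207745213010659402585758445220351664,
  540062340321198394743379758956105393, 415442151644503072875983894621705842, 872444216458239460272918165802138323,
  332367940440529079088649356905272948, 789371272031341658177506191659449045, 581589307841416267569029016479551158,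
  1441490353233796150186332313533143]), (1, [960139612709388908960211975096961056,
  960073776451580533733545039064925248, 957590169014748908267799697375793248, 957271040402380348719653745399073920,
  957236625938916146285371698661998752, 957065235546353002881501956465611008, 957028829109484054758563834498755872,
  957182033561920483897130715050527040, 957505013857323203915707378172536160, 957112426717332985897989366076784000,
  956887967448030738014178456249222560, 956863376068094762314048250624793024, 957421407011807907890539851931038176,
  957388574531972817450697199250478592, 957335013511921826312959877308921376, 957301073361133924421567805512067648,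
  959369441968991605101417979571820128, 957142495075550871654445962900382336, 959331455310918617637209142647803552,
  956808910070693464114942713217596096]), (3, [984818244535754528103549039458486304,
  974422238081544939122441376219924512, 973122887587861701392823884636653600, 967857139963342044689680818369726496,
  966545122754800979356836019163138080, 971748839566330706286476990097983520, 982132167227327194473266876696070176,
  969162837256568004384996759176611872, 962748449556181013399451750574229536, 961438956620049001677386430328277024,
  979523344840966551745588179348457504, 978317721293770322615222185527609376, 977023451795203591179182037798520864,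
  975630375892886210127325910446704672, 970454579689078435272134634154625056, 960139612709388908960211975096961056])]

theorem lvlB : Lv (Cent (pm c2B)) lvB [] :=
  Lv.ofM (p := fun P => Nat.beq (comp24 P c2B) (comp24 c2B P))
    (fun P hP e => AllI.cent (L := [P]) (fun _ k => List.eq_of_mem_singleton k ▸ hP) R_2B
      (lall_iff.2 fun _ k => List.eq_of_mem_singleton k ▸ e) P List.mem_cons_self)
    (by decide +kernel) (card_Cent_2B_le.trans (by decide +kernel))

noncomputable def chkA (n : ℕ) (L : List ℕ) : Bool :=
  lall (fun X => Nat.blt X 16777216 && Nat.beq (pc24 X) n) L && fixSets L c2A &&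
    Nat.ble (sumP24 (cSets L) (fun P => when (fixSets L P) 1) lv0 [] one24) 2

theorem chkA_spec {n : ℕ} {L : List ℕ} (h : chkA n L = true) :
    (∀ X ∈ L, (E.setOf X).card = n ∧ pm c2A • E.setOf X = E.setOf X) ∧
      {g | g ∈ M24 ∧ ∀ X ∈ L, g • E.setOf X = E.setOf X}.ncard ≤ 2 := by
  simp only [chkA, Bool.and_eq_true, lall_iff, Nat.blt_eq, Nat.beq_eq, Nat.ble_eq] at h
  have l : ∀ X ∈ L, X < 2 ^ 24 := fun X hX => (h.1.1 X hX).1
  refine ⟨fun X hX => ⟨(card_setOf X).trans (h.1.1 X hX).2, (R.fixSets_iff R_2A l).1 h.1.2 X hX⟩, ?_⟩
  rw [lvl0.count0 (sn_cSets L) fun g P hP => when_spec (R.fixSets_iff hP l)]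
  exact h.2

def duA : List ℕ := [8388609, 6, 40, 524352, 2097280, 33280, 1049600, 147456, 272, 2304, 12288, 73728, 327680]
def ocA : List ℕ := [13062145, 421910, 4526126, 4989254, 11010247, 705094, 6100032]
theorem chkA_T : chkA 2 duA = true := by decide +kernel
theorem chkA_C : chkA 8 ocA = true := by decide +kernel
theorem ocA_mem : ∀ X ∈ ocA, E.setOf X ∈ Code := fun X hX =>
  setOf_mem_of_isCw (lall_iff.1 (show lall isCw ocA = true by decide +kernel) X hX)

variable (rep key : ℕ → ℕ)

noncomputable def spn (L : List ℕ) : List ℕ :=
  List.rec (motive := fun _ => List ℕ) [one24] (fun g _ ih => forceL ih fun S => S ++ lmap (comp24 g) S) L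

noncomputable def df (F P j : ℕ) : ℕ :=
  force (fld 11 2047 F j) fun c => force (rep c) fun r => force (img24 P r) fun n => Nat.xor (key n) c
noncomputable def msk (F P : ℕ) : ℕ := orLt (fun j => Nat.shiftLeft (ind (df rep key F P j) 0) j) 64

noncomputable def chkB (F : ℕ) (L : List ℕ) : Bool :=
  (forceL (spn L) fun Y => allP24 PC.cTrue (fun P => !Nat.beq (comp24 P P) one24 ||
      !(forceL (lmap (df rep key F P) [1, 2, 4, 8, 16, 32]) fun U =>
        lall (fun u => lall (fun v => Nat.beq u 0 || Nat.beq v 0 || Nat.beq u v) U) U) || lmem P Y) lvB [] one24 &&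
    forceL (lmap (msk rep key F) Y) fun M => lall (fun u => Nat.ble (lsum (fun v => ind (Nat.land u v) u) M) 4) M) &&
  allLt (fun j => Nat.beq (df rep key F c2B j) 0) 64

theorem chkB_T : chkB repT keyT
    78734828367563539009252885570101831016659155817269884449650768862370461506246520598643958023244052443312842501343041869450124406459140508041773773424253721370653207010615708688561233722075142365998353174243592192
    [3960232760132921627523857152429751, 3985548166006571663435364913862263, 4679749470456082224362226337907799,
    5246900427127377012587966149119671, 18225110686595120360362254324092599, 253175276184488231866430830135692967] = true := by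
  decide +kernel
theorem chkB_C : chkB cw keyC
    81037322296375773888799332094553732874078675158449469676478730227199798776011112900303291066271375334790325702101973310729075087208618105766985402266616780473993213409922309092752869972502876343610483624055468032
    [18954756559157013724352018331599959, 254517678256233849317109261406787175] = true := by
  decide +kernel

variable {rep key} {F : ℕ}

theorem df_eq (P j : ℕ) : df rep key F P j = av rep key P (fld 11 2047 F j) ^^^ fld 11 2047 F j := by
  rw [df, force_eq, force_eq, force_eq]; rfl

theorem testBit_msk (P j : ℕ) : (msk rep key F P).testBit j = true ↔ j < 64 ∧ df rep key F P j = 0 := by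
  rw [msk, testBit_orLt]
  constructor
  · rintro ⟨i, hi, h⟩
    have h' : ((ind (df rep key F P i) 0) <<< i).testBit j = true := h
    rw [ind_eq] at h'
    split_ifs at h' with e
    · rw [Nat.one_shiftLeft, Nat.testBit_two_pow, decide_eq_true_iff] at h'
      exact h' ▸ ⟨hi, e⟩
    · simp at h'
  · refine fun h => ⟨j, h.1, ?_⟩
    show ((ind (df rep key F P j) 0) <<< j).testBit j = true
    rw [h.2, ind_eq, if_pos rfl, Nat.one_shiftLeft, Nat.testBit_two_pow_self]

theorem ncard_le {Y : List ℕ} {f : ℕ → ℕ} {D : Set (Equiv.Perm GolayPt)}
    (h : ∀ y ∈ D, ∃ P ∈ Y, R y P ∧ f P = 1) : D.ncard ≤ (Y.map f).sum := by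
  induction Y generalizing D with
  | nil =>
    exact le_of_eq ((Set.ncard_eq_zero (Set.toFinite _)).2 (Set.eq_empty_of_forall_notMem fun y hy => by simpa using h y hy))
  | cons P Y ih =>
    rw [List.map_cons, List.sum_cons]
    by_cases e : f P = 1
    · have := ih (D := D \ {pm P}) fun y hy => by
        obtain ⟨Q, hQ, k⟩ := h y hy.1
        exact ⟨Q, (List.mem_cons.1 hQ).resolve_left fun l => hy.2 (l ▸ k.1.permOf_eq.symm), k⟩
      have h2 := Set.ncard_le_ncard_sdiff_add_ncard D {pm P}
      rw [Set.ncard_singleton] at h2
      omega
    · exact le_add_left (ih fun y hy => by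
        obtain ⟨Q, hQ, k⟩ := h y hy
        exact ⟨Q, (List.mem_cons.1 hQ).resolve_left fun l => e (l ▸ k.2), k⟩)

theorem chkB_spec {L : List ℕ} (h : chkB rep key F L = true) : (∀ j < 64, df rep key F c2B j = 0) ∧
    ∀ D : Set (Equiv.Perm GolayPt), (∀ y ∈ D, y ∈ Cent (pm c2B) ∧ y * y = 1 ∧ ∀ P, R y P → ∀ i < 64, ∀ j < 64,
      df rep key F P i = 0 ∨ df rep key F P j = 0 ∨ df rep key F P i = df rep key F P j) →
      ∀ y ∈ D, (∀ z ∈ D, ∀ P Q, R y P → R z Q → ∀ j < 64, df rep key F P j = 0 → df rep key F Q j = 0) →
        D.ncard ≤ 4 := by
  rw [chkB, forceL_eq, forceL_eq, Bool.and_eq_true, Bool.and_eq_true, allLt_iff, lall_iff] at h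
  refine ⟨fun j hj => Nat.eq_of_beq_eq_true (h.2 j hj), fun D hD y hy hz => ?_⟩
  have m : ∀ z ∈ D, ∃ P ∈ spn L, R z P := fun z k => by
    obtain ⟨P, hP, e⟩ := lvlB.all0 (Snd.cTrue fun _ => True) h.1.1 z (hD z k).1 trivial
    simp only [forceL_eq, lmap_eq, Bool.or_eq_true, Bool.not_eq_true', ← Bool.not_eq_true, Nat.beq_eq, lall_iff,
      lmem_iff, List.forall_mem_map, R.comp24_eq_one_iff hP hP, or_assoc] at e
    have l : ∀ i ∈ [1, 2, 4, 8, 16, 32], i < 64 := by decide
    exact ⟨P, (e.resolve_left fun e => e (hD z k).2.1).resolve_left fun e =>
      e fun i hi j hj => (hD z k).2.2 P hP i (l i hi) j (l j hj), hP⟩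
  obtain ⟨P, hP, r⟩ := m y hy
  have := h.1.2 (msk rep key F P) (lmap_eq _ _ ▸ List.mem_map_of_mem hP)
  rw [Nat.ble_eq, lsum_eq, lmap_eq, List.map_map] at this
  refine le_trans (ncard_le fun z k => ?_) this
  obtain ⟨Q, hQ, s⟩ := m z k
  refine ⟨Q, hQ, s, (ind_eq _ _).trans (if_pos (Nat.eq_of_testBit_eq fun j => ?_))⟩
  show (msk rep key F P &&& msk rep key F Q).testBit j = _
  rw [Nat.testBit_and, Bool.eq_iff_iff, Bool.and_eq_true, testBit_msk, testBit_msk]
  exact and_iff_left_of_imp fun l => ⟨l.1, hz z k P Q r s j l.1 l.2⟩

end CL.VM.Uq
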