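/- Type C: computations in the octad group. -/
import Cfsg.Agent.SPOR.VM.MDef
import Cfsg.Agent.SPOR.VM.UqChk

set_option autoImplicit false

namespace CL.VM
open Subgroup Cfsg Cfsg.Spor CL.Golay CL.K CL.Enc CL.Orb
open CL.MAut (Pm)
open scoped Pointwise symmDiff

variable {g x : Pm} {s t r : Finset GolayPt}

namespace Tc
variable {n m P : ℕ}

noncomputable def kK (n : ℕ) : Bool := force n fun m => Nat.beq m 0 || Nat.beq m 16777215
noncomputable def zK (n : ℕ) : Bool := force n fun m => kK m || kK (Nat.xor m 8536111)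
noncomputable def wK (n : ℕ) : Bool := force (Nat.land n 8536111) fun m => Nat.beq m 0 || Nat.beq m 8536111
def dd (P n : ℕ) : ℕ := Nat.xor (img24 P n) n
noncomputable def xsp (L : List ℕ) : List ℕ :=
  List.rec (motive := fun _ => List ℕ) [0] (fun c _ ih => forceL ih fun S => S ++ lmap (Nat.xor c) S) L
/-- a loop over the code words -/
noncomputable def allCw (p : ℕ → Bool) : Bool := allLt2 (fun k => force (cw k) p) 64 64

theorem xor_lt (hm : m < 2 ^ 24) (hn : n < 2 ^ 24) : Nat.xor m n < 2 ^ 24 := Nat.xor_lt_two_pow hm hn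
theorem sxor (m n : ℕ) : E.setOf (Nat.xor m n) = E.setOf m ∆ E.setOf n := E.setOf_xor m n
theorem dd_lt (hP : R g P) (hn : n < 2 ^ 24) : dd P n < 2 ^ 24 := xor_lt (hP.img_lt n) hn
theorem setOf_dd (hP : R g P) (n : ℕ) : E.setOf (dd P n) = (g • E.setOf n) ∆ E.setOf n := by
  rw [dd, sxor, hP.setOf_img]
theorem lt_of_isCw (h : isCw n = true) : n < 2 ^ 24 := by
  obtain ⟨k, hk, rfl⟩ := isCw_iff.1 h
  exact cw_lt hk

theorem allCw_spec {p : ℕ → Bool} (h : allCw p = true) (hs : s ∈ Code) :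
    ∃ n < 2 ^ 24, s = E.setOf n ∧ p n = true := by
  obtain ⟨k, hk, rfl⟩ := mem_code_iff.1 hs
  exact ⟨_, cw_lt hk, rfl, force_eq (cw k) p ▸ allLt2_iff.1 h k hk⟩

theorem kK_iff (hn : n < 2 ^ 24) : kK n = true ↔ E.setOf n ∈ K1 := by
  rw [kK, force_eq, Bool.or_eq_true, Nat.beq_eq, Nat.beq_eq]
  refine or_congr ?_ ?_
  · rw [← E.setOf_zero, E.setOf_inj hn (by norm_num)]
  · rw [← E.setOf_full, E.setOf_inj hn (by norm_num)]; rfl
theorem zK_iff (hn : n < 2 ^ 24) : zK n = true ↔ Zc (E.setOf n) := by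
  rw [zK, force_eq, Bool.or_eq_true, kK_iff hn, kK_iff (xor_lt hn (by norm_num)), sxor]; rfl
theorem inter_oc (n : ℕ) : E.setOf n ∩ oc 0 = E.setOf (Nat.land n 8536111) := (E.setOf_and n _).symm
theorem wK_iff (hc : E.setOf n ∈ Code) : wK n = true ↔ Wc (E.setOf n) := by
  have l : Nat.land n 8536111 < 2 ^ 24 := lt_of_le_of_lt Nat.and_le_right (by norm_num)
  rw [wK, force_eq, Bool.or_eq_true, Nat.beq_eq, Nat.beq_eq, Wc, and_iff_right hc, inter_oc]
  refine or_congr ?_ ?_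
  · rw [← E.setOf_zero, E.setOf_inj l (by norm_num)]
  · exact (E.setOf_inj l (by norm_num)).symm

theorem K1_smul (g : Pm) (h : s ∈ K1) : g • s ∈ K1 := by
  rcases h with rfl | rfl
  exacts [Or.inl (Finset.smul_finset_empty _), Or.inr Finset.smul_finset_univ]
theorem K1_symmDiff (h : s ∈ K1) (h' : t ∈ K1) : s ∆ t ∈ K1 := by
  rcases h with rfl | rfl <;> rcases h' with rfl | rfl
  exacts [Or.inl (symmDiff_self _), Or.inr (bot_symmDiff _), Or.inr (symmDiff_bot _), Or.inl (symmDiff_self _)]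
theorem K1_code (h : s ∈ K1) : s ∈ Code := by
  rcases h with rfl | rfl
  exacts [empty_mem_code, univ_mem_code]

theorem spn_in {H : Subgroup Pm} {L : List ℕ} (h : AllI H L) : AllI H (Uq.spn L) := by
  induction L with
  | nil => exact fun P hP => List.eq_of_mem_singleton hP ▸ ⟨1, one_mem _, R.one⟩
  | cons Q L ih =>
    have ih' := ih fun P hP => h P (List.mem_cons_of_mem _ hP)
    show AllI H (forceL (Uq.spn L) fun S => S ++ lmap (comp24 Q) S)
    rw [forceL_eq, lmap_eq]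
    intro P hP
    rcases List.mem_append.1 hP with k | k
    · exact ih' P k
    · obtain ⟨U, hU, rfl⟩ := List.mem_map.1 k
      exact I.mul _ _ (h Q List.mem_cons_self) (ih' U hU)

/-- the difference is additive -/
theorem diff_symmDiff (g : Pm) (s t : Finset GolayPt) :
    (g • (s ∆ t)) ∆ (s ∆ t) = ((g • s) ∆ s) ∆ ((g • t) ∆ t) := by
  rw [Finset.smul_finset_symmDiff, symmDiff_symmDiff_symmDiff_comm]
theorem diff_mul (g x : Pm) (s : Finset GolayPt) :
    ((g * x) • s) ∆ s = (g • ((x • s) ∆ s)) ∆ ((g • s) ∆ s) := by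
  rw [Finset.smul_finset_symmDiff, mul_smul, symmDiff_assoc, symmDiff_symmDiff_cancel_left]
theorem cancel (s t : Finset GolayPt) : (s ∆ t) ∆ s = t := by
  rw [symmDiff_comm, symmDiff_symmDiff_cancel_left]

end Tc
open Tc

theorem oc_zero : oc 0 = E.setOf O0 := rfl
theorem oc_mem (i : Fin 3) : oc i ∈ octads :=
  setOf_mem_of_isOct ((by decide +kernel : ∀ i, isOct (trOc i) = true) i)
theorem oc_code (i : Fin 3) : oc i ∈ Code := (oc_mem i).1
theorem oc_sum : oc 0 ∆ oc 1 ∆ oc 2 = Finset.univ := by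
  rw [oc, oc, oc, ← E.setOf_xor, ← E.setOf_xor, ← E.setOf_full]
  exact congrArg _ (by decide +kernel)
theorem card_Oct : Nat.card Oct = 322560 := card_stab_octad (oc_mem 0)
theorem X4_le : X4 ≤ Oct := fun _ h => (mem_Fix_iff_stab.1 h).1
theorem card_X4 : Nat.card X4 = 16 := card_Fix_octad (oc_mem 0)
theorem X4_sq (hx : x ∈ X4) : x * x = 1 := mul_self_of_mem_Fix_octad (oc_mem 0) hx
theorem X4_conj (hg : g ∈ Oct) (hx : x ∈ X4) : g * x * g⁻¹ ∈ X4 := by
  have e : g • oc 0 = oc 0 := hg.2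
  show _ ∈ Golay.Fix (oc 0)
  rw [← e, mem_Fix_smul hg.1]
  simpa [mul_assoc] using hx
theorem wc_empty : Wc ∅ := ⟨empty_mem_code, Or.inl (Finset.empty_inter _)⟩
theorem wc_oc (i : Fin 3) : Wc (oc i) :=
  (wK_iff (oc_code i)).1 ((by decide +kernel : ∀ i, wK (trOc i) = true) i)
theorem Wc.symmDiff (h : Wc s) (h' : Wc t) : Wc (s ∆ t) := by
  refine ⟨symmDiff_mem_code h.1 h'.1, ?_⟩
  have e : s ∆ t ∩ oc 0 = (s ∩ oc 0) ∆ (t ∩ oc 0) := inf_symmDiff_distrib_right s t (oc 0)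
  rw [e]
  rcases h.2 with a | a <;> rcases h'.2 with b | b <;> rw [a, b]
  exacts [Or.inl (symmDiff_self _), Or.inr (bot_symmDiff _), Or.inr (symmDiff_bot _), Or.inl (symmDiff_self _)]
theorem Wc.smul (h : Wc s) (hg : g ∈ Oct) : Wc (g • s) := by
  have e : g • oc 0 = oc 0 := hg.2
  refine ⟨(smul_mem_code hg.1).2 h.1, ?_⟩
  have e' : g • s ∩ oc 0 = g • (s ∩ oc 0) := by rw [Finset.smul_finset_inter, e]
  rw [e']
  rcases h.2 with a | a <;> rw [a]
  exacts [Or.inl (Finset.smul_finset_empty _), Or.inr e]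
theorem wc_of_K1 (h : s ∈ K1) : Wc s := by
  rcases h with rfl | rfl
  exacts [wc_empty, ⟨univ_mem_code, Or.inr (Finset.univ_inter _)⟩]
theorem not_Zc_oc : ¬ Zc (oc 1) := fun h => absurd ((zK_iff (trOc_lt 1)).2 h) (by decide +kernel)
open Classical in
theorem card_Wc : ((Finset.range 2048).filter fun c => Wc (E.setOf (cw c))).card = 32 := by
  rw [card_filter_range_eq_sum 2048 _ (fun c => when (wK (cw c)) 1) fun c hc => ?_]
  · exact (sumLt2_eq _ 32 64).symm.trans (by decide +kernel)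
  · have := when_spec (wK_iff (setOf_cw_mem (k := c) (by omega)))
    split_ifs with h
    exacts [this.1 h, this.2 h]

namespace Tc
theorem lvlX : Lv X4 lv6 [] :=
  Lvl.init (fun _ hb => by rw [List.mem_singleton.1 hb]; exact T16_fix) lvl6.ok (card_X4.trans_le (by decide +kernel))
theorem X4_all {p : ℕ → Bool} (h : allP24 PC.cTrue p lv6 [] one24 = true) (hx : x ∈ X4) : ∃ P, R x P ∧ p P = true :=
  lvlX.all0 (Snd.cTrue fun _ => True) h x hx trivial
theorem X4_list (hx : x ∈ X4) : ∃ P ∈ T16, R x P := by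
  obtain ⟨P, hP, e⟩ := X4_all (p := fun P => lmem P T16) (by decide +kernel) hx
  exact ⟨P, lmem_iff.1 e, hP⟩
theorem Zc_symmDiff (h : Zc s) (h' : Zc t) : Zc (s ∆ t) := by
  rcases h with a | a <;> rcases h' with b | b
  · exact Or.inl (K1_symmDiff a b)
  · exact Or.inr (symmDiff_assoc s t _ ▸ K1_symmDiff a b)
  · exact Or.inr (symmDiff_right_comm s (oc 0) t ▸ K1_symmDiff a b)
  · refine Or.inl ?_
    have := K1_symmDiff a b
    rwa [symmDiff_symmDiff_symmDiff_comm, symmDiff_self, symmDiff_bot] at this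
theorem Zc_smul (h : Zc s) (hg : g ∈ Oct) : Zc (g • s) := by
  have e : g • oc 0 = oc 0 := hg.2
  refine h.imp (K1_smul g) fun a => ?_
  have := K1_smul g a
  rwa [Finset.smul_finset_symmDiff, e] at this
end Tc

theorem X4_V (hx : x ∈ X4) (hs : s ∈ Code) : Wc ((x • s) ∆ s) := by
  refine ⟨symmDiff_mem_code ((smul_mem_code (mem_Fix.1 hx).1).2 hs) hs, Or.inl ?_⟩
  refine Finset.eq_empty_of_forall_notMem fun p hp => ?_
  obtain ⟨h1, h2⟩ := Finset.mem_inter.1 hp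
  have e : x⁻¹ • p = p := (mem_Fix.1 (inv_mem hx)).2 p h2
  rw [Finset.mem_symmDiff, ← Finset.inv_smul_mem_iff, e] at h1
  tauto
theorem X4_W (hx : x ∈ X4) (hs : Wc s) : Zc ((x • s) ∆ s) := by
  obtain ⟨P, hP, hr⟩ := X4_list hx
  obtain ⟨n, hn, rfl, e⟩ := allCw_spec (p := fun n => !wK n || lall (fun P => zK (dd P n)) T16)
    (by decide +kernel) hs.1
  rw [(wK_iff hs.1).2 hs, Bool.not_true, Bool.false_or] at e
  exact setOf_dd hr n ▸ (zK_iff (dd_lt hr hn)).1 (lall_iff.1 e P hP)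

namespace Tc
def W4 : List ℕ := [337856, 628112, 1161408, 2141072]
theorem W4_spec {n : ℕ} (hn : n ∈ W4) : n < 2 ^ 24 ∧ Wc (E.setOf n) ∧ E.setOf n ∩ oc 0 = ∅ := by
  have := lall_iff.1 (show lall (fun n => isCw n && Nat.beq (Nat.land n 8536111) 0) W4 = true by decide +kernel) n hn
  rw [Bool.and_eq_true, Nat.beq_eq] at this
  have e : E.setOf n ∩ oc 0 = ∅ := by rw [inter_oc, this.2, E.setOf_zero]
  exact ⟨lt_of_isCw this.1, ⟨setOf_mem_of_isCw this.1, Or.inl e⟩, e⟩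
end Tc

theorem cent_Wc (hx : x ∈ X4) (h : ∀ s, Wc s → (x • s) ∆ s ∈ K1) : x = 1 := by
  obtain ⟨P, hr, e⟩ := X4_all (p := fun P => !lall (fun n => kK (dd P n)) W4 || Nat.beq P one24)
    (by decide +kernel) hx
  rw [lall_iff.2 fun n hn => (kK_iff (dd_lt hr (W4_spec hn).1)).2 (setOf_dd hr n ▸ h _ (W4_spec hn).2.1)] at e
  exact R.eq_one (Nat.eq_of_beq_eq_true e ▸ hr)
theorem cent_X4 (hs : Wc s) (h : ∀ x ∈ X4, (x • s) ∆ s ∈ K1) : Zc s := by
  obtain ⟨n, hn, rfl, e⟩ := allCw_spec (p := fun n => !wK n || !lall (fun P => kK (dd P n)) T16 || zK n)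
    (by decide +kernel) hs.1
  rw [(wK_iff hs.1).2 hs, lall_iff.2 fun P hP => (kK_iff (dd_lt (T16_fix P hP).rep hn)).2
    (setOf_dd (T16_fix P hP).rep n ▸ h _ (T16_fix P hP).permOf_mem)] at e
  exact (zK_iff hn).1 e
theorem cWc (hg : g ∈ Oct) (h : ∀ s, Wc s → Zc ((g • s) ∆ s)) : g ∈ X4 := by
  have hp : E.dec 4 ∉ oc 0 := by rw [oc, E.mem_setOf]; decide +kernel
  have h1 : g (E.dec 4) ∈ MulAction.orbit X4 (E.dec 4) := by
    rw [orbit_Fix_octad (oc_mem 0) hp]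
    exact Finset.mem_coe.2 (Finset.mem_compl.2 (apply_notMem_of_smul_eq hg.2 hp))
  obtain ⟨⟨x, hx⟩, e⟩ := h1
  have e1 : (x⁻¹ * g) (E.dec 4) = E.dec 4 := Equiv.Perm.inv_eq_iff_eq.2 e.symm
  have e2 : x⁻¹ * g ∈ Oct := mul_mem (inv_mem (X4_le hx)) hg
  have e3 : ∀ s, Wc s → Zc (((x⁻¹ * g) • s) ∆ s) := fun s hs =>
    diff_mul x⁻¹ g s ▸ Zc_symmDiff (Zc_smul (h s hs) (inv_mem (X4_le hx))) (X4_W (inv_mem hx) hs)
  suffices k : x⁻¹ * g = 1 from inv_mul_eq_one.1 k ▸ hx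
  generalize x⁻¹ * g = k at e1 e2 e3
  have e4 : ∀ n ∈ W4, k • E.setOf n = E.setOf n := fun n hn => by
    obtain ⟨-, w, d⟩ := W4_spec hn
    have np : E.dec 4 ∉ (k • E.setOf n) ∆ E.setOf n := by
      rw [Finset.mem_symmDiff, ← Finset.inv_smul_mem_iff, show k⁻¹ • E.dec 4 = E.dec 4 from
        Equiv.Perm.inv_eq_iff_eq.2 e1.symm]
      tauto
    rcases e3 _ w with (a | a) | (a | a)
    · exact symmDiff_eq_bot.1 a
    · exact absurd (a ▸ Finset.mem_univ _) np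
    · have e : k • oc 0 = oc 0 := e2.2
      have a' : (k • E.setOf n) ∆ E.setOf n = oc 0 := symmDiff_eq_bot.1 a
      have b : (k • E.setOf n) ∆ E.setOf n ∩ oc 0 = (k • E.setOf n ∩ oc 0) ∆ (E.setOf n ∩ oc 0) :=
        inf_symmDiff_distrib_right _ _ _
      have c : k • E.setOf n ∩ oc 0 = k • (E.setOf n ∩ oc 0) := by rw [Finset.smul_finset_inter, e]
      rw [a', c, d, Finset.inter_self, Finset.smul_finset_empty, symmDiff_self] at b
      exact absurd (oc_mem 0).2 (by rw [b]; decide)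
    · have := a ▸ Finset.mem_univ (E.dec 4)
      rw [Finset.mem_symmDiff] at this
      tauto
  refine eq_one_of_fix (s := (oc 0)ᶜ) (mem_Fix.2 ⟨e2.1, fun q hq => ?_⟩)
    (by rw [Finset.card_compl, card_pt, (oc_mem 0).2]; norm_num)
  have sep : ∀ q r : GolayPt, ¬ (trOc 0).testBit (E.enc q) = true → ¬ (trOc 0).testBit (E.enc r) = true →
      (∀ n ∈ W4, n.testBit (E.enc q) = true ↔ n.testBit (E.enc r) = true) → q = r := by decide +kernel
  have hq' := Finset.mem_compl.1 hq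
  refine sep _ _ (fun a => apply_notMem_of_smul_eq e2.2 hq' (E.mem_setOf.2 a)) (fun a => hq' (E.mem_setOf.2 a))
    fun n hn => ?_
  rw [← E.mem_setOf, ← E.mem_setOf]
  conv_lhs => rw [← e4 n hn]
  exact Finset.smul_mem_smul_finset_iff k

namespace Tc
variable {n m : ℕ}
def B6 : List ℕ := [5279, 10558, 18147, 36294, 69395, 133817]
def f4 (n : ℕ) : Bool := Nat.beq (pc24 (Nat.land n 8536111)) 4
theorem f4_iff : f4 n = true ↔ (E.setOf n ∩ oc 0).card = 4 := by rw [f4, Nat.beq_eq, inter_oc, Golay.card_setOf]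
theorem B6_cw (h : n ∈ xsp B6) : isCw n = true :=
  lall_iff.1 (show lall isCw (xsp B6) = true by decide +kernel) n h
theorem B6_code (h : n ∈ xsp B6) : E.setOf n ∈ Code := setOf_mem_of_isCw (B6_cw h)
theorem red6 (hs : s ∈ Code) : ∃ n ∈ xsp B6, Wc (s ∆ E.setOf n) := by
  have k : (forceL (xsp B6) fun L => allCw fun n => lany (fun r => wK (Nat.xor n r)) L) = true := by decide +kernel
  rw [forceL_eq] at k
  obtain ⟨n, -, rfl, e⟩ := allCw_spec k hs
  obtain ⟨r, hr, e⟩ := lany_iff.1 e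
  exact ⟨r, hr, sxor n r ▸ (wK_iff (sxor n r ▸ symmDiff_mem_code hs (B6_code hr))).1 e⟩
theorem wc_congr (h : Wc (s ∆ t)) : Wc s ↔ Wc t :=
  ⟨fun a => cancel s t ▸ h.symmDiff a, fun a => symmDiff_symmDiff_cancel_right t s ▸ h.symmDiff a⟩
theorem c4_congr (h : Wc (s ∆ t)) : (s ∩ oc 0).card = 4 ↔ (t ∩ oc 0).card = 4 := by
  have e : s ∆ t ∩ oc 0 = (s ∩ oc 0) ∆ (t ∩ oc 0) := inf_symmDiff_distrib_right s t (oc 0)
  rcases h.2 with a | a <;> rw [e] at a
  · rw [symmDiff_eq_bot.1 a]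
  · have b : s ∩ oc 0 = oc 0 \ (t ∩ oc 0) := by
      rw [← symmDiff_of_ge (Finset.inter_subset_right : t ∩ oc 0 ≤ oc 0)]
      exact (symmDiff_symmDiff_cancel_right _ _).symm.trans (congrArg (· ∆ (t ∩ oc 0)) a)
    have c := Finset.card_le_card (Finset.inter_subset_right : t ∩ oc 0 ⊆ oc 0)
    rw [b, Finset.card_sdiff_of_subset Finset.inter_subset_right]
    rw [(oc_mem 0).2] at c ⊢
    omega
theorem zc_congr (h : Wc (s ∆ t)) (hx : x ∈ X4) : Zc ((x • s) ∆ s) ↔ Zc ((x • t) ∆ t) := by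
  have k := X4_W hx h
  rw [diff_symmDiff] at k
  exact ⟨fun a => cancel _ ((x • t) ∆ t) ▸ Zc_symmDiff k a,
    fun a => symmDiff_symmDiff_cancel_right _ ((x • s) ∆ s) ▸ Zc_symmDiff k a⟩
theorem wc_add {s' t' : Finset GolayPt} (h : Wc (s ∆ s')) (k : Wc (t ∆ t')) : Wc ((s ∆ t) ∆ (s' ∆ t')) :=
  symmDiff_symmDiff_symmDiff_comm s s' t t' ▸ h.symmDiff k
end Tc

theorem rkC (hs : s ∈ Code) (h : ¬ Wc s) :
    {x | x ∈ X4 ∧ Zc ((x • s) ∆ s)}.ncard = if (s ∩ oc 0).card = 4 then 4 else 1 := by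
  obtain ⟨n, hn, w⟩ := red6 hs
  have e : {x | x ∈ X4 ∧ Zc ((x • s) ∆ s)} = {x | x ∈ X4 ∧ Zc ((x • E.setOf n) ∆ E.setOf n)} :=
    Set.ext fun x => and_congr_right fun hx => zc_congr w hx
  have l := lt_of_isCw (B6_cw hn)
  rw [e, lvlX.count0 (Snd.cTrue _) (q := fun P => when (zK (dd P n)) 1) fun g P hP =>
    when_spec (setOf_dd hP n ▸ zK_iff (dd_lt hP l))]
  have k := lall_iff.1 (show lall (fun n => wK n || Nat.beq (sumP24 PC.cTrue (fun P => when (zK (dd P n)) 1) lv6 [] one24)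
    (Nat.succ (when (f4 n) 3))) (xsp B6) = true by decide +kernel) n hn
  rw [Bool.or_eq_true, wK_iff (B6_code hn), Nat.beq_eq] at k
  rw [k.resolve_left fun a => h ((wc_congr w).2 a)]
  simp only [c4_congr w, ← f4_iff]
  cases f4 n <;> rfl
theorem diffC (hs : s ∈ Code) (ht : t ∈ Code) (h4 : (s ∩ oc 0).card = 4)
    (h : ∀ x ∈ X4, Zc ((x • s) ∆ s) ↔ Zc ((x • t) ∆ t)) : Wc (s ∆ t) := by
  obtain ⟨n, hn, w⟩ := red6 hs
  obtain ⟨m, hm, w'⟩ := red6 ht
  have k : (forceL (xsp B6) fun L => lall (fun n => !f4 n || lall (fun m =>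
    !lall (fun P => zK (dd P n) == zK (dd P m)) T16 || wK (Nat.xor n m)) L) L) = true := by decide +kernel
  rw [forceL_eq] at k
  have k1 := lall_iff.1 k n hn
  rw [f4_iff.2 ((c4_congr w).1 h4), Bool.not_true, Bool.false_or] at k1
  have k2 := lall_iff.1 k1 m hm
  rw [lall_iff.2 fun P hP => ?_] at k2
  · rw [wc_congr (wc_add w w'), ← sxor]
    exact (wK_iff (sxor n m ▸ symmDiff_mem_code (B6_code hn) (B6_code hm))).1 k2
  · have r := (T16_fix P hP).rep
    have x4 := (T16_fix P hP).permOf_mem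
    rw [beq_iff_eq, Bool.eq_iff_iff, zK_iff (dd_lt r (lt_of_isCw (B6_cw hn))), zK_iff (dd_lt r (lt_of_isCw (B6_cw hm))),
      setOf_dd r, setOf_dd r, ← zc_congr w x4, ← zc_congr w' x4]
    exact h _ x4
theorem anisoC (hs : s ∈ Code) (ht : t ∈ Code) (hr : r ∈ Code) (h1 : ¬ Wc s) (h2 : ¬ Wc t) (h3 : ¬ Wc r)
    (h4 : ¬ Wc (s ∆ t)) (h5 : ¬ Wc (s ∆ r)) (h6 : ¬ Wc (t ∆ r)) (h7 : ¬ Wc (s ∆ t ∆ r)) :
    ∃ q ∈ [s, t, r, s ∆ t, s ∆ r, t ∆ r, s ∆ t ∆ r], (q ∩ oc 0).card = 4 := by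
  obtain ⟨a, ha, wa⟩ := red6 hs
  obtain ⟨b, hb, wb⟩ := red6 ht
  obtain ⟨c, hc, wc⟩ := red6 hr
  have u : ∀ {s : Finset GolayPt} {n : ℕ}, s ∈ Code → Wc (s ∆ E.setOf n) → ¬ Wc s → (wK n || f4 n) = true →
      (s ∩ oc 0).card = 4 := fun {s n} hs w h e => by
    rw [Bool.or_eq_true, wK_iff (cancel s (E.setOf n) ▸ symmDiff_mem_code w.1 hs), f4_iff, ← wc_congr w, ← c4_congr w] at e
    exact e.resolve_left h
  have k : (forceL (xsp B6) fun L => lall (fun a => (wK a || f4 a) || lall (fun b => (wK b || f4 b) ||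
    force (Nat.xor a b) fun d => (wK d || f4 d) || lall (fun c => (wK c || f4 c) ||
      (wK (Nat.xor a c) || f4 (Nat.xor a c)) || (wK (Nat.xor b c) || f4 (Nat.xor b c)) ||
      (wK (Nat.xor d c) || f4 (Nat.xor d c))) L) L) L) = true := by decide +kernel
  rw [forceL_eq] at k
  simp only [List.mem_cons, List.not_mem_nil, or_false, exists_eq_or_imp, exists_eq_left]
  rcases Bool.or_eq_true_iff.1 (lall_iff.1 k a ha) with e | e
  · exact Or.inl (u hs wa h1 e)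
  rcases Bool.or_eq_true_iff.1 (lall_iff.1 e b hb) with e | e
  · exact Or.inr (Or.inl (u ht wb h2 e))
  rw [force_eq] at e
  have wd : Wc ((s ∆ t) ∆ E.setOf (Nat.xor a b)) := sxor a b ▸ wc_add wa wb
  rcases Bool.or_eq_true_iff.1 e with e | e
  · exact Or.inr (Or.inr (Or.inr (Or.inl (u (symmDiff_mem_code hs ht) wd h4 e))))
  have e := lall_iff.1 e c hc
  rw [Bool.or_eq_true, Bool.or_eq_true, Bool.or_eq_true] at e
  rcases e with ((e | e) | e) | e
  · exact Or.inr (Or.inr (Or.inl (u hr wc h3 e)))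
  · exact Or.inr (Or.inr (Or.inr (Or.inr (Or.inl (u (symmDiff_mem_code hs hr) (sxor a c ▸ wc_add wa wc) h5 e)))))
  · exact Or.inr (Or.inr (Or.inr (Or.inr (Or.inr (Or.inl
      (u (symmDiff_mem_code ht hr) (sxor b c ▸ wc_add wb wc) h6 e))))))
  · exact Or.inr (Or.inr (Or.inr (Or.inr (Or.inr (Or.inr
      (u (symmDiff_mem_code (symmDiff_mem_code hs ht) hr) (sxor _ c ▸ wc_add wd wc) h7 e))))))

namespace Tc
def A5 : List ℕ := [235250780927652530552334623272846432, 28821637732422087043376873697556514,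
  591445815216342953532405372348891173, 225221249810983399974849370684197937, 21105654650607362773305536272221934]
def A6 : List ℕ := 605232941943790069447706914942194722 :: A5
theorem A6_in : AllI Oct A6 := (AllI.ofM (by decide +kernel)).set 8536111 (by decide +kernel)
theorem A5_in : AllI Oct A5 := fun P hP => A6_in P (List.mem_cons_of_mem _ hP)
noncomputable def cvr (S : List ℕ) (n m : ℕ) : Bool :=
  forceL (lmap (fun P => img24 P n) S) fun J => lany (fun a => lany (fun b => wK (Nat.xor (Nat.xor a b) m)) J) J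
end Tc

theorem transWc (hs : Wc s) (h : ¬ Zc s) : ∃ g ∈ Oct, (g • oc 1) ∆ s ∈ K1 := by
  have k : (forceL (lmap (fun P => img24 P 337856) (Uq.spn A6)) fun J =>
    allCw fun n => !wK n || zK n || lany (fun a => kK (Nat.xor a n)) J) = true := by decide +kernel
  rw [forceL_eq] at k
  obtain ⟨n, hn, rfl, e⟩ := allCw_spec k hs.1
  rw [(wK_iff hs.1).2 hs, Bool.or_eq_true, Bool.or_eq_true, zK_iff hn, lany_iff, lmap_eq] at e
  obtain ⟨_, a, e⟩ := e.resolve_left (not_or.2 ⟨by decide, h⟩)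
  obtain ⟨P, hP, rfl⟩ := List.mem_map.1 a
  obtain ⟨g, hg, r⟩ := spn_in A6_in P hP
  rw [kK_iff (xor_lt (R.img_lt r _) hn), sxor, R.setOf_img r] at e
  exact ⟨g, hg, e⟩
theorem irrC {P : Finset GolayPt → Prop} (h0 : ∀ s, Wc s → P s)
    (h1 : ∀ s ∈ Code, ∀ t ∈ Code, P s → P t → P (s ∆ t)) (h2 : ∀ g ∈ Oct, ∀ s ∈ Code, P s → P (g • s))
    (hs : s ∈ Code) (hp : P s) (hn : ¬ Wc s) : ∀ t ∈ Code, P t := by
  have c : ∀ {s t : Finset GolayPt}, s ∈ Code → Wc (s ∆ t) → P s → P t := fun {s t} hs w p =>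
    cancel s t ▸ h1 _ w.1 _ hs (h0 _ w) p
  have d : ∀ {n m : ℕ}, E.setOf n ∈ Code → E.setOf m ∈ Code → cvr (Uq.spn A5) n m = true → P (E.setOf n) →
      P (E.setOf m) := fun {n m} hn hm e p => by
    rw [cvr, forceL_eq, lmap_eq, lany_iff] at e
    obtain ⟨_, a, e⟩ := e
    obtain ⟨_, b, e⟩ := lany_iff.1 e
    obtain ⟨U, hU, rfl⟩ := List.mem_map.1 a
    obtain ⟨W, hW, rfl⟩ := List.mem_map.1 b
    obtain ⟨u, hu, ru⟩ := spn_in A5_in U hU
    obtain ⟨w, hw, rw⟩ := spn_in A5_in W hW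
    have cu := (smul_mem_code hu.1).2 hn
    have cw := (smul_mem_code hw.1).2 hn
    have e1 : E.setOf (Nat.xor (Nat.xor (img24 U n) (img24 W n)) m) = (u • E.setOf n) ∆ (w • E.setOf n) ∆ E.setOf m := by
      rw [sxor, sxor, R.setOf_img ru, R.setOf_img rw]
    rw [wK_iff (e1 ▸ symmDiff_mem_code (symmDiff_mem_code cu cw) hm), e1] at e
    exact c (symmDiff_mem_code cu cw) e (h1 _ cu _ cw (h2 u hu _ hn p) (h2 w hw _ hn p))
  have k : (forceL (Uq.spn A5) fun S => lall (fun n => (wK n || cvr S n 5279) && cvr S 5279 n) (xsp B6)) = true := by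
    decide +kernel
  simp only [forceL_eq, lall_iff, Bool.and_eq_true, Bool.or_eq_true] at k
  have c0 : E.setOf 5279 ∈ Code := setOf_mem_of_isCw (by decide +kernel)
  obtain ⟨n, a, w⟩ := red6 hs
  have p0 := d (B6_code a) c0 ((k n a).1.resolve_left fun e => hn ((wc_congr w).2 ((wK_iff (B6_code a)).1 e))) (c hs w hp)
  intro t ht
  obtain ⟨m, b, w'⟩ := red6 ht
  exact c (B6_code b) (symmDiff_comm t _ ▸ w') (d c0 (B6_code b) (k m b).2 p0)

end CL.VM
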