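/- Type C: computations in the trio group. -/
import Cfsg.Agent.SPOR.VM.CM1

set_option autoImplicit false

namespace CL.VM
open Subgroup Cfsg Cfsg.Spor CL.Golay CL.K CL.Enc CL.Orb
open CL.MAut (Pm)
open scoped Pointwise symmDiff

variable {g x : Pm} {s t r : Finset GolayPt}
open Tc

namespace Tc
theorem lvlT : Lv T0 lvTr [] := lvlTr
theorem T0_all {p : ℕ → Bool} (h : allP24 PC.cTrue p lvTr [] one24 = true) (hg : g ∈ T0) : ∃ P, R g P ∧ p P = true :=
  lvlT.all0 (Snd.cTrue fun _ => True) h g hg trivial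
theorem T0_in {L : List ℕ} (h : (lall okM L && lall (fun P => Nat.beq (img24 P 8536111) 8536111) L &&
    lall (fun P => Nat.beq (img24 P 337856) 337856) L) = true) : AllI T0 L := by
  rw [Bool.and_eq_true, Bool.and_eq_true] at h
  exact ((AllI.ofM h.1.1).set _ h.1.2).set _ h.2
theorem gT6_in : AllI T0 gT6 := T0_in (by decide +kernel)
end Tc

theorem card_T0 : Nat.card T0 = 10752 := by
  have := lvlT.card_eq
  rw [fixP_nil] at this
  exact this.trans (by decide +kernel)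
theorem T0_oc (hg : g ∈ T0) (i : Fin 3) : g • oc i = oc i := by
  have e0 : g • oc 0 = oc 0 := hg.1.2
  have e1 : g • oc 1 = oc 1 := hg.2
  have e2 : oc 2 = (oc 0 ∆ oc 1) ∆ Finset.univ := by rw [← oc_sum, symmDiff_symmDiff_cancel_left]
  fin_cases i
  exacts [e0, e1, show g • oc 2 = oc 2 by
    rw [e2, Finset.smul_finset_symmDiff, Finset.smul_finset_symmDiff, e0, e1, Finset.smul_finset_univ]]
theorem T6_le : T6 ≤ T0 := gT6_in.grp_le

namespace Tc
variable {n m P Q : ℕ}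
theorem O2_in : AllI T6 trO2 := fun P hP => by
  have k : (forceL (Uq.spn gT6) fun S => lall (fun P => lmem P S) trO2) = true := by decide +kernel
  rw [forceL_eq] at k
  exact spn_in gT6_in.toGrp P (lmem_iff.1 (lall_iff.1 k P hP))
theorem O2_mem (hP : P ∈ trO2) (hr : R x P) : x ∈ T6 := hr.permOf_eq ▸ (O2_in P hP).permOf_mem
theorem T6_list (hx : x ∈ T6) : ∃ P ∈ trO2, R x P := by
  have k : lall (fun Q => Nat.beq (comp24 Q Q) one24 && lall (fun P => lmem (comp24 Q P) trO2) trO2) gT6 = true := by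
    decide +kernel
  simp only [lall_iff, Bool.and_eq_true, Nat.beq_eq, lmem_iff] at k
  induction hx using closure_induction_left with
  | one => exact ⟨one24, List.mem_cons_self, R.one⟩
  | mul_left a ha b _ ih =>
    obtain ⟨j, hj, rfl⟩ := ha
    obtain ⟨P, hP, r⟩ := ih
    exact ⟨_, (k _ (lget_mem hj)).2 P hP, R.mul (gT6_in _ (lget_mem hj)).rep r⟩
  | inv_mul_cancel a ha b _ ih =>
    obtain ⟨j, hj, rfl⟩ := ha
    obtain ⟨P, hP, r⟩ := ih
    have r' := (gT6_in _ (lget_mem hj)).rep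
    rw [inv_eq_of_mul_eq_one_right ((R.comp24_eq_one_iff r' r').1 (k _ (lget_mem hj)).1)]
    exact ⟨_, (k _ (lget_mem hj)).2 P hP, R.mul r' r⟩
theorem mul_T6_iff (hg : R g P) (hx : R x Q) : lmem (comp24 P Q) trO2 = true ↔ g * x ∈ T6 := by
  refine ⟨fun h => O2_mem (lmem_iff.1 h) (hg.mul hx), fun h => ?_⟩
  obtain ⟨U, hU, r⟩ := T6_list h
  rw [(R.comp24_eq_iff hg hx r R.one).2 (mul_one _).symm, Nat.eq_of_beq_eq_true (lall_iff.1
    (show lall (fun U => Nat.beq (comp24 U one24) U) trO2 = true by decide +kernel) U hU)]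
  exact lmem_iff.2 hU
/-- induction over `T0` -/
theorem T0_ind {p : Pm → Prop} {q : ℕ → Bool} (h1 : p 1) (hm : ∀ a ∈ T0, ∀ b ∈ T0, p a → p b → p (a * b))
    (hq : ∀ g P, R g P → q P = true → p g) (h : lall (fun bT : ℕ × List ℕ => lall q bT.2) lvTr = true)
    (hg : g ∈ T0) : p g := by
  let H : Subgroup Pm :=
    { carrier := {g | g ∈ T0 ∧ p g}
      one_mem' := ⟨one_mem _, h1⟩
      mul_mem' := fun {a b} ha hb => ⟨mul_mem ha.1 hb.1, hm a ha.1 b hb.1 ha.2 hb.2⟩
      inv_mem' := fun {a} ha => by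
        have k : ∀ n : ℕ, p (a ^ n) := fun n => by
          induction n with
          | zero => exact (pow_zero a).symm ▸ h1
          | succ n ih => exact (pow_succ a n).symm ▸ hm _ (pow_mem ha.1 n) a ha.1 ih ha.2
        refine ⟨inv_mem ha.1, ?_⟩
        rw [inv_eq_of_mul_eq_one_left ((pow_sub_one_mul (orderOf_pos a).ne' a).trans (pow_orderOf_eq_one a))]
        exact k _ }
  have e : H = T0 := eq_of_le_of_card_ge (fun _ h => h.1) (le_trans (card_T0.trans_le (by decide +kernel))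
    (trans_le (lv := lvTr) (H := H) (fun bT hb P hP => by
      obtain ⟨a, ha, r⟩ := lvlT.mem bT hb P hP
      exact ⟨a, ⟨(mem_fixP.1 ha).1, hq a P r (lall_iff.1 (lall_iff.1 h bT hb) P hP)⟩, r⟩) lvlT.ok))
  exact (e.ge hg).2
end Tc

theorem card_T6 : Nat.card T6 = 64 := by
  refine le_antisymm ?_ ?_
  · rw [← Nat.card_congr (topEquiv (G := T6)).toEquiv]
    exact card_le_length (L := trO2) fun x _ => T6_list x.2
  · rw [← trHom_spec.2.1, ← card_map_of_injective (subtype_injective _)]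
    refine card_le_of_le ?_
    rintro _ ⟨a, ha, rfl⟩
    obtain ⟨P, hP, r⟩ := mem_trO2 ha
    exact O2_mem hP r
theorem T6_sq (hx : x ∈ T6) : x * x = 1 := by
  obtain ⟨P, hP, r⟩ := T6_list hx
  exact (r.comp24_eq_one_iff r).1 (Nat.eq_of_beq_eq_true (lall_iff.1
    (show lall (fun P => Nat.beq (comp24 P P) one24) trO2 = true by decide +kernel) P hP))

namespace Tc
variable {n m P Q : ℕ}
noncomputable def nrm (P : ℕ) : Bool := force (inv24 P) fun U => lall (fun Q => lmem (comp24 (comp24 P Q) U) trO2) gT6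
theorem nrm_spec (hg : R g P) (h : nrm P = true) : ∀ x ∈ T6, g * x * g⁻¹ ∈ T6 := by
  rw [nrm, force_eq, lall_iff] at h
  have : T6 ≤ T6.comap (MulAut.conj g).toMonoidHom := AllI.grp_le fun Q hQ =>
    ⟨_, (mul_T6_iff (hg.mul (gT6_in Q hQ).rep) hg.inv).1 (h Q hQ), (gT6_in Q hQ).rep⟩
  exact fun x hx => this hx
def lvT6 : List (ℕ × List ℕ) := [(0, [984818244535754528103549039458486304, 130598015864044605928878311064978433, 587520131950013456627591089756471842,
  47521257928566290314400023806220003, 712135271031710147258693856465587653, 89059644760354715286510481426668718,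
  213674760570258708665336778585474129, 5982887659023704440996624878057591]), (4, [980224387687010295957922729495201824, 983548720921252936276249910206105632, 970499966350631336865513127433832480,
  961365507626256404119956257276790816, 981818691054096003685363657089320992, 971592882964418941354553515258775584,
  984818244535754528103549039458486304, 975346028712660580592452217730074656])]
theorem lvlT6 : Lv T6 lvT6 [] :=
  Lvl.init (fun bT hb P hP => O2_in P (lmem_iff.1 (lall_iff.1 (lall_iff.1 (show lall (fun bT : ℕ × List ℕ =>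
    lall (fun P => lmem P trO2) bT.2) lvT6 = true by decide +kernel) bT hb) P hP))) (by decide +kernel)
    (card_T6.trans_le (by decide +kernel))
theorem T6_comm {x' : Pm} (hx : x ∈ T6) (hx' : x' ∈ T6) : x * x' = x' * x := by
  rw [← inv_eq_of_mul_eq_one_right (T6_sq (mul_mem hx hx')), mul_inv_rev, inv_eq_of_mul_eq_one_right (T6_sq hx),
    inv_eq_of_mul_eq_one_right (T6_sq hx')]
end Tc

theorem T6_conj (hg : g ∈ T0) (hx : x ∈ T6) : g * x * g⁻¹ ∈ T6 :=
  T0_ind (p := fun g => ∀ x ∈ T6, g * x * g⁻¹ ∈ T6) (q := nrm) (fun x hx => by simpa using hx)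
    (fun a _ b _ ha hb x hx => by simpa [mul_assoc] using ha _ (hb x hx)) (fun _ _ => nrm_spec)
    (by decide +kernel) hg x hx

namespace Tc
variable {n m P Q : ℕ}
def U8 : List ℕ := [0, 16777215, 8536111, 8241104, 337856, 16439359, 7903248, 8873967]
noncomputable def uK (n : ℕ) : Bool := force n fun m => lmem m U8
theorem U8_lt (h : n ∈ U8) : n < 2 ^ 24 := by revert n; decide
theorem uK_iff (hn : n < 2 ^ 24) : uK n = true ↔ Uc (E.setOf n) := by
  have e : ∀ i, E.setOf n ∆ oc i ∈ K1 ↔ kK (Nat.xor n (trOc i)) = true := fun i => by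
    rw [kK_iff (xor_lt hn (trOc_lt i)), sxor]; rfl
  rw [uK, force_eq, lmem_iff, Uc, ← kK_iff hn]
  simp only [e]
  constructor
  · exact (by decide +kernel : ∀ n ∈ U8, kK n = true ∨ ∃ i, kK (Nat.xor n (trOc i)) = true) n
  · have c : ∀ a b : ℕ, Nat.xor n a = b → n = Nat.xor b a := fun a b h => by
      rw [← h]; exact (Nat.xor_xor_cancel_right n a).symm
    simp only [kK, force_eq, Bool.or_eq_true, Nat.beq_eq]
    rintro ((h | h) | ⟨i, h | h⟩)
    · rw [h]; decide
    · rw [h]; decide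
    · exact c _ _ h ▸ (by decide +kernel : ∀ i, Nat.xor 0 (trOc i) ∈ U8) i
    · exact c _ _ h ▸ (by decide +kernel : ∀ i, Nat.xor 16777215 (trOc i) ∈ U8) i
theorem Uc_list (h : Uc s) : ∃ n ∈ U8, s = E.setOf n := by
  obtain ⟨n, hn, rfl⟩ := E.exists_setOf s
  have := (uK_iff hn).2 h
  rw [uK, force_eq, lmem_iff] at this
  exact ⟨n, this, rfl⟩
theorem Uc_code (h : Uc s) : s ∈ Code := by
  obtain ⟨n, hn, rfl⟩ := Uc_list h
  exact setOf_mem_of_isCw (lall_iff.1 (show lall isCw U8 = true by decide +kernel) n hn)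
theorem uc_empty : Uc ∅ := Or.inl (Or.inl rfl)
theorem uc_dd (hP : R g P) (hn : n < 2 ^ 24) : uK (dd P n) = true ↔ Uc ((g • E.setOf n) ∆ E.setOf n) :=
  setOf_dd hP n ▸ uK_iff (dd_lt hP hn)
theorem k1_dd (hP : R g P) (hn : n < 2 ^ 24) : kK (dd P n) = true ↔ (g • E.setOf n) ∆ E.setOf n ∈ K1 :=
  setOf_dd hP n ▸ kK_iff (dd_lt hP hn)
end Tc

theorem Uc.symmDiff (h : Uc s) (h' : Uc t) : Uc (s ∆ t) := by
  obtain ⟨n, hn, rfl⟩ := Uc_list h
  obtain ⟨m, hm, rfl⟩ := Uc_list h'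
  exact sxor n m ▸ (uK_iff (xor_lt (U8_lt hn) (U8_lt hm))).1 (lall_iff.1 (lall_iff.1
    (show lall (fun n => lall (fun m => uK (Nat.xor n m)) U8) U8 = true by decide +kernel) n hn) m hm)
theorem Uc.smul (h : Uc s) (hg : g ∈ T0) : Uc (g • s) := by
  refine h.imp (K1_smul g) fun ⟨i, a⟩ => ⟨i, ?_⟩
  have := K1_smul g a
  rwa [Finset.smul_finset_symmDiff, T0_oc hg] at this
theorem v8_empty : V8 ∅ := ⟨empty_mem_code, fun t _ => by
  rw [Finset.smul_finset_empty, symmDiff_self]; exact uc_empty⟩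
theorem V8.symmDiff (h : V8 s) (h' : V8 t) : V8 (s ∆ t) :=
  ⟨symmDiff_mem_code h.1 h'.1, fun x hx => diff_symmDiff x s t ▸ (h.2 x hx).symmDiff (h'.2 x hx)⟩
theorem V8.smul (h : V8 s) (hg : g ∈ T0) : V8 (g • s) := by
  refine ⟨(smul_mem_code hg.1.1).2 h.1, fun x hx => ?_⟩
  have := (h.2 _ (T6_conj (inv_mem hg) hx)).smul hg
  rwa [Finset.smul_finset_symmDiff, smul_smul, inv_inv, ← mul_assoc, mul_inv_cancel_left, mul_smul] at this

namespace Tc
variable {n m P Q : ℕ}
noncomputable def vK (n : ℕ) : Bool := force n fun m => Nat.beq (Nat.land (Nat.lor (pc24 (Nat.land m 131079))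
  (Nat.lor (pc24 (Nat.land m 8388619)) (pc24 (Nat.land m 45)))) 1) 0
theorem vK_iff (hn : n < 2 ^ 24) (hc : E.setOf n ∈ Code) : vK n = true ↔ V8 (E.setOf n) := by
  obtain ⟨m, hm, e, k⟩ := allCw_spec (p := fun n => vK n == lall (fun P => uK (dd P n)) gT6) (by decide +kernel) hc
  obtain rfl := (E.setOf_inj hn hm).1 e
  rw [beq_iff_eq.1 k, lall_iff, V8, and_iff_right hc]
  refine ⟨fun h => ?_, fun h P hP => (uc_dd (gT6_in P hP).rep hn).2 (h _ (gT6_in.toGrp P hP).permOf_mem)⟩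
  let H : Subgroup Pm :=
    { carrier := {g | g ∈ T0 ∧ Uc ((g • E.setOf n) ∆ E.setOf n)}
      one_mem' := ⟨one_mem _, by rw [one_smul, symmDiff_self]; exact uc_empty⟩
      mul_mem' := fun {a b} ha hb => ⟨mul_mem ha.1 hb.1, diff_mul a b _ ▸ (hb.2.smul ha.1).symmDiff ha.2⟩
      inv_mem' := fun {a} ha => ⟨inv_mem ha.1, by
        have := ha.2.smul (inv_mem ha.1)
        rwa [Finset.smul_finset_symmDiff, inv_smul_smul, symmDiff_comm] at this⟩ }
  have : T6 ≤ H := AllI.grp_le fun P hP =>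
    ⟨_, ⟨(gT6_in P hP).permOf_mem, (uc_dd (gT6_in P hP).rep hn).1 (h P hP)⟩, (gT6_in P hP).rep⟩
  exact fun t ht => (this ht).2
theorem vK_cw {c : ℕ} (hc : c < 2048) : vK (cw c) = true ↔ V8 (E.setOf (cw c)) :=
  vK_iff (cw_lt (by omega)) (setOf_cw_mem (by omega))
theorem vK_xor (hm : m < 2 ^ 24) (hn : n < 2 ^ 24) (cm : E.setOf m ∈ Code) (cn : E.setOf n ∈ Code) :
    vK (Nat.xor m n) = true ↔ V8 (E.setOf m ∆ E.setOf n) :=
  sxor m n ▸ vK_iff (xor_lt hm hn) ((sxor m n).symm ▸ symmDiff_mem_code cm cn)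
theorem v8_dd (hg : g ∈ M24) (hP : R g P) (hn : n < 2 ^ 24) (hc : E.setOf n ∈ Code) :
    vK (dd P n) = true ↔ V8 ((g • E.setOf n) ∆ E.setOf n) :=
  hP.setOf_img n ▸ vK_xor (hP.img_lt n) hn ((hP.setOf_img n).symm ▸ (smul_mem_code hg).2 hc) hc
/-- representatives of the seven non-trivial classes -/
def L7 : List ℕ := [36294, 10558, 42232, 5279, 39257, 15777, 45159]
theorem L7_spec (h : n ∈ L7) : n < 2 ^ 24 ∧ E.setOf n ∈ Code :=
  have k := lall_iff.1 (show lall isCw L7 = true by decide +kernel) n h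
  ⟨lt_of_isCw k, setOf_mem_of_isCw k⟩
theorem red7 (hs : s ∈ Code) (h : ¬ V8 s) : ∃ n ∈ L7, V8 (s ∆ E.setOf n) := by
  obtain ⟨n, hn, rfl, e⟩ := allCw_spec (p := fun n => vK n || lany (fun r => vK (Nat.xor n r)) L7) (by decide +kernel) hs
  rw [Bool.or_eq_true, vK_iff hn hs, lany_iff] at e
  obtain ⟨r, hr, e⟩ := e.resolve_left h
  exact ⟨r, hr, (vK_xor hn (L7_spec hr).1 hs (L7_spec hr).2).1 e⟩
theorem v8_congr (h : V8 (s ∆ t)) : V8 s ↔ V8 t :=
  ⟨fun a => cancel s t ▸ h.symmDiff a, fun a => symmDiff_symmDiff_cancel_right t s ▸ h.symmDiff a⟩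
theorem uc_congr (h : V8 (s ∆ t)) (hx : x ∈ T6) : Uc ((x • s) ∆ s) ↔ Uc ((x • t) ∆ t) := by
  have k := h.2 x hx
  rw [diff_symmDiff] at k
  exact ⟨fun a => cancel _ ((x • t) ∆ t) ▸ k.symmDiff a,
    fun a => symmDiff_symmDiff_cancel_right _ ((x • s) ∆ s) ▸ k.symmDiff a⟩
theorem v8_add {s' t' : Finset GolayPt} (h : V8 (s ∆ s')) (k : V8 (t ∆ t')) : V8 ((s ∆ t) ∆ (s' ∆ t')) :=
  symmDiff_symmDiff_symmDiff_comm s s' t t' ▸ h.symmDiff k
theorem app_comm (hg : R g P) (hx : R x Q) (h : x * g = g * x) {b : ℕ} (hb : b < 24) :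
    app24 Q (app24 P b) = app24 P (app24 Q b) := by
  rw [app24_eq, app24_eq, app24_eq, app24_eq, hg.fld_eq hb, hx.fld_eq hb, ← hg, ← hx]
  exact congrArg (fun u : Pm => E.enc (u (E.dec b))) h
/-- counting among the 2048 classes -/
noncomputable def cnt2 (p : ℕ → Bool) : ℕ := sumLt2 (fun c => force (cw c) fun n => when (p n) 1) 32 64
theorem cnt2_eq {p : ℕ → Bool} {q : ℕ → Prop} [DecidablePred q] (h : ∀ c < 2048, p (cw c) = true ↔ q c) :
    ((Finset.range 2048).filter q).card = cnt2 p := by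
  rw [card_filter_range_eq_sum 2048 _ (fun c => force (cw c) fun n => when (p n) 1) fun c hc => ?_]
  · exact (sumLt2_eq _ 32 64).symm
  · have := when_spec (h c hc)
    rw [force_eq]
    split_ifs with h
    exacts [this.1 h, this.2 h]
end Tc

theorem Wc.v8 (h : Wc s) : V8 s := by
  obtain ⟨n, hn, rfl, e⟩ := allCw_spec (p := fun n => !wK n || vK n) (by decide +kernel) h.1
  rw [(wK_iff h.1).2 h] at e
  exact (vK_iff hn h.1).1 e
theorem Uc.v8 (h : Uc s) : V8 s := by
  obtain ⟨n, hn, rfl⟩ := Uc_list h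
  exact (vK_iff (U8_lt hn) (Uc_code h)).1 (lall_iff.1 (show lall vK U8 = true by decide +kernel) n hn)
open Classical in
theorem card_V8 : ((Finset.range 2048).filter fun c => V8 (E.setOf (cw c))).card = 256 :=
  (cnt2_eq fun _ => vK_cw).trans (by decide +kernel)
theorem T6_V (hx : x ∈ T6) (hs : s ∈ Code) : V8 ((x • s) ∆ s) := by
  by_cases h : V8 s
  · exact (h.2 x hx).v8
  obtain ⟨n, hn, w⟩ := red7 hs h
  obtain ⟨P, hP, r⟩ := T6_list hx
  have k := (w.2 x hx).v8
  rw [diff_symmDiff] at k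
  exact (v8_congr k).2 ((v8_dd (T6_le hx).1.1 r (L7_spec hn).1 (L7_spec hn).2).1 (lall_iff.1 (lall_iff.1
    (show lall (fun n => lall (fun P => vK (dd P n)) trO2) L7 = true by decide +kernel) n hn) P hP))
theorem cent_V8 (hg : g ∈ M24) (h : ∀ s, V8 s → (g • s) ∆ s ∈ K1) : g = 1 := by
  let L : List ℕ := [2141072, 140167, 8611330, 6337856, 13142054, 8966165]
  have k : ∀ n ∈ L, n < 2 ^ 24 ∧ g • E.setOf n = E.setOf n := fun n hn => by
    have a := lall_iff.1 (show lall (fun n => isCw n && vK n && Nat.beq (pc24 n) 8) L = true by decide +kernel) n hn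
    rw [Bool.and_eq_true, Bool.and_eq_true, Nat.beq_eq, ← Golay.card_setOf] at a
    have l := lt_of_isCw a.1.1
    refine ⟨l, ?_⟩
    rcases h _ ((vK_iff l (setOf_mem_of_isCw a.1.1)).1 a.1.2) with e | e
    · exact symmDiff_eq_bot.1 e
    · have c := Finset.card_le_card (symmDiff_le_sup (a := g • E.setOf n) (b := E.setOf n))
      have d := Finset.card_union_le (g • E.setOf n) (E.setOf n)
      rw [e, Finset.card_univ, card_pt, Finset.sup_eq_union] at c
      rw [Finset.card_smul_finset] at d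
      omega
  obtain ⟨P, r, e⟩ := lvl0.all0 (sn_cSets L) (p := fun P => !fixSets L P || Nat.beq P one24) (by decide +kernel) g hg
    fun n hn => (k n hn).2
  rw [(R.fixSets_iff r fun n hn => (k n hn).1).2 fun n hn => (k n hn).2] at e
  exact R.eq_one (Nat.eq_of_beq_eq_true e ▸ r)
theorem cent_T6 (hg : g ∈ T0) (h : ∀ x ∈ T6, x * g = g * x) : g ∈ T6 := by
  obtain ⟨P, r, e⟩ := T0_all (p := fun P => !lall (fun Q => Nat.beq (app24 Q (app24 P 0)) (app24 P (app24 Q 0))) gT6 ||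
    lmem P trO2) (by decide +kernel) hg
  rw [lall_iff.2 fun Q hQ => ?_] at e
  · exact O2_mem (lmem_iff.1 e) r
  · exact Nat.beq_eq ▸ app_comm r (gT6_in Q hQ).rep (h _ (gT6_in.toGrp Q hQ).permOf_mem) (by norm_num)
theorem cE3 (hg : g ∈ T0) (h : ∀ s ∈ Code, V8 ((g • s) ∆ s)) : g ∈ T6 := by
  obtain ⟨P, r, e⟩ := T0_all (p := fun P => !(vK (dd P 5279) && vK (dd P 10558) && vK (dd P 36294)) || lmem P trO2)
    (by decide +kernel) hg
  have k : ∀ n ∈ L7, vK (dd P n) = true := fun n hn =>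
    (v8_dd hg.1.1 r (L7_spec hn).1 (L7_spec hn).2).2 (h _ (L7_spec hn).2)
  rw [k _ (by decide), k _ (by decide), k _ (by decide)] at e
  exact O2_mem (lmem_iff.1 e) r
theorem rkE3 (hs : s ∈ Code) (h : ¬ V8 s) : {x | x ∈ T6 ∧ Uc ((x • s) ∆ s)}.ncard = 4 := by
  obtain ⟨n, hn, w⟩ := red7 hs h
  have e : {x | x ∈ T6 ∧ Uc ((x • s) ∆ s)} = {x | x ∈ T6 ∧ Uc ((x • E.setOf n) ∆ E.setOf n)} :=
    Set.ext fun x => and_congr_right fun hx => uc_congr w hx
  rw [e, lvlT6.count0 (Snd.cTrue _) (q := fun P => when (uK (dd P n)) 1) fun g P hP =>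
    when_spec (uc_dd hP (L7_spec hn).1)]
  exact Nat.eq_of_beq_eq_true (lall_iff.1 (show lall (fun n => Nat.beq
    (sumP24 PC.cTrue (fun P => when (uK (dd P n)) 1) lvT6 [] one24) 4) L7 = true by decide +kernel) n hn)
theorem four3 (hs : s ∈ Code) (ht : t ∈ Code) (h1 : ¬ V8 s) (h2 : ¬ V8 t) (h3 : ¬ V8 (s ∆ t)) (hx : x ∈ T6)
    (e1 : Uc ((x • s) ∆ s)) (e2 : Uc ((x • t) ∆ t)) : x = 1 := by
  obtain ⟨n, hn, w⟩ := red7 hs h1
  obtain ⟨m, hm, w'⟩ := red7 ht h2
  obtain ⟨P, hP, r⟩ := T6_list hx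
  have k := lall_iff.1 (lall_iff.1 (show lall (fun n => lall (fun P => !uK (dd P n) || Nat.beq P one24 ||
    lall (fun m => vK (Nat.xor n m) || !uK (dd P m)) L7) trO2) L7 = true by decide +kernel) n hn) P hP
  rw [(uc_dd r (L7_spec hn).1).2 ((uc_congr w hx).1 e1), Bool.not_true, Bool.false_or, Bool.or_eq_true, lall_iff] at k
  rcases k with k | k
  · exact R.eq_one (Nat.eq_of_beq_eq_true k ▸ r)
  · have k := k m hm
    rw [(uc_dd r (L7_spec hm).1).2 ((uc_congr w' hx).1 e2), Bool.not_true, Bool.or_false,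
      vK_xor (L7_spec hn).1 (L7_spec hm).1 (L7_spec hn).2 (L7_spec hm).2] at k
    exact absurd ((v8_congr (v8_add w w')).2 k) h3

namespace Tc
def L21 : List ℕ := [608378970379012058026059639965255712, 233223249426804822640750454307751968, 141068762124781205878280850969954336,
  735500604421669808992593446508235808, 975366630392323105260605610366440480, 983560732202510771760283209707927584,
  971594099268302134235014375640515616, 153806123438990178055045675423089696, 112472903752496671773656935142317088,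
  233233386906768391987032901617288256, 984808092185701589051809676506104896, 983549310955746530506231437997410400,
  984806823288735101514964346924480608, 970500119315863743489150393640323232, 98233383855328997114610445537369248,
  735506931523334983450844717199231424, 984811896368526027902876845265194432, 610566932223782735360392959698766368,
  981818976396064173718858530927315488, 70608582173148613909547418034211552, 61887151105611370694196553452721888]
theorem L21_in : AllI T0 L21 := T0_in (by decide +kernel)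
theorem cos21 (hg : g ∈ T0) (h1 : g ∉ T6) (h2 : g * g ∈ T6) : ∃ Q ∈ L21, pm Q * g ∈ T6 := by
  obtain ⟨P, r, e⟩ := T0_all (p := fun P => !lmem (comp24 P P) trO2 || lmem P trO2 || lany (fun Q => vK (Nat.xor (img24 Q 5279) (img24 P 5279)) &&
      lmem (comp24 Q P) trO2) L21) (by decide +kernel) hg
  rw [(mul_T6_iff r r).2 h2, Bool.not_true, Bool.false_or, Bool.or_eq_true, lany_iff] at e
  obtain ⟨Q, hQ, e⟩ := e.resolve_left fun e => h1 (O2_mem (lmem_iff.1 e) r)
  exact ⟨Q, hQ, (mul_T6_iff (L21_in Q hQ).rep r).1 (Bool.and_eq_true_iff.1 e).2⟩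
end Tc

theorem rkL1 (hg : g ∈ T0) (h1 : g ∉ T6) (h2 : g * g ∈ T6) : Nat.card (T6 ⊓ centralizer {g} : Subgroup Pm) ≤ 16 := by
  obtain ⟨Q, hQ, e⟩ := cos21 hg h1 h2
  have r := (L21_in Q hQ).rep
  have k : ∀ x, x ∈ T6 ⊓ centralizer {g} ↔ x ∈ T6 ∧ x * pm Q = pm Q * x := fun x => and_congr_right fun hx => by
    have c := T6_comm hx e
    show x ∈ centralizer {g} ↔ _
    rw [mem_centralizer_singleton_iff, ← mul_left_inj g (b := x * pm Q), mul_assoc x, c, mul_assoc, mul_assoc,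
      mul_right_inj, eq_comm]
  rw [card_eq_ncard k,
    lvlT6.count0 (Snd.cTrue _) (q := fun P => when (Nat.beq (comp24 P Q) (comp24 Q P)) 1) fun g P hP =>
      when_spec (Nat.beq_eq ▸ R.comp24_eq_iff hP r r hP)]
  exact Nat.le_of_ble_eq_true (lall_iff.1 (show lall (fun Q => Nat.ble (sumP24 PC.cTrue
    (fun P => when (Nat.beq (comp24 P Q) (comp24 Q P)) 1) lvT6 [] one24) 16) L21 = true by decide +kernel) Q hQ)
open Classical in
theorem rkL2 (hg : g ∈ T0) (h1 : g ∉ T6) (h2 : g * g ∈ T6) : ((Finset.range 2048).filter fun c =>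
    V8 (E.setOf (cw c)) ∧ Uc ((g • E.setOf (cw c)) ∆ E.setOf (cw c))).card ≤ 64 := by
  obtain ⟨Q, hQ, e⟩ := cos21 hg h1 h2
  have r := (L21_in Q hQ).rep
  have q0 := (L21_in Q hQ).permOf_mem
  rw [cnt2_eq (p := fun n => vK n && uK (dd Q n)) fun c hc => ?_]
  · exact Nat.le_of_ble_eq_true (lall_iff.1 (show lall (fun Q => Nat.ble (cnt2 fun n => vK n && uK (dd Q n)) 64) L21 =
      true by decide +kernel) Q hQ)
  · rw [Bool.and_eq_true, vK_cw hc, uc_dd r (cw_lt (by omega))]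
    refine and_congr_right fun v => ?_
    have k := v.2 _ e
    rw [diff_mul] at k
    refine ⟨fun a => ?_, fun a => cancel _ ((pm Q • E.setOf (cw c)) ∆ E.setOf (cw c)) ▸ k.symmDiff (a.smul q0)⟩
    have := (k.symmDiff a).smul (inv_mem q0)
    rwa [symmDiff_symmDiff_cancel_right, inv_smul_smul] at this
theorem el40 : ∃ g ∈ T0, g ^ 4 ∈ T6 ∧ g ^ 2 ∉ T6 := by
  obtain ⟨g, hg, r⟩ := T0_in (L := [5654325231587845083420485016589409]) (by decide +kernel) _ List.mem_cons_self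
  refine ⟨g, hg, ?_, ?_⟩
  · rw [show g ^ 4 = g * g * (g * g) by rw [← sq, ← sq, ← pow_mul], ← mul_T6_iff (R.mul r r) (R.mul r r)]
    decide +kernel
  · rw [sq, ← mul_T6_iff r r]
    decide +kernel
theorem inv0 : ∃ g ∈ T0, g ∉ T6 ∧ g * g = 1 := by
  obtain ⟨g, hg, r⟩ := T0_in (L := [984452831863584656304555517315912739]) (by decide +kernel) _ List.mem_cons_self
  refine ⟨g, hg, ?_, (R.comp24_eq_one_iff r r).1 (by decide +kernel)⟩
  rw [← mul_one g, ← mul_T6_iff r R.one]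
  decide +kernel

namespace Tc
variable {n P : ℕ}
/-- the non-trivial elements of `T6` that centralise the class of `n` modulo `Uc` -/
noncomputable def E3 (n : ℕ) : List ℕ := lfilter (fun P => !Nat.beq P one24 && uK (dd P n)) trO2
theorem E3_mem (hn : n ∈ L7) (w : V8 (s ∆ E.setOf n)) (hx : x ∈ T6) (e : Uc ((x • s) ∆ s)) (h1 : x ≠ 1) :
    ∃ P ∈ E3 n, R x P := by
  obtain ⟨P, hP, r⟩ := T6_list hx
  refine ⟨P, ?_, r⟩
  rw [E3, lfilter_eq]
  refine List.mem_filter.2 ⟨hP, ?_⟩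
  rw [(uc_dd r (L7_spec hn).1).2 ((uc_congr w hx).1 e), Bool.and_true, Bool.not_eq_true', ← Bool.not_eq_true, Nat.beq_eq]
  exact fun a => h1 (R.eq_one (a ▸ r))
end Tc

theorem two1 (hs : s ∈ Code) (h : ¬ V8 s) {x' : Pm} (hx : x ∈ T6) (hx' : x' ∈ T6) (e : Uc ((x • s) ∆ s))
    (e' : Uc ((x' • s) ∆ s)) (h1 : x ≠ 1) (hr : V8 r) (f : (x • r) ∆ r ∈ K1) : (x' • r) ∆ r ∈ K1 := by
  by_cases h2 : x' = 1
  · rw [h2, one_smul, symmDiff_self]; exact Or.inl rfl
  obtain ⟨n, hn, w⟩ := red7 hs h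
  obtain ⟨P, hP, a⟩ := E3_mem hn w hx e h1
  obtain ⟨Q, hQ, b⟩ := E3_mem hn w hx' e' h2
  have k := lall_iff.1 (show lall (fun n => forceL (E3 n) fun J => allCw fun m => !vK m ||
    lall (fun P => kK (dd P m)) J || lall (fun P => !kK (dd P m)) J) L7 = true by decide +kernel) n hn
  rw [forceL_eq] at k
  obtain ⟨m, hm, rfl, k⟩ := allCw_spec k hr.1
  rw [(vK_iff hm hr.1).2 hr, Bool.not_true, Bool.false_or, Bool.or_eq_true, lall_iff, lall_iff] at k
  rcases k with k | k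
  · exact (k1_dd b hm).1 (k Q hQ)
  · have := k P hP
    rw [(k1_dd a hm).2 f] at this
    exact absurd this (by decide)
open Classical in
theorem two2 (hx : x ∈ T6) (hs : s ∈ Code) (h : ¬ V8 s) (e : Uc ((x • s) ∆ s)) (h1 : x ≠ 1) :
    ((Finset.range 2048).filter fun c =>
      V8 (E.setOf (cw c)) ∧ (x • E.setOf (cw c)) ∆ E.setOf (cw c) ∈ K1).card ≤ 64 := by
  obtain ⟨n, hn, w⟩ := red7 hs h
  obtain ⟨P, hP, a⟩ := E3_mem hn w hx e h1
  rw [cnt2_eq (p := fun n => vK n && kK (dd P n)) fun c hc => by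
    rw [Bool.and_eq_true, vK_cw hc, k1_dd a (cw_lt (by omega))]]
  exact Nat.le_of_ble_eq_true (lall_iff.1 (lall_iff.1 (show lall (fun n => lall (fun P =>
    Nat.ble (cnt2 fun m => vK m && kK (dd P m)) 64) (E3 n)) L7 = true by decide +kernel) n hn) P hP)
theorem trans3 (hs : s ∈ Code) (ht : t ∈ Code) (h1 : ¬ V8 s) (h2 : ¬ V8 t) : ∃ g ∈ T0, V8 ((g • s) ∆ t) := by
  obtain ⟨n, hn, w⟩ := red7 hs h1
  obtain ⟨m, hm, w'⟩ := red7 ht h2
  obtain ⟨g, hg, r⟩ := T0_in (L := [68398200199583981390580614830307345]) (by decide +kernel) _ List.mem_cons_self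
  obtain ⟨i, -, e⟩ := anyLt_iff.1 (lall_iff.1 (lall_iff.1 (show lall (fun n => lall (fun m => anyLt (fun i =>
    vK (Nat.xor (img24 (pow24 68398200199583981390580614830307345 i) n) m)) 7) L7) L7 = true by decide +kernel) n hn) m hm)
  have r' := R.pow r i
  have hg' := pow_mem hg i
  rw [vK_xor (r'.img_lt n) (L7_spec hm).1 ((r'.setOf_img n).symm ▸ (smul_mem_code hg'.1.1).2 (L7_spec hn).2)
    (L7_spec hm).2, r'.setOf_img] at e
  have w2 := w.smul hg'
  rw [Finset.smul_finset_symmDiff] at w2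
  exact ⟨_, hg', (v8_congr (v8_add w2 w')).2 e⟩

namespace Tc
def I0 : ℕ := 963721886883755259286232606933354528
theorem R_i0 : R i0 I0 := R.pm (by decide +kernel)
end Tc

theorem i0_mem : i0 ∈ X4 := (T16_fix I0 (by decide +kernel)).permOf_mem
theorem i0_oc : i0 • oc 1 = oc 2 := (R_i0.setOf_img _).symm.trans (congrArg E.setOf (by decide +kernel))
theorem i0_comm (hg : g ∈ T0) : g * i0 * g⁻¹ * i0⁻¹ ∈ T6 := by
  refine T0_ind (p := fun g => g * i0 * g⁻¹ * i0⁻¹ ∈ T6)
    (q := fun P => lmem (comp24 (comp24 (comp24 P I0) (inv24 P)) (inv24 I0)) trO2) (by simp) (fun a ha b _ p q => ?_)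
    (fun g P r e => (mul_T6_iff ((r.mul R_i0).mul r.inv) R_i0.inv).1 e) (by decide +kernel) hg
  have := mul_mem (T6_conj ha q) p
  convert this using 1
  group
theorem i0_conj (hx : x ∈ T6) : i0 * x * i0⁻¹ ∈ T6 := nrm_spec R_i0 (by decide +kernel) x hx
theorem V8.smul_i0 (h : V8 s) : V8 (i0 • s) := by
  obtain ⟨n, hn, rfl, e⟩ := allCw_spec (p := fun n => !vK n || vK (img24 I0 n)) (by decide +kernel) h.1
  rw [(vK_iff hn h.1).2 h, Bool.not_true, Bool.false_or, vK_iff (R_i0.img_lt n)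
    ((R_i0.setOf_img n).symm ▸ (smul_mem_code (X4_le i0_mem).1).2 h.1), R_i0.setOf_img] at e
  exact e
theorem i0_cent (hx : x ∈ T6) : x * i0 = i0 * x ↔ x ∈ X4 := by
  obtain ⟨P, hP, r⟩ := T6_list hx
  have k := lall_iff.1 (show lall (fun P => Nat.beq (comp24 P I0) (comp24 I0 P) == fixesAll 8536111 P) trO2 = true by
    decide +kernel) P hP
  rw [beq_iff_eq, Bool.eq_iff_iff, Nat.beq_eq, R.comp24_eq_iff r R_i0 R_i0 r, r.fixesAll_iff] at k
  exact k.trans (mem_Fix.trans (and_iff_right (T6_le hx).1.1)).symm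
theorem i0_V8 (h : V8 s) : Uc ((i0 • s) ∆ s) ↔ Wc s := by
  obtain ⟨n, hn, rfl, e⟩ := allCw_spec (p := fun n => !vK n || (uK (dd I0 n) == wK n)) (by decide +kernel) h.1
  rwa [(vK_iff hn h.1).2 h, Bool.not_true, Bool.false_or, beq_iff_eq, Bool.eq_iff_iff, uc_dd R_i0 hn, wK_iff h.1] at e
theorem X4_T6 (hx : x ∈ X4) (h : x • oc 1 = oc 1) : x ∈ T6 := by
  obtain ⟨P, r, e⟩ := X4_all (p := fun P => !Nat.beq (img24 P 337856) 337856 || lmem P trO2) (by decide +kernel) hx
  have : img24 P 337856 = 337856 := (E.setOf_inj (r.img_lt _) (by norm_num)).1 ((r.setOf_img _).trans h)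
  rw [this] at e
  exact O2_mem (lmem_iff.1 e) r

end CL.VM
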