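/- Type C: calculus for the subgroups `θ(P) χ(K)`. -/
import Cfsg.Agent.SPOR.VM.CM1
import Cfsg.Agent.SPOR.VM.CM2

set_option autoImplicit false

namespace CL.VM
open Subgroup Cfsg Cfsg.Spor CL.Golay
open CL.MAut (Pm)
open scoped Pointwise symmDiff

variable {G : Type*} [Group G] {V A B : Subgroup G} {θ : Finset GolayPt → G} {π : G → Pm} {χ : M24 →* G}
  {P : Finset GolayPt → Prop} {K : Subgroup Pm}

theorem VD.ncard_fib {Dm Kr : Set (Finset GolayPt)} (h : VD Dm Kr V θ π) (hA : A ≤ normalizer (V : Set G))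
    (p : Pm → Prop) :
    {a | a ∈ A ∧ p (π a)}.ncard = Nat.card (V ⊓ A : Subgroup G) * {x | x ∈ h.im A ∧ p x}.ncard := by
  let f : A →* Pm := h.hom.comp (inclusion hA)
  have c := QuotientGroup.card_preimage_mk f.ker (QuotientGroup.kerLift f ⁻¹' {x | p x})
  rw [Nat.card_coe_set_eq, Nat.card_coe_set_eq, ← Set.ncard_image_of_injective _ Subtype.val_injective,
    ← Set.ncard_image_of_injective _ (QuotientGroup.kerLift_injective f)] at c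
  convert c using 2
  · exact Set.ext fun a => ⟨fun m => ⟨⟨a, m.1⟩, m.2, rfl⟩, fun ⟨b, m, e⟩ => e ▸ ⟨b.2, m⟩⟩
  · exact Nat.card_congr ⟨fun d => ⟨⟨d.1, d.2.2⟩, (h.π_one _ (hA d.2.2)).2 d.2.1⟩,
      fun d => ⟨d.1, (h.π_one _ (hA d.1.2)).1 d.2, d.1.2⟩, fun _ => rfl, fun _ => rfl⟩
  · refine congrArg _ (Set.ext fun x => ⟨fun m => ?_, ?_⟩)
    · obtain ⟨a, ha, -, rfl⟩ := h.mem_im.1 m.1
      exact ⟨(⟨a, ha⟩ : A), m.2, rfl⟩
    · rintro ⟨q, m, rfl⟩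
      obtain ⟨a, rfl⟩ := QuotientGroup.mk_surjective q
      exact ⟨h.mem_im.2 ⟨a, a.2, hA a.2, rfl⟩, m⟩

theorem oc_fix {g : Pm} (i : Fin 3) : (g • oc i) ∆ oc i ∈ K1 ↔ g • oc i = oc i := by
  refine ⟨fun e => e.elim symmDiff_eq_bot.1 fun e => ?_, fun e => Or.inl (symmDiff_eq_bot.2 e)⟩
  have := (Finset.card_le_card (e.ge.trans symmDiff_le_sup)).trans (Finset.card_union_le _ _)
  rw [Finset.card_univ, card_pt, Finset.card_smul_finset, (mem_octads.1 (oc_mem i)).2] at this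
  omega

namespace VS
variable (h : VS V θ π χ)
include h

theorem χ_θ (x : M24) {s : Finset GolayPt} (hs : s ∈ Code) : χ x * θ s = θ ((x : Pm) • s) * χ x := by
  rw [← mul_inv_eq_iff_eq_mul, h.conj _ (h.χ_mem x) s hs, h.π_χ]
theorem mem_N {s : Finset GolayPt} (hs : s ∈ Code) (x : M24) : θ s * χ x ∈ normalizer (V : Set G) :=
  mul_mem (le_normalizer (h.toVD.θ_mem hs)) (h.χ_mem x)
theorem π_el {s : Finset GolayPt} (hs : s ∈ Code) (x : M24) : π (θ s * χ x) = x := by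
  rw [h.π_mul _ (le_normalizer (h.toVD.θ_mem hs)) _ (h.χ_mem x), h.π_χ,
    (h.π_one _ (le_normalizer (h.toVD.θ_mem hs))).2 (h.toVD.θ_mem hs), one_mul]
theorem exists_el {a : G} (ha : a ∈ normalizer (V : Set G)) : ∃ s ∈ Code, ∃ x : M24, a = θ s * χ x := by
  have m := h.χ_mem ⟨π a, h.π_mem a ha⟩
  obtain ⟨s, hs, e⟩ := (h.mem_V _).1 ((h.π_one _ (mul_mem ha (inv_mem m))).1 (by
    rw [h.π_mul _ ha _ (inv_mem m), h.toVD.π_inv m, h.π_χ, mul_inv_cancel]))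
  exact ⟨s, hs, _, eq_mul_of_mul_inv_eq e.symm⟩
theorem el_mul {s t : Finset GolayPt} (hs : s ∈ Code) (ht : t ∈ Code) (x g : M24) :
    θ s * χ x * (θ t * χ g) = θ (s ∆ ((x : Pm) • t)) * χ (x * g) := by
  rw [h.θ_mul _ hs _ (h.toVD.smul_mem x.2 ht), map_mul, mul_assoc, ← mul_assoc (χ x), h.χ_θ x ht]
  simp only [mul_assoc]
theorem el_inj {s t : Finset GolayPt} (hs : s ∈ Code) (ht : t ∈ Code) {x g : M24} :
    θ s * χ x = θ t * χ g ↔ s ∆ t ∈ K1 ∧ x = g := by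
  refine ⟨fun e => ?_, fun e => by rw [(h.toVD.θ_eq_iff hs ht).2 e.1, e.2]⟩
  obtain rfl : x = g := Subtype.ext (by rw [← h.π_el hs x, e, h.π_el ht])
  exact ⟨(h.toVD.θ_eq_iff hs ht).1 (mul_right_cancel e), rfl⟩
theorem el_comm_χ {s : Finset GolayPt} (hs : s ∈ Code) (x g : M24) :
    θ s * χ x * χ g * (θ s * χ x)⁻¹ * (χ g)⁻¹ =
      θ (s ∆ (((x * g * x⁻¹ : M24) : Pm) • s)) * χ (x * g * x⁻¹ * g⁻¹) := by
  rw [h.θ_mul _ hs _ (h.toVD.smul_mem (x * g * x⁻¹).2 hs), map_mul _ _ g⁻¹, mul_assoc (θ s) (θ _), ← mul_assoc (θ _) (χ _),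
    ← h.χ_θ _ hs, mul_inv_rev, h.toVD.inv_V (h.toVD.θ_mem hs)]
  simp only [map_mul, map_inv, mul_assoc]
theorem θ_Zc {s : Finset GolayPt} (hs : s ∈ Code) : θ s ∈ zpowers (θ (oc 0)) ↔ Zc s := by
  rw [LX.mem_zpowers_of_sq (h.toVD.θ_sq (oc_code 0)), h.θ_one s hs, h.toVD.θ_eq_iff hs (oc_code 0), Zc]
theorem θ_Uc {s : Finset GolayPt} (hs : s ∈ Code) : θ s ∈ U2 (θ (oc 0)) (θ (oc 1)) ↔ Uc s := by
  have m := fun i => h.toVD.θ_mem (oc_code i)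
  have e : θ (oc 0) * θ (oc 1) = θ (oc 2) := by
    rw [← h.θ_mul _ (oc_code 0) _ (oc_code 1), h.toVD.θ_eq_iff (symmDiff_mem_code (oc_code 0) (oc_code 1)) (oc_code 2)]
    exact Or.inr oc_sum
  refine ⟨fun k => ?_, ?_⟩
  · obtain ⟨a, ha, b, hb, k⟩ := (MSS.mem_sup_of_normalizes_right (zpowers_le.2 (centralizer_le_normalizer _
      ((LX.centralizer_zpowers _).ge (mem_centralizer_singleton_iff.2 (h.toVD.comm_V (m 0) (m 1))))))).1 k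
    rcases (LX.mem_zpowers_of_sq (h.toVD.θ_sq (oc_code 0))).1 ha with rfl | rfl <;>
      rcases (LX.mem_zpowers_of_sq (h.toVD.θ_sq (oc_code 1))).1 hb with rfl | rfl
    · exact Or.inl ((h.θ_one s hs).1 (k.symm.trans (mul_one 1)))
    · exact Or.inr ⟨1, (h.toVD.θ_eq_iff hs (oc_code 1)).1 (k.symm.trans (one_mul _))⟩
    · exact Or.inr ⟨0, (h.toVD.θ_eq_iff hs (oc_code 0)).1 (k.symm.trans (mul_one _))⟩
    · exact Or.inr ⟨2, (h.toVD.θ_eq_iff hs (oc_code 2)).1 (k.symm.trans e)⟩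
  · rintro (k | ⟨i, k⟩)
    · exact (h.θ_one s hs).2 k ▸ one_mem _
    · rw [(h.toVD.θ_eq_iff hs (oc_code i)).2 k]
      fin_cases i
      exacts [mem_sup_left (mem_zpowers _), mem_sup_right (mem_zpowers _),
        e.subst (mul_mem_sup (mem_zpowers _) (mem_zpowers _))]
theorem U_le : U2 (θ (oc 0)) (θ (oc 1)) ≤ V :=
  sup_le (zpowers_le.2 (h.toVD.θ_mem (oc_code 0))) (zpowers_le.2 (h.toVD.θ_mem (oc_code 1)))
theorem Hz_eq : Hz V (θ (oc 0)) = h.toVD.pre Oct := by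
  ext a
  rw [h.toVD.mem_pre, mem_inf]
  refine and_congr_right fun ha => ?_
  rw [mem_centralizer_singleton_iff, h.toVD.comm_θ_iff ha (oc_code 0), oc_fix]
  exact (and_iff_right (h.π_mem a ha)).symm
theorem HZ_eq : HZ V (U2 (θ (oc 0)) (θ (oc 1))) = h.toVD.pre T0 := by
  ext a
  rw [h.toVD.mem_pre, mem_inf]
  refine and_congr_right fun ha => ?_
  rw [← zpowers_le, le_centralizer_iff, sup_le_iff, zpowers_le, zpowers_le, LX.centralizer_zpowers,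
    mem_centralizer_singleton_iff, mem_centralizer_singleton_iff, eq_comm, eq_comm (b := a * _),
    h.toVD.comm_θ_iff ha (oc_code 0), h.toVD.comm_θ_iff ha (oc_code 1), oc_fix, oc_fix]
  exact and_congr_left' (and_iff_right (h.π_mem a ha)).symm

theorem exists_sd (h0 : P ∅) (hc : ∀ s, P s → s ∈ Code) (h1 : ∀ s t, P s → P t → P (s ∆ t))
    (h2 : ∀ g ∈ K, g ∈ M24 → ∀ s, P s → P (g • s)) : ∃ A, SD θ χ P K A := by
  refine ⟨{ carrier := {a | ∃ s, P s ∧ ∃ x : M24, (x : Pm) ∈ K ∧ a = θ s * χ x}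
            one_mem' := ⟨∅, h0, 1, one_mem _, by rw [h.toVD.θ_empty, map_one, mul_one]⟩
            mul_mem' := ?_, inv_mem' := ?_ }, fun _ => Iff.rfl⟩
  · rintro _ _ ⟨s, hs, x, hx, rfl⟩ ⟨t, ht, g, hg, rfl⟩
    exact ⟨_, h1 _ _ hs (h2 _ hx x.2 _ ht), x * g, mul_mem hx hg, h.el_mul (hc _ hs) (hc _ ht) x g⟩
  · rintro _ ⟨s, hs, x, hx, rfl⟩
    exact ⟨_, h2 _ (inv_mem hx) x⁻¹.2 _ hs, x⁻¹, inv_mem hx, by
      rw [mul_inv_rev, h.toVD.inv_V (h.toVD.θ_mem (hc _ hs)), ← map_inv, h.χ_θ _ (hc _ hs)]; rfl⟩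

variable (hA : SD θ χ P K A) (hc : ∀ s, P s → s ∈ Code) (hk : ∀ s t, P s → t ∈ Code → s ∆ t ∈ K1 → P t)
include hA hc hk

theorem el_mem {s : Finset GolayPt} (hs : s ∈ Code) (x : M24) : θ s * χ x ∈ A ↔ P s ∧ (x : Pm) ∈ K := by
  refine (hA _).trans ⟨fun ⟨t, ht, g, hg, e⟩ => ?_, fun e => ⟨s, e.1, x, e.2, rfl⟩⟩
  obtain ⟨e1, rfl⟩ := (h.el_inj (hc _ ht) hs).1 e.symm
  exact ⟨hk _ _ ht hs e1, hg⟩
theorem θ_mem_sd {s : Finset GolayPt} (hs : s ∈ Code) : θ s ∈ A ↔ P s := by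
  simpa [K.one_mem] using h.el_mem hA hc hk hs 1
theorem sd_le (hK : K ≤ M24) : A ≤ h.toVD.pre K := fun a ha => by
  have _ := hk
  have _ := hK
  obtain ⟨s, hs, x, hx, rfl⟩ := (hA a).1 ha
  exact h.toVD.mem_pre.2 ⟨h.mem_N (hc _ hs) x, (h.π_el (hc _ hs) x).symm ▸ hx⟩
theorem im_sd (hK : K ≤ M24) : h.toVD.im A = K := by
  refine le_antisymm (fun g hg => ?_) fun g hg => ?_
  · obtain ⟨a, ha, -, rfl⟩ := h.toVD.mem_im.1 hg
    exact (h.toVD.mem_pre.1 (h.sd_le hA hc hk hK ha)).2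
  · obtain ⟨s, hs, -⟩ := (hA 1).1 (one_mem _)
    exact h.toVD.mem_im.2 ⟨_, (hA _).2 ⟨s, hs, ⟨g, hK hg⟩, hg, rfl⟩, h.mem_N (hc _ hs) _, h.π_el (hc _ hs) _⟩
theorem sup_sd (hK : K ≤ M24) : V ⊔ A = h.toVD.pre K := by
  refine le_antisymm (sup_le (h.toVD.V_le_pre K) (h.sd_le hA hc hk hK)) fun a ha => ?_
  obtain ⟨k1, k2⟩ := h.toVD.mem_pre.1 ha
  obtain ⟨b, hb, k, e⟩ := h.toVD.mem_im.1 ((h.im_sd hA hc hk hK).ge k2)
  rw [← mul_inv_cancel_left b a]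
  exact mul_mem (mem_sup_right hb) (mem_sup_left ((h.toVD.π_eq_iff k k1).1 e))
/-- PROOF. Write an element of `pre L` as `θ t * χ g`. -/
theorem norm_sd {L : Subgroup Pm} (h1 : ∀ g ∈ L, g ∈ M24 → ∀ s, P s → P (g • s))
    (h2 : ∀ g ∈ L, ∀ x ∈ K, g * x * g⁻¹ ∈ K) (h3 : ∀ x ∈ K, ∀ t ∈ Code, P ((x • t) ∆ t)) [Finite G] :
    h.toVD.pre L ≤ normalizer (A : Set G) := fun a ha => by
  obtain ⟨k1, k2⟩ := h.toVD.mem_pre.1 ha
  obtain ⟨t, ht, g, rfl⟩ := h.exists_el k1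
  rw [h.π_el ht] at k2
  refine mem_normalizer_fintype fun b hb => ?_
  obtain ⟨s, hs, x, hx, rfl⟩ := (hA b).1 hb
  have m := h.toVD.smul_mem g.2 (hc _ hs)
  have e : θ t * χ g * (θ s * χ x) * (θ t * χ g)⁻¹ =
      θ ((g : Pm) • s) * (θ ((((g * x * g⁻¹ : M24) : Pm) • t) ∆ t) * χ (g * x * g⁻¹)) := by
    rw [symmDiff_comm, h.θ_mul _ ht _ (h.toVD.smul_mem (g * x * g⁻¹).2 ht), mul_assoc (θ t) (θ _), ← h.χ_θ _ ht,
      ← mul_assoc (θ _) (θ t), h.toVD.comm_V (h.toVD.θ_mem m) (h.toVD.θ_mem ht), mul_inv_rev,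
      h.toVD.inv_V (h.toVD.θ_mem ht), ← mul_inv_eq_iff_eq_mul.2 (h.χ_θ g (hc _ hs))]
    simp only [map_mul, map_inv, mul_assoc, inv_mul_cancel_left]
  rw [e]
  exact mul_mem ((h.θ_mem_sd hA hc hk m).2 (h1 _ k2 g.2 _ hs))
    ((hA _).2 ⟨_, h3 _ (h2 _ k2 _ hx) t ht, _, h2 _ k2 _ hx, rfl⟩)
/-- PROOF. `b ∈ Cm A B (θ t)` iff `θ (π b • t ∆ t) ∈ B` (`commutator_θ`); the fibres of `π` on `A` are the cosets of
`V ⊓ A`. -/
theorem ncard_Cm (hK : K ≤ M24) {t : Finset GolayPt} (ht : t ∈ Code) :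
    (Cm A B (θ t)).ncard = Nat.card (V ⊓ A : Subgroup G) * {x | x ∈ K ∧ θ ((x • t) ∆ t) ∈ B}.ncard := by
  have l := (h.sd_le hA hc hk hK).trans (h.toVD.pre_le K)
  rw [← h.im_sd hA hc hk hK, ← h.toVD.ncard_fib l fun x => θ ((x • t) ∆ t) ∈ B]
  exact congrArg _ (Set.ext fun b => and_congr_right fun hb => by rw [h.toVD.commutator_θ (l hb) ht])

end VS
end CL.VM
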