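/- Local data around a weakly closed `V = 2 ^ 11`: definitions. -/
import Cfsg.Agent.SPOR.VM.WDef
import Cfsg.Agent.SPOR.LX

set_option autoImplicit false

namespace CL.VM
open Subgroup CL.MSS CL.PComp CL.LX
open Equiv.Perm (sign)

variable {G : Type*} [Group G]

/-- the elements of `R` whose commutator with `d` lies in `A` -/
abbrev Cm (R A : Subgroup G) (d : G) : Set G := {b | b ∈ R ∧ b * d * b⁻¹ * d⁻¹ ∈ A}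

/-- `N(V) ⊓ C(Z)` -/
abbrev HZ (V Z : Subgroup G) : Subgroup G := normalizer (V : Set G) ⊓ centralizer (Z : Set G)

/-- `N(V) ⊓ C(z)` -/
abbrev Hz (V : Subgroup G) (z : G) : Subgroup G := normalizer (V : Set G) ⊓ centralizer {z}

/-- the four-group generated by `z` and `u` -/
abbrev U2 (z u : G) : Subgroup G := zpowers z ⊔ zpowers u

/-- What makes `R / Z` strongly closed in `C(Z) / Z`. -/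
structure LD (V Z R : Subgroup G) : Prop where
  ZV : Z ≤ V
  ZR : Z ≤ R
  RH : R ≤ HZ V Z
  HR : HZ V Z ≤ normalizer (R : Set G)
  sq : ∀ r ∈ R, r * r ∈ Z
  cW : ∀ a ∈ normalizer (V : Set G), (∀ w ∈ V, w ∈ R → a * w = w * a) → a ∈ V
  cenR : ∀ a ∈ HZ V Z, (∀ r ∈ R, r * a * r⁻¹ * a⁻¹ ∈ Z) → a ∈ R
  cE : ∀ a ∈ HZ V Z, (∃ k : ℕ, a ^ 2 ^ k = 1) → (∀ v ∈ V, v * a * v⁻¹ * a⁻¹ ∈ R) → a ∈ V ⊔ R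
  big : 8 * Nat.card (V ⊓ R : Subgroup G) ≤ Nat.card V
  idx : 64 * Nat.card (V ⊓ R : Subgroup G) ≤ Nat.card R
  four : ∀ u ∈ V, ∀ v ∈ V, u ∉ R → v ∉ R → u * v ∉ R → ∀ b, b ∈ Cm R Z u → b ∈ Cm R Z v → b ∈ V
  rk : ∀ d ∈ HZ V Z, d ∉ R → d * d ∈ R → 16 * (Cm R Z d).ncard ≤ Nat.card R
  bd : ∀ D ≤ HZ V Z, R ≤ D → (∀ d ∈ D, d * d ∈ R) → Nat.card D < 16 * Nat.card R ∨
    (Nat.card D < 64 * Nat.card R ∧ ((∃ u ∈ V, ∃ v ∈ V, u ∈ D ∧ v ∈ D ∧ u ∉ R ∧ v ∉ R ∧ u * v ∉ R) ∨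
      ∃ d ∈ D, d ∉ R ∧ 64 * (Cm R Z d).ncard ≤ Nat.card R))

/-- Type T: `H = N(V) ⊓ C(z) = 2 ^ (1 + 12) . 3 . 2 ^ 4 . S6`. -/
structure TD (V Q : Subgroup G) (z y : G) (σ : G → Equiv.Perm (Fin 6)) : Prop where
  es : ES Q z
  zV : z ∈ V
  cardQ : Nat.card Q = 2 ^ 13
  cardW : Nat.card (V ⊓ Q : Subgroup G) = 2 ^ 7
  cardH : Nat.card (Hz V z) = 2 ^ 11 * 138240
  QH : Q ≤ normalizer (V : Set G)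
  HQ : Hz V z ≤ normalizer (Q : Set G)
  yH : y ∈ Hz V z
  y3 : y ^ 3 = 1
  fpf : ∀ b ∈ Cm Q (zpowers z) y, b ∈ zpowers z
  σ_mul : ∀ a ∈ Hz V z, ∀ b ∈ Hz V z, σ (a * b) = σ a * σ b
  σ_surj : ∀ τ, ∃ a ∈ Hz V z, σ a = τ
  σ_one : ∀ a ∈ Hz V z, σ a = 1 ↔ a ∈ V ⊔ Q ⊔ zpowers y
  inner : ∀ a ∈ Hz V z, sign (σ a) = 1 → a * y * a⁻¹ * y⁻¹ ∈ Q
  outer : ∀ a ∈ Hz V z, sign (σ a) ≠ 1 → a * y * a⁻¹ * y ∈ Q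
  centE : ∀ a ∈ Hz V z, σ a = 1 ↔ ∀ v ∈ V, v * a * v⁻¹ * a⁻¹ ∈ Q
  trans : ∀ u ∈ V, u ∉ Q → ∀ v ∈ V, v ∉ Q → ∃ a ∈ Hz V z, sign (σ a) = 1 ∧ a * u * a⁻¹ * v⁻¹ ∈ Q
  cE4 : ∀ a ∈ Hz V z, σ a ≠ 1 → σ a * σ a = 1 → sign (σ a) = 1 → (Cm V Q a).ncard ≤ 2 ^ 9
  four : ∀ u ∈ V, ∀ v ∈ V, u ∉ Q → v ∉ Q → u * v ∉ Q →
    ∀ b, b ∈ Cm Q (zpowers z) u → b ∈ Cm Q (zpowers z) v → b ∈ V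
  rkE : ∀ v ∈ V, v ∉ Q → (Cm Q (zpowers z) v).ncard = 2 ^ 9
  cW : ∀ a ∈ Hz V z, (∀ w ∈ V, w ∈ Q → w * a * w⁻¹ * a⁻¹ ∈ zpowers z) → a ∈ V ⊔ Q
  three : ∀ a ∈ Hz V z, a ^ 3 ∈ Q → (∀ w ∈ Cm (V ⊓ Q) (zpowers z) a, w ∈ zpowers z) → σ a = 1
  yder : ∃ a ∈ Hz V z, ∃ b ∈ Hz V z, sign (σ a) = 1 ∧ sign (σ b) = 1 ∧ a * b * a⁻¹ * b⁻¹ * y⁻¹ ∈ V ⊔ Q
  nwc : ∃ g : G, g * z * g⁻¹ ∈ Q ∧ g * z * g⁻¹ ≠ z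

/-- Type T, the quotient `C(z) / Q`. -/
structure TG (H E : Subgroup G) (y : G) (σ : G → Equiv.Perm (Fin 6)) : Prop where
  cardH : Nat.card H = 34560
  odd : Odd H.index
  ne : H ≠ ⊤
  no13 : ¬ 13 ∣ Nat.card G
  cardE : Nat.card E = 16
  sqE : ∀ e ∈ E, e * e = 1
  EH : E ≤ H
  HE : H ≤ normalizer (E : Set G)
  wc : ∀ g : G, g •ᶜ E ≤ H → g ∈ H
  yH : y ∈ H
  oy : orderOf y = 3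
  σ_mul : ∀ a ∈ H, ∀ b ∈ H, σ (a * b) = σ a * σ b
  σ_surj : ∀ τ, ∃ a ∈ H, σ a = τ
  σ_one : ∀ a ∈ H, σ a = 1 ↔ a ∈ E ⊔ zpowers y
  inner : ∀ a ∈ H, sign (σ a) = 1 → a * y = y * a
  outer : ∀ a ∈ H, sign (σ a) ≠ 1 → a * y * a⁻¹ = y⁻¹
  centE : ∀ a ∈ H, σ a = 1 ↔ ∀ e ∈ E, e * a = a * e
  trans : ∀ u ∈ E, u ≠ 1 → ∀ v ∈ E, v ≠ 1 → ∃ a ∈ H, sign (σ a) = 1 ∧ a * u * a⁻¹ = v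
  cE4 : ∀ a ∈ H, σ a ≠ 1 → σ a * σ a = 1 → sign (σ a) = 1 →
    Nat.card (E ⊓ centralizer {a} : Subgroup G) ≤ 4
  four : ∀ u ∈ E, ∀ v ∈ E, u ≠ 1 → v ≠ 1 → u ≠ v → centralizer {u} ⊓ centralizer {v} ≤ H
  yder : ∃ a ∈ H, ∃ b ∈ H, sign (σ a) = 1 ∧ sign (σ b) = 1 ∧ a * b * a⁻¹ * b⁻¹ * y⁻¹ ∈ E
  cardC : ∀ e ∈ E, e ≠ 1 → Nat.card (centralizer ({e} : Set G)) ∣ 6912
  fus : ∀ e ∈ E, e ≠ 1 → ∀ g : G, g * e * g⁻¹ ∈ H → g ∈ normalizer (zpowers y : Set G)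

/-- Type C: `H = N(V) ⊓ C(z) = 2 ^ (1 + 8) . 2 ^ 6 . A8`. -/
structure CD (V Q : Subgroup G) (z u : G) : Prop where
  es : ES Q z
  zV : z ∈ V
  uV : u ∈ V
  uQ : u ∈ Q
  uz : u ∉ zpowers z
  cardQ : Nat.card Q = 2 ^ 9
  cardW : Nat.card (V ⊓ Q : Subgroup G) = 2 ^ 5
  dvdH : 2 ^ 21 ∣ Nat.card (Hz V z)
  QH : Q ≤ normalizer (V : Set G)
  HQ : Hz V z ≤ normalizer (Q : Set G)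
  cW : ∀ a ∈ Hz V z, (∀ w ∈ V, w ∈ Q → w * a * w⁻¹ * a⁻¹ ∈ zpowers z) → a ∈ V ⊔ Q
  rkE : ∀ v ∈ V, v ∉ Q → (Cm Q (zpowers z) v).ncard = 32 ∨ (Cm Q (zpowers z) v).ncard = 128
  diff : ∀ s ∈ V, ∀ t ∈ V, s ∉ Q → (Cm Q (zpowers z) s).ncard = 128 →
    Cm Q (zpowers z) s = Cm Q (zpowers z) t → s * t ∈ Q
  aniso : ∀ F ≤ V, V ⊓ Q ≤ F → 256 ≤ Nat.card F → ∃ v ∈ F, v ∉ Q ∧ (Cm Q (zpowers z) v).ncard = 128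
  transW : ∀ w ∈ V, w ∈ Q → w ∉ zpowers z → ∃ a ∈ Hz V z, a * u * a⁻¹ = w
  irrE : ∀ F ≤ V, V ⊓ Q ≤ F → Hz V z ≤ normalizer (F : Set G) → F ≤ Q ∨ V ≤ F

/-- Type C: `H₀ = N(V) ⊓ C(U) = 2 ^ (2 + 12) . 2 ^ 3 . L3(2)`, `U = ⟨z, u⟩`. -/
structure CR (V Q R : Subgroup G) (z u ι : G) : Prop where
  UR : U2 z u ≤ R
  RH : R ≤ HZ V (U2 z u)
  HR : HZ V (U2 z u) ≤ normalizer (R : Set G)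
  sq : ∀ r ∈ R, r * r ∈ U2 z u
  cardR : Nat.card R = 2 ^ 14
  cardW : Nat.card (V ⊓ R : Subgroup G) = 2 ^ 8
  cardH : Nat.card (HZ V (U2 z u)) = 2 ^ 20 * 21
  cW : ∀ a ∈ normalizer (V : Set G), (∀ w ∈ V, w ∈ R → a * w = w * a) → a ∈ V
  cenR : ∀ a ∈ HZ V (U2 z u), (∀ r ∈ R, r * a * r⁻¹ * a⁻¹ ∈ U2 z u) → a ∈ R
  cE : ∀ a ∈ HZ V (U2 z u), (∀ v ∈ V, v * a * v⁻¹ * a⁻¹ ∈ R) → a ∈ V ⊔ R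
  four : ∀ s ∈ V, ∀ t ∈ V, s ∉ R → t ∉ R → s * t ∉ R →
    ∀ b, b ∈ Cm R (U2 z u) s → b ∈ Cm R (U2 z u) t → b ∈ V
  rk : ∀ d ∈ HZ V (U2 z u), d ∉ R → d * d ∈ R → (Cm R (U2 z u) d).ncard ≤ 2 ^ 10
  el4 : ∃ a ∈ HZ V (U2 z u), a ^ 4 ∈ V ⊔ R ∧ a ^ 2 ∉ V ⊔ R
  two : ∀ v ∈ V, v ∉ R → ∃ V₂ : Subgroup G, Nat.card V₂ ≤ 2 ^ 8 ∧
    ∀ b ∈ Cm R (U2 z u) v, b * b = 1 → b ∈ V ∨ b ∈ V₂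
  trans : ∀ s ∈ V, s ∉ R → ∀ t ∈ V, t ∉ R → ∃ a ∈ HZ V (U2 z u), a * s * a⁻¹ * t⁻¹ ∈ R
  inv : ∃ t ∈ HZ V (U2 z u), t ∉ V ⊔ R ∧ t * t = 1
  ιQ : ι ∈ Q
  ιu : ι * u * ι⁻¹ = u * z
  ιR : ι ∈ normalizer (R : Set G)
  ιH : ∀ a ∈ HZ V (U2 z u), a * ι * a⁻¹ * ι⁻¹ ∈ R
  QR : ∀ b ∈ R, b ∈ Q ↔ b * ι * b⁻¹ * ι⁻¹ ∈ U2 z u
  Q1 : ∀ b ∈ Q, b * u = u * b → b ∈ R

/-- an F-pair over `A / Z` for `Q / Z` -/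
structure FPQ (Q Z A D D' : Subgroup G) : Prop where
  ZA : Z ≤ A
  sq : ∀ d ∈ D, d * d ∈ Z
  lt : A < D
  inf : D ⊓ Q = A
  le : A ≤ D'
  lt' : D' < Q
  card : Nat.card D = Nat.card D'
  idx : Nat.card Q * Nat.card A ≤ Nat.card D' ^ 2
  comm : ∀ d ∈ D, d ∉ A → ∀ b ∈ Q, b * d * b⁻¹ * d⁻¹ ∈ A ↔ b ∈ D'

end CL.VM
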