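/- Modules of dimension 11 over the field of order 2: normal forms of the generators of `M24`. -/
import Cfsg.Agent.SPOR.CocodeRec

set_option autoImplicit false
set_option maxRecDepth 100000

namespace CL.VM.Md

open Finset CL.K CL.CG CL.F2M Matrix

attribute [local irreducible] gcode vcode

abbrev W : Type := Fin 11 → ZMod 2
abbrev Mt : Type := Matrix (Fin 11) (Fin 11) (ZMod 2)
abbrev GL11 : Type := GL (Fin 11) (ZMod 2)

def CM : ℕ := 0x4008010020040080100200400801
theorem ok11 : OK 11 CM 2047 := ⟨by norm_num, by norm_num, by decide +kernel⟩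
noncomputable def mm (a b : ℕ) : ℕ := mulC 11 CM 2047 a b
noncomputable def ac (a v : ℕ) : ℕ := act 11 2047 a v
def c1 : ℕ := 0x1001001001001001001001001001001
theorem oneC_eq : oneC 11 = c1 := by decide +kernel
theorem C11 : IsCode (gcode : GL11 → ℕ) mm c1 := oneC_eq ▸ ok11.isCode
theorem ac_code (g : GL11) (v : W) : ac (gcode g) (vcode v) = vcode (g • v) := ok11.isAct g v

theorem W_add_self (v : W) : v + v = 0 := funext fun _ => CharTwo.add_self_eq_zero _

theorem gl_ext {g k : GL11} (h : ∀ v : W, g • v = k • v) : g = k := Units.ext (by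
  ext i j
  have := congrFun (h (Pi.single j 1)) i
  rwa [gl_smul, gl_smul, mulVec_single_one, mulVec_single_one] at this)

theorem exists_fix {U : AddSubgroup W} {g : GL11} {p : ℕ} [Fact p.Prime] (hg : g ^ p = 1)
    (hU : ∀ v ∈ U, g • v ∈ U) (h : Nat.card U % p ≠ 1 % p) : ∃ v ∈ U, v ≠ 0 ∧ g • v = v := by
  classical
  let φ : Function.End U := fun a => ⟨g • a.1, hU _ a.2⟩
  have hφ : ∀ n (a : U), ((φ ^ n) a).1 = g ^ n • a.1 := by
    intro n
    induction n with
    | zero => intro a; rw [pow_zero, pow_zero, one_smul]; rfl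
    | succ n ih => intro a; rw [pow_succ, pow_succ, mul_smul]; exact ih (φ a)
  have := Fintype.ofFinite U
  have h1 := Equiv.Perm.card_fixedPoints_modEq (f := φ) (p := p) (n := 1)
    (funext fun a => Subtype.ext (by rw [hφ, pow_one, hg, one_smul]; rfl))
  rw [← Nat.card_eq_fintype_card, ← Nat.card_eq_fintype_card] at h1
  by_contra! k
  refine h (h1.trans (congrArg (· % p) (Nat.card_eq_one_iff_exists.2
    ⟨⟨0, Subtype.ext (smul_zero g)⟩, fun a => Subtype.ext (Subtype.ext ?_)⟩)))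
  exact by_contra fun e => k _ a.1.2 e (congrArg Subtype.val a.2)

theorem card_W : Nat.card W = 2 ^ 11 := by simp [W]

theorem sub_cases {A : GL11} (h : A ^ 23 = 1) {U : AddSubgroup W} (hU : ∀ v ∈ U, A • v ∈ U)
    (hf : ∀ v ∈ U, A • v = v → v = 0) : U = ⊥ ∨ U = ⊤ := by
  have : Fact (Nat.Prime 23) := ⟨by norm_num⟩
  have h1 : Nat.card U % 23 = 1 % 23 := by_contra fun e =>
    let ⟨v, h1, h2, h3⟩ := exists_fix h hU e; h2 (hf v h1 h3)
  have h3 := AddSubgroup.card_addSubgroup_dvd_card U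
  rw [card_W, Nat.dvd_prime_pow Nat.prime_two] at h3
  obtain ⟨j, hj, e⟩ := h3
  have : j = 0 ∨ j = 11 := by
    rw [e] at h1
    interval_cases j <;> simp_all
  rcases this with rfl | rfl
  · exact .inl (AddSubgroup.card_eq_one.1 e)
  · exact .inr ((AddSubgroup.card_eq_iff_eq_top U).1 (e.trans card_W.symm))

/-- the kernel of a matrix -/
def kr (M : Mt) : AddSubgroup W := M.mulVecLin.toAddMonoidHom.ker

theorem mem_kr {M : Mt} {v : W} : v ∈ kr M ↔ M *ᵥ v = 0 := Iff.rfl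

theorem kr_inv {A : GL11} {M : Mt} (h : Commute M A.1) : ∀ v ∈ kr M, A • v ∈ kr M := fun v hv => by
  rw [mem_kr, gl_smul, mulVec_mulVec, h.eq, ← mulVec_mulVec, mem_kr.1 hv, mulVec_zero]

theorem eq_zero {M : Mt} (h : ∀ v, M *ᵥ v = 0) : M = 0 := by
  ext i j
  simpa using congrFun (h (Pi.single j 1)) i

theorem norm_zero {A : GL11} (h : A ^ 23 = 1) (h1 : A ≠ 1) :
    ∑ i ∈ range 23, A.1 ^ i = 0 ∧ ∀ v : W, A • v = v → v = 0 := by
  have k : ∀ v : W, A • v = v → (∑ i ∈ range 23, A.1 ^ i) *ᵥ v = v := fun v hv => by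
    have : ∀ i : ℕ, A.1 ^ i *ᵥ v = v := fun i => by
      induction i with
      | zero => simp
      | succ i ih => rw [pow_succ, ← mulVec_mulVec, ← gl_smul, hv, ih]
    rw [sum_mulVec]
    simp only [this, sum_range_succ, sum_range_zero, zero_add, W_add_self]
  have e : ∑ i ∈ range 23, A.1 ^ i = 0 := by
    rcases sub_cases h (kr_inv (M := ∑ i ∈ range 23, A.1 ^ i)
      (Commute.sum_left _ _ _ fun i _ => Commute.pow_self _ i)) (fun v hv e => (k v e).symm.trans hv) with e | e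
    · refine (h1 (gl_ext fun v => ?_)).elim
      have : (A.1 - 1) *ᵥ v ∈ kr (∑ i ∈ range 23, A.1 ^ i) := by
        rw [mem_kr, mulVec_mulVec, geom_sum_mul, ← Units.val_pow_eq_pow_val, h, Units.val_one, sub_self,
          zero_mulVec]
      rwa [e, AddSubgroup.mem_bot, sub_mulVec, one_mulVec, sub_eq_zero, ← gl_smul, ← one_smul GL11 v,
        ← mul_smul, mul_one] at this
    · exact eq_zero fun v => e.ge (AddSubgroup.mem_top v)
  exact ⟨e, fun v hv => by rw [← k v hv, e, zero_mulVec]⟩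

theorem poly_cases {A : GL11} (h : A ^ 23 = 1) (h1 : A ≠ 1) : ∃ p, (p = 739 ∨ p = 1141) ∧
    A.1 ^ 11 = ∑ i : Fin 11, vdec 11 p i • A.1 ^ (i : ℕ) := by
  obtain ⟨e, hf⟩ := norm_zero h h1
  have two : ∀ M N : Mt, M + N = 0 → M = N := fun M N e => by
    ext i j
    exact CharTwo.add_eq_zero.1 (congrFun (congrFun e i) j)
  have hp : (Polynomial.X ^ 11 + (.X ^ 9 + .X ^ 7 + .X ^ 6 + .X ^ 5 + .X + 1) : Polynomial (ZMod 2)) *
      (.X ^ 11 + (.X ^ 10 + .X ^ 6 + .X ^ 5 + .X ^ 4 + .X ^ 2 + 1)) = ∑ i ∈ range 23, .X ^ i := by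
    have h2 : (2 : Polynomial (ZMod 2)) = 0 := CharTwo.two_eq_zero
    simp only [sum_range_succ, sum_range_zero]
    generalize (Polynomial.X : Polynomial (ZMod 2)) = X
    linear_combination (1 * X ^ 5 + 1 * X ^ 6 + 1 * X ^ 7 + 1 * X ^ 9 + 1 * X ^ 10 + 3 * X ^ 11 + 1 * X ^ 12 + 1 * X ^ 13 + 1 * X ^ 15 + 1 * X ^ 16 + 1 * X ^ 17) * h2
  have hq := congrArg (Polynomial.aeval A.1) hp
  simp only [map_mul, map_add, map_pow, map_sum, map_one, Polynomial.aeval_X, e] at hq
  rcases sub_cases h (kr_inv (M := A.1 ^ 11 + (A.1 ^ 9 + A.1 ^ 7 + A.1 ^ 6 + A.1 ^ 5 + A.1 + 1))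
    (by simp only [Commute, SemiconjBy]; noncomm_ring)) (fun v _ => hf v) with e | e
  · refine ⟨_, .inr rfl, (two _ _ (eq_zero fun v => AddSubgroup.mem_bot.1 (e.le (mem_kr.2 (by
      rw [mulVec_mulVec, hq, zero_mulVec]))))).trans ?_⟩
    simp [Fin.sum_univ_succ, vdec, b2z, Nat.testBit_eq_decide_div_mod_eq]
    abel
  · refine ⟨_, .inl rfl, (two _ _ (eq_zero fun v => e.ge (AddSubgroup.mem_top v))).trans ?_⟩
    simp [Fin.sum_univ_succ, vdec, b2z, Nat.testBit_eq_decide_div_mod_eq]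
    abel

abbrev eb (j : Fin 11) : W := Pi.single j 1

theorem vcode_eb (j : Fin 11) : vcode (eb j) = 2 ^ (j : ℕ) := by
  rw [eb, ← vdec_two_pow, vcode_vdec (Nat.pow_lt_pow_right one_lt_two j.2)]

theorem gcode_eq {g : GL11} {f : ℕ → ℕ} (h : ∀ j : Fin 11, vcode (g • eb j) = f j) : gcode g = cols 11 f := by
  unfold gcode; exact mcode_eq_cols h

theorem basis {A B : GL11} (h : A ^ 23 = 1) (h1 : A ≠ 1) (hb : B ^ 11 = 1) (hba : B * A = A ^ 2 * B) {p : ℕ}
    (hp : p < 2048) (e : A.1 ^ 11 = ∑ i : Fin 11, vdec 11 p i • A.1 ^ (i : ℕ)) : ∃ g : GL11,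
      gcode (g⁻¹ * A * g) = cols 11 (fun j => cond (Nat.beq j 10) p (2 ^ (j + 1))) ∧
      gcode (g⁻¹ * B * g) = cols 11 fun j => ac (powC mm c1 (gcode (g⁻¹ * A * g)) (2 * j)) 1 := by
  have : Fact (Nat.Prime 11) := ⟨by norm_num⟩
  obtain ⟨v, -, v0, hv⟩ := exists_fix (U := ⊤) hb (fun _ _ => trivial) (by
    rw [AddSubgroup.card_top, card_W]; decide)
  let P : Mt := Matrix.of fun i j => (A ^ (j : ℕ) • v) i
  have hP : ∀ j, P *ᵥ eb j = A ^ (j : ℕ) • v := fun j => by rw [mulVec_single_one]; rfl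
  have hP' : ∀ w, P *ᵥ w = ∑ i : Fin 11, w i • A ^ (i : ℕ) • v := fun w => by
    conv_lhs => rw [pi_eq_sum_univ' w]
    simp only [mulVec_sum, mulVec_smul, hP]
  have h11 : P *ᵥ vdec 11 p = A ^ 11 • v := by
    rw [hP', gl_smul, Units.val_pow_eq_pow_val, e, sum_mulVec]
    simp only [smul_mulVec, gl_smul, Units.val_pow_eq_pow_val]
  have hs : ∀ j : Fin 11, A • A ^ (j : ℕ) • v = P *ᵥ vdec 11 (cond (Nat.beq j 10) p (2 ^ (j + 1 : ℕ))) := fun j => by
    rw [← mul_smul, ← pow_succ']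
    by_cases hj : (j : ℕ) = 10
    · rw [hj]; exact h11.symm
    · rw [Bool.eq_false_iff.2 fun e => hj (CG.eq_of_beq e), cond_false, vdec_two_pow (⟨j + 1, by omega⟩ : Fin 11), hP]
  have hsur : Function.Surjective P.mulVec := by
    rcases sub_cases h (U := (LinearMap.range P.mulVecLin).toAddSubgroup) (by
      rintro _ ⟨w, rfl⟩
      rw [mulVecLin_apply, hP', smul_sum]
      refine sum_mem fun i _ => ?_
      rw [smul_comm, hs]
      exact Submodule.smul_mem _ _ ⟨_, rfl⟩) (fun v _ => (norm_zero h h1).2 v) with e | e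
    · refine (v0 (AddSubgroup.mem_bot.1 (e.le ⟨eb 0, ?_⟩))).elim
      rw [mulVecLin_apply, hP]; simp
    · exact fun w => e.ge (AddSubgroup.mem_top w)
  obtain ⟨g, hg⟩ := mulVec_surjective_iff_isUnit.1 hsur
  have hg' : ∀ w, g • w = P *ᵥ w := fun w => by rw [gl_smul, hg]
  refine ⟨g, gcode_eq fun j => ?_, gcode_eq fun j => ?_⟩
  · rw [mul_smul, mul_smul, hg', hP, hs, ← hg', inv_smul_smul, vcode_vdec]
    cases hj : Nat.beq j 10
    · exact Nat.pow_lt_pow_right one_lt_two (by have := Nat.ne_of_beq_eq_false hj; omega)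
    · exact hp
  · have k : ∀ n : ℕ, B • A ^ n • v = A ^ (2 * n) • v := fun n => by
      induction n with
      | zero => simpa using hv
      | succ n ih => rw [pow_succ', mul_smul, ← mul_smul B, hba, mul_smul, ih, ← mul_smul, ← pow_add]; congr 2; ring
    rw [C11.powC_eq, show 1 = vcode (eb 0) from (vcode_eb 0).symm, ac_code, mul_smul, mul_smul, hg', hP, k,
      show g⁻¹ * A * g = g⁻¹ * A * g⁻¹⁻¹ by rw [inv_inv], conj_pow, inv_inv, mul_smul, mul_smul, hg', hP]
    simp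

/-- the matrix with the prescribed image of the cyclic vector -/
noncomputable def cand (L : List ℕ) (Bi w : ℕ) : ℕ := mm (cols 11 fun j => wact ac L [j] w) Bi

/-- the list of the first powers -/
noncomputable def pwB (L : List ℕ) (b : ℕ) : Bool :=
  Nat.beq (llen L) 11 && allLt (fun i => Nat.beq (lget L i) (powC mm c1 b i)) 11

theorem det {e B B' : GL11} (he : e * B = B' * e) {L L' : List ℕ} (h : pwB L (gcode B) = true)
    (h' : pwB L' (gcode B') = true) {u Bi : ℕ} (hu : u < 2048) (hB : cand L Bi u = c1) :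
    ∃ w < 2048, gcode e = cand L' Bi w := by
  have k : ∀ {L : List ℕ} {B : GL11}, pwB L (gcode B) = true → L.length = 11 ∧
      ∀ i < 11, lget L i = gcode (B ^ i) := fun h => by
    simp only [pwB, Bool.and_eq_true, allLt_iff, Nat.beq_eq, llen_eq, C11.powC_eq] at h
    exact h
  have m : ∀ {L : List ℕ} {B : GL11}, pwB L (gcode B) = true → ∀ c ∈ L, Mem (gcode : GL11 → ℕ) ⊤ c :=
    fun h c hc => by
      obtain ⟨j, hj, rfl⟩ := exists_lget_of_mem hc
      exact ⟨_, trivial, ((k h).2 j ((k h).1 ▸ hj)).symm⟩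
  refine ⟨_, vcode_lt _, ok11.determined (m h) (m h') ((k h).1.trans (k h').1.symm) (fun i hi => ?_)
    (W := fun j => [j]) (fun j hj i hi => by rw [List.mem_singleton.1 hi, (k h).1]; exact hj) hu
    (hB.trans oneC_eq.symm)⟩
  rw [(k h).1] at hi
  rw [(k h).2 i hi, (k h').2 i hi, C11.elt_code, C11.elt_code]
  exact (SemiconjBy.pow_right he i).eq

/-- the data of one of the two modules -/
structure Dt where
  (p K L u Bi C D : ℕ)
  (PL PC PD : List ℕ)

/-- the check -/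
noncomputable def Dt.ok (d : Dt) : Bool :=
  blt d.p 2048 && Nat.beq (cols 11 fun j => cond (Nat.beq j 10) d.p (2 ^ (j + 1))) d.K &&
  Nat.beq (cols 11 fun j => ac (powC mm c1 d.K (2 * j)) 1) d.L && blt d.u 2048 &&
  pwB d.PL d.L && pwB d.PC (powC mm c1 d.L 10) && pwB d.PD (powC mm c1 d.L 3) &&
  Nat.beq (cand d.PL d.Bi d.u) c1 &&
  allN (fun w => force (cand d.PC d.Bi w) fun c => force (mm d.K c) fun x =>
    !Nat.beq (powC mm c1 x 3) c1 || Nat.beq c d.C) 2048 &&
  allN (fun w => force (cand d.PD d.Bi w) fun c => force (mm (mm d.K c) c) fun x =>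
    !Nat.beq (powC mm c1 x 5) c1 || Nat.beq c d.D) 2048

def dC : Dt := ⟨739, 0xb8e002002002002002002002002002, 0x1a573619b5bd71a0010008004002001, 3, 0x3a7efff723b7fe3a7fbdffff7ff7ff, 0x66810e942dd8e900b37b7ab8ab8001, 0x1e759efada4aa986e0a645a8f515801,
  [0x1001001001001001001001001001001, 0x1a573619b5bd71a0010008004002001, 0xcd8b7a0004000b4a99bb8c40008001, 0xb8c0466c8000119b20000466c80001, 0x15c42016fd2a04171e6c008800cd801, 0x1f26e300866c402b896f0219b100001, 0x18ec010405c666fe48082005bf36001, 0x16f0025c6ae28031d840336020b7801, 0x20008002f939b2de5c640010004001, 0xb7880004c765bc40002cd971820001, 0x80cd810b780216f0042de00ae3001],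
  [0x1001001001001001001001001001001, 0x80cd810b780216f0042de00ae3001, 0xb7880004c765bc40002cd971820001, 0x20008002f939b2de5c640010004001, 0x16f0025c6ae28031d840336020b7801, 0x18ec010405c666fe48082005bf36001, 0x1f26e300866c402b896f0219b100001, 0x15c42016fd2a04171e6c008800cd801, 0xb8c0466c8000119b20000466c80001, 0xcd8b7a0004000b4a99bb8c40008001, 0x1a573619b5bd71a0010008004002001],
  [0x1001001001001001001001001001001, 0xb8c0466c8000119b20000466c80001, 0x18ec010405c666fe48082005bf36001, 0xb7880004c765bc40002cd971820001, 0x1a573619b5bd71a0010008004002001, 0x15c42016fd2a04171e6c008800cd801, 0x16f0025c6ae28031d840336020b7801, 0x80cd810b780216f0042de00ae3001, 0xcd8b7a0004000b4a99bb8c40008001, 0x1f26e300866c402b896f0219b100001, 0x20008002f939b2de5c640010004001]⟩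

def dT : Dt := ⟨1141, 0x11d6002002002002002002002002002, 0x1ed0f6b66dc727e0010008004002001, 2, 0x11d810008d1c8011d80420000800fff, 0xd9c10fb5a94f6d00ecd3651d31d801, 0x2024fb660400098e804010100f6801,
  [0x1001001001001001001001001001001, 0x1ed0f6b66dc727e0010008004002001, 0x1b32a5a0004000bda36693e40008001, 0x11d4041ed80001366200004d9880001, 0x18e82054bf680423a9ed008801b3001, 0xc764f808d984031d54b0207b500001, 0xf68010408ead998e80820152cf6801, 0x6cc0249fc74801ed0406cc022a5801, 0x2000800263a7b4d9c9f40010004001, 0x1b8c800047b552c400023db27c20001, 0x81b301036602371804a9600a4f801],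
  [0x1001001001001001001001001001001, 0x81b301036602371804a9600a4f801, 0x1b8c800047b552c400023db27c20001, 0x2000800263a7b4d9c9f40010004001, 0x6cc0249fc74801ed0406cc022a5801, 0xf68010408ead998e80820152cf6801, 0xc764f808d984031d54b0207b500001, 0x18e82054bf680423a9ed008801b3001, 0x11d4041ed80001366200004d9880001, 0x1b32a5a0004000bda36693e40008001, 0x1ed0f6b66dc727e0010008004002001],
  [0x1001001001001001001001001001001, 0x11d4041ed80001366200004d9880001, 0xf68010408ead998e80820152cf6801, 0x1b8c800047b552c400023db27c20001, 0x1ed0f6b66dc727e0010008004002001, 0x18e82054bf680423a9ed008801b3001, 0x6cc0249fc74801ed0406cc022a5801, 0x81b301036602371804a9600a4f801, 0x1b32a5a0004000bda36693e40008001, 0xc764f808d984031d54b0207b500001, 0x2000800263a7b4d9c9f40010004001]⟩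

theorem okC : dC.ok = true := by decide +kernel
theorem okT : dT.ok = true := by decide +kernel

theorem normal {A B C D : GL11} (h : A ^ 23 = 1) (h1 : A ≠ 1) (hb : B ^ 11 = 1) (hba : B * A = A ^ 2 * B)
    (hc : C * B = B ^ 10 * C) (hd : D * B = B ^ 3 * D) (r1 : (A * C) ^ 3 = 1) (r2 : (A * D * D) ^ 5 = 1) :
    ∃ (g : GL11) (d : Dt), (d = dC ∨ d = dT) ∧ gcode (g⁻¹ * A * g) = d.K ∧ gcode (g⁻¹ * C * g) = d.C ∧
      gcode (g⁻¹ * D * g) = d.D := by
  obtain ⟨p, hp, e⟩ := poly_cases h h1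
  obtain ⟨d, hd', rfl, ok⟩ : ∃ d : Dt, (d = dC ∨ d = dT) ∧ d.p = p ∧ d.ok = true := by
    rcases hp with rfl | rfl
    exacts [⟨dC, .inl rfl, rfl, okC⟩, ⟨dT, .inr rfl, rfl, okT⟩]
  simp only [Dt.ok, Bool.and_eq_true, Nat.beq_eq] at ok
  obtain ⟨⟨⟨⟨⟨⟨⟨⟨⟨o1, o2⟩, o3⟩, o4⟩, o5⟩, o6⟩, o7⟩, o8⟩, o9⟩, o10⟩ := ok
  obtain ⟨g, e1, e2⟩ := basis h h1 hb hba (lt_of_blt o1) e
  let θ : GL11 ≃* GL11 := MulAut.conj g⁻¹
  have hθ : ∀ x, g⁻¹ * x * g = θ x := fun x => by simp [θ]
  simp only [hθ] at e1 e2 ⊢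
  rw [o2] at e1
  rw [e1, o3] at e2
  rw [← e2] at o5 o6 o7
  rw [C11.powC_eq] at o6 o7
  refine ⟨g, d, hd', by rw [hθ, e1], ?_, ?_⟩ <;> rw [hθ]
  · obtain ⟨w, hw, e⟩ := det (e := θ C) (by rw [← map_mul, hc, map_mul, map_pow]) o5 o6 (lt_of_blt o4) o8
    have := allN_spec o9 w hw
    rw [force_eq, force_eq, ← e, ← e1, show mm _ _ = _ from C11.map_mul _ _, C11.powC_eq, ← map_mul, ← map_pow, r1,
      map_one, C11.map_one, Nat.beq_refl, Bool.not_true, Bool.false_or] at this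
    exact eq_of_beq this
  · obtain ⟨w, hw, e⟩ := det (e := θ D) (by rw [← map_mul, hd, map_mul, map_pow]) o5 o7 (lt_of_blt o4) o8
    have := allN_spec o10 w hw
    rw [force_eq, force_eq, ← e, ← e1, show mm (gcode _) _ = _ from C11.map_mul _ _,
      show mm _ _ = _ from C11.map_mul _ _, C11.powC_eq, ← map_mul, ← map_mul, ← map_pow, r2,
      map_one, C11.map_one, Nat.beq_refl, Bool.not_true, Bool.false_or] at this
    exact eq_of_beq this

end CL.VM.Md
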