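/- The faithful modules of dimension 11 of `M24` over the field of order 2. -/
import Cfsg.Agent.SPOR.VM.Defs
import Cfsg.Agent.SPOR.VM.ModA

set_option autoImplicit false
set_option maxRecDepth 100000

namespace CL.VM
open Subgroup Cfsg Cfsg.Spor CL.Golay CL.MSS CL.PComp
open CL.MAut (Pm)
open scoped Pointwise symmDiff

variable {G : Type*} [Group G]

namespace Md

open CL.K CL.CG CL.F2M CL.CoRec Finset

attribute [local irreducible] gcode vcode

/-- coordinates on an elementary abelian group -/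
theorem exists_iota [Finite G] {V : Subgroup G} (hV : IsElementaryAbelian 2 V) (hcard : Nat.card V = 2 ^ 11) :
    ∃ ι : W → G, (∀ u v, ι (u + v) = ι u * ι v) ∧ Function.Injective ι ∧ ∀ a, a ∈ V ↔ ∃ v, ι v = a := by
  let _ : CommGroup V := { (inferInstance : Group V) with mul_comm := hV.1.is_comm.comm }
  let _ : Module (ZMod 2) (Additive V) := AddCommGroup.zmodModule fun x => by
    rw [two_smul]
    exact Additive.toMul.injective (Subtype.ext ((pow_two _).symm.trans (hV.2 _ x.toMul.2)))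
  have hr : Module.finrank (ZMod 2) (Additive V) = 11 := by
    have h1 := Module.natCard_eq_pow_finrank (K := ZMod 2) (V := Additive V)
    rw [Nat.card_zmod, show Nat.card (Additive V) = 2 ^ 11 from hcard] at h1
    exact Nat.pow_right_injective le_rfl h1.symm
  let e : W ≃ₗ[ZMod 2] Additive V := LinearEquiv.ofFinrankEq _ _ (by simp [hr])
  refine ⟨fun v => (e v).toMul, fun u v => by simp only [map_add]; rfl,
    fun u v h => e.injective (Additive.toMul.injective (Subtype.ext h)), fun a => ⟨fun ha => ?_, ?_⟩⟩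
  · exact ⟨e.symm (Additive.ofMul ⟨a, ha⟩), by simp⟩
  · rintro ⟨v, rfl⟩
    exact Subtype.prop _

/-- a linear model -/
structure Lin (Dm Kr : Set (Finset GolayPt)) (ν : M24 →* GL11) (φ : Finset GolayPt → W) : Prop where
  add : ∀ s t, φ (s ∆ t) = φ s + φ t
  ker : ∀ s ∈ Dm, φ s = 0 ↔ s ∈ Kr
  surj : ∀ v, ∃ s ∈ Dm, φ s = v
  act : ∀ g : M24, ∀ s ∈ Dm, ν g • φ s = φ ((g : Pm) • s)

def ga : M24 := ⟨_, transl_mem⟩
def gc : M24 := ⟨_, projInv_mem⟩
noncomputable def gd : M24 := ⟨_, cubeTwist_mem⟩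
def cb : ℕ := 983435072843990828779021698901151808
theorem Rb : R (pm cb) cb := Golay.R.pm (by decide +kernel)
noncomputable def gb : M24 := ⟨pm cb, Rb.mem_M24_iff.2 (by decide +kernel)⟩

theorem act_of {Dm : Set (Finset GolayPt)} {ν : M24 →* GL11} {φ : Finset GolayPt → W}
    (hD : ∀ g : M24, ∀ s ∈ Dm, (g : Pm) • s ∈ Dm) (h : ∀ g ∈ [ga, gc, gd], ∀ s ∈ Dm, ν g • φ s = φ ((g : Pm) • s))
    (g : M24) : ∀ s ∈ Dm, ν g • φ s = φ ((g : Pm) • s) := by
  obtain ⟨g, hg⟩ := g
  have hg' := closure_gens_eq.1.ge hg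
  induction hg' using closure_induction with
  | mem x hx =>
    rcases hx with rfl | rfl | rfl
    exacts [h ga (by simp), h gc (by simp), h gd (by simp)]
  | one => intro s _; rw [show (⟨1, hg⟩ : M24) = 1 from rfl, map_one, one_smul, OneMemClass.coe_one, one_smul]
  | mul x y hx hy h1 h2 =>
    intro s hs
    have mx := closure_gens_eq.1.le hx
    have my := closure_gens_eq.1.le hy
    rw [show (⟨x * y, hg⟩ : M24) = ⟨x, mx⟩ * ⟨y, my⟩ from rfl, map_mul, mul_smul, h2 my s hs,
      h1 mx _ (hD ⟨y, my⟩ s hs), Subgroup.coe_mul, mul_smul]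
  | inv x hx h1 =>
    intro s hs
    have mx := closure_gens_eq.1.le hx
    rw [show (⟨x⁻¹, hg⟩ : M24) = ⟨x, mx⟩⁻¹ from rfl, map_inv, inv_smul_eq_iff, h1 mx _ (hD _ s hs),
      Subgroup.coe_inv, smul_inv_smul]

def pT : ℕ := 0x18e98efb47b47b766366367b8ea5c9f8eb001001001001001001001001001001
def pC : ℕ := 0xc4b98c32d43fa1737cbebaaf12648c6a9

/-- the linear map given by a table -/
def phi (T : ℕ) (s : Finset GolayPt) : W := ∑ a ∈ s, vdec 11 (fld 11 2047 T (E.enc a))

theorem phi_add (T : ℕ) (s t : Finset GolayPt) : phi T (s ∆ t) = phi T s + phi T t := by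
  rw [phi, phi, phi, symmDiff_def, Finset.sup_eq_union, sum_union disjoint_sdiff_sdiff, ← sum_inter_add_sum_sdiff s t,
    ← sum_inter_add_sum_sdiff t s, inter_comm t s, add_add_add_comm, W_add_self, zero_add]

theorem sel_lt (T n : ℕ) : Golay.sel (fld 11 2047 T) 24 n < 2 ^ 11 :=
  sel_induction (p := (· < 2 ^ 11)) (by norm_num) (fun _ _ => Nat.xor_lt_two_pow)
    (fun _ _ => lt_of_le_of_lt Nat.and_le_right (by norm_num)) n

theorem smul_vdec {g : GL11} {c u v : ℕ} (hg : gcode g = c) (hu : u < 2 ^ 11) (h : Nat.beq (ac c u) v = true) :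
    g • vdec 11 u = vdec 11 v := by
  rw [← CG.eq_of_beq h, ← hg, ← vdec_vcode (g • _), ← ac_code, vcode_vdec hu]

theorem linT {ν : M24 →* GL11} (h1 : gcode (ν ga) = dT.K) (h2 : gcode (ν gc) = dT.C) (h3 : gcode (ν gd) = dT.D) :
    Lin Ev Code ν (phi pT) := by
  have co : coB 11 (fld 11 2047 pT) = true := by decide +kernel
  have k : ∀ {g : M24} {c P : ℕ}, gcode (ν g) = c → R (g : Pm) P → allLt (fun i => allLt (fun j =>
      Nat.beq (ac c (Nat.xor (fld 11 2047 pT i) (fld 11 2047 pT j)))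
        (Nat.xor (fld 11 2047 pT (fld 5 31 P i)) (fld 11 2047 pT (fld 5 31 P j)))) 24) 24 = true →
      ∀ s ∈ Ev, ν g • phi pT s = phi pT ((g : Pm) • s) := fun {g c P} e r h s hs =>
    (co_of_coB co).map_sum_eq (DistribSMul.toAddMonoidHom W (ν g)) (fun a b => by
      rw [← vdec_xor, ← vdec_xor, r a, r b]
      exact smul_vdec e (Nat.xor_lt_two_pow (lt_of_le_of_lt Nat.and_le_right (by norm_num))
        (lt_of_le_of_lt Nat.and_le_right (by norm_num)))
        (allLt_iff.1 (allLt_iff.1 h _ (E.enc_lt a)) _ (E.enc_lt b))) hs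
  refine ⟨phi_add _, (co_of_coB co).ker, surj_of_check co (b := fun i => Nat.lor (Nat.pow 2 i) 8388608)
    (by decide +kernel), act_of (fun g s hs => by rwa [Ev, Set.mem_ofPred_eq, card_smul_finset]) fun g hg => ?_⟩
  simp only [List.mem_cons, List.not_mem_nil, or_false] at hg
  rcases hg with rfl | rfl | rfl
  exacts [k h1 R_transl (by decide +kernel), k h2 R_projInv (by decide +kernel),
    k h3 R_cubeTwist (by decide +kernel)]

theorem linC {ν : M24 →* GL11} (h1 : gcode (ν ga) = dC.K) (h2 : gcode (ν gc) = dC.C) (h3 : gcode (ν gd) = dC.D) :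
    Lin Code K1 ν (phi pC) := by
  have e0 : ∀ n, phi pC (E.setOf n) = vdec 11 (Golay.sel (fld 11 2047 pC) 24 n) := sum_setOf 11 _
  have k : ∀ {g : M24} {c P : ℕ}, gcode (ν g) = c → R (g : Pm) P → allN (fun k => force (cw k) fun w =>
      Nat.beq (ac c (Golay.sel (fld 11 2047 pC) 24 w))
        (force (img24 P w) (Golay.sel (fld 11 2047 pC) 24))) 4096 = true →
      ∀ s ∈ Code, ν g • phi pC s = phi pC ((g : Pm) • s) := fun {g c P} e r h s hs => by
    obtain ⟨k, hk, rfl⟩ := mem_code_iff.1 hs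
    have := allN_spec h k hk
    rw [force_eq, force_eq] at this
    rw [← r.setOf_img, e0, e0, smul_vdec e (sel_lt _ _) this]
  have z : phi pC ∅ = 0 := sum_empty
  refine ⟨phi_add _, fun s hs => ⟨fun e => ?_, ?_⟩, fun v => ?_,
    act_of (fun g s hs => mem_M24_iff.1 g.2 s hs) fun g hg => ?_⟩
  · obtain ⟨k, hk, rfl⟩ := mem_code_iff.1 hs
    have := allN_spec (p := fun k => force (cw k) fun w => !Nat.beq (Golay.sel (fld 11 2047 pC) 24 w) 0 ||
      (Nat.beq w 0 || Nat.beq w 16777215)) (N := 4096) (by decide +kernel) k hk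
    rw [e0, ← vdec_zero] at e
    rw [force_eq, eq_of_vdec (sel_lt _ _) (by norm_num) e, Nat.beq_refl, Bool.not_true, Bool.false_or,
      Bool.or_eq_true, Nat.beq_eq, Nat.beq_eq] at this
    exact this.imp (fun e => by rw [e, E.setOf_zero]) fun e => by rw [e]; exact E.setOf_full
  · rintro (rfl | rfl)
    · exact z
    · rw [← E.setOf_full, e0, show Golay.sel (fld 11 2047 pC) 24 (2 ^ 24 - 1) = 0 by decide +kernel, vdec_zero]
  · induction v using Pi.single_induction with
    | zero => exact ⟨∅, empty_mem_code, z⟩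
    | add u v hu hv =>
      obtain ⟨s, hs, rfl⟩ := hu
      obtain ⟨t, ht, rfl⟩ := hv
      exact ⟨s ∆ t, symmDiff_mem_code hs ht, phi_add _ s t⟩
    | single i c =>
      have : c = 0 ∨ c = 1 := by revert c; decide
      rcases this with rfl | rfl
      · exact ⟨∅, empty_mem_code, by rw [z, Pi.single_zero]⟩
      · have := allLt_iff.1 (show allLt (fun i => force (lget [863, 1726, 643, 1287, 1520, 1054, 1986, 122, 245, 491, 982] i)
          fun k => blt k 4096 && Nat.beq (Golay.sel (fld 11 2047 pC) 24 (cw k)) (Nat.pow 2 i)) 11 = true by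
            decide +kernel) i i.2
        rw [force_eq, Bool.and_eq_true] at this
        exact ⟨_, setOf_cw_mem (lt_of_blt this.1), by rw [e0, CG.eq_of_beq this.2]; exact vdec_two_pow i⟩
  · simp only [List.mem_cons, List.not_mem_nil, or_false] at hg
    rcases hg with rfl | rfl | rfl
    exacts [k h1 R_transl (by decide +kernel), k h2 R_projInv (by decide +kernel),
      k h3 R_cubeTwist (by decide +kernel)]

theorem exists_lin {ν : M24 →* GL11} (h1 : ν ga ≠ 1) : ∃ φ, Lin Ev Code ν φ ∨ Lin Code K1 ν φ := by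
  have ra : R (ga : Pm) cA := R_transl
  have rb : R (gb : Pm) cb := Rb
  have rc : R (gc : Pm) cB := R_projInv
  have rd : R (gd : Pm) cC := R_cubeTwist
  have o : ∀ {g : M24} {P n : ℕ}, R (g : Pm) P → pow24 P (n + 1) = one24 → ν g ^ (n + 1) = 1 := fun r e => by
    rw [← map_pow, show _ ^ _ = (1 : M24) from Subtype.ext ((r.pow_succ_eq_one_iff _).1 e), map_one]
  obtain ⟨g, d, hd, e1, e2, e3⟩ := normal (A := ν ga) (B := ν gb) (C := ν gc) (D := ν gd)
    (o ra (by decide +kernel)) h1 (o rb (by decide +kernel))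
    (by rw [← map_mul, ← map_pow, ← map_mul]
        exact congrArg ν (Subtype.ext ((rb.comp24_eq_iff ra (ra.pow 2) rb).1 (by decide +kernel))))
    (by rw [← map_mul, ← map_pow, ← map_mul]
        exact congrArg ν (Subtype.ext ((rc.comp24_eq_iff rb (rb.pow 10) rc).1 (by decide +kernel))))
    (by rw [← map_mul, ← map_pow, ← map_mul]
        exact congrArg ν (Subtype.ext ((rd.comp24_eq_iff rb (rb.pow 3) rd).1 (by decide +kernel))))
    (by rw [← map_mul]; exact o (ra.mul rc) (by decide +kernel))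
    (by rw [← map_mul, ← map_mul]; exact o ((ra.mul rd).mul rd) (by decide +kernel))
  let ν' : M24 →* GL11 := (MulAut.conj g⁻¹).toMonoidHom.comp ν
  have hν : ∀ x, ν' x = g⁻¹ * ν x * g := fun x => by simp [ν']
  have tr : ∀ {Dm Kr φ}, Lin Dm Kr ν' φ → Lin Dm Kr ν fun s => g • φ s := fun h =>
    ⟨fun s t => by rw [h.add, smul_add], fun s hs => by rw [smul_eq_zero_iff_eq, h.ker s hs],
      fun v => let ⟨s, hs, e⟩ := h.surj (g⁻¹ • v); ⟨s, hs, by rw [e, smul_inv_smul]⟩,
      fun x s hs => by rw [← h.act x s hs, hν, mul_smul, mul_smul, smul_inv_smul]⟩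
  rw [← hν] at e1 e2 e3
  rcases hd with rfl | rfl
  exacts [⟨_, .inr (tr (linC e1 e2 e3))⟩, ⟨_, .inl (tr (linT e1 e2 e3))⟩]

end Md

/-- PROOF. `CL.CoRec.exists_mu` gives `μ : N(V) → GL 11 2` with kernel `C(V) = V`, so a faithful
`ν : M24 → GL 11 2`. Template for the computation: `SPOR/J4/Mod`, `SPOR/J4P/Mod`, kit `SPOR/F2Mat` (`determined`).
Generators `a = pm cA` (order 23), `b = pm (cMul 2)` (order 11, `b a b⁻¹ = a ^ 2`), `c = pm cB` (involution,
inverts `b`, `(a c) ^ 3 = 1`), `d = pm cC` (order 5, normalises `⟨b⟩`); `closure_gens_eq : ⟨a, c, d⟩ = M24`.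
(1) `x ^ 23 - 1 = (x + 1) f g` with `f, g` irreducible of degree 11; `ν a ≠ 1`, so `f(ν a) = 0` or `g(ν a) = 0` and
every `v ≠ 0` is cyclic (no non-zero fixed vector: `2 ^ 11 ≡ 1 mod 23` and a proper invariant subspace has order
`2 ^ k`, `k < 11`, on which and on whose quotient an element of order 23 is trivial). (2) `b` permutes the 89
orbits of `⟨a⟩` on non-zero vectors, so `|C_V(b)| ≡ 2 mod 11` gives `v ≠ 0` fixed by `b`; in the basis `a ^ i v`
both `ν a` (companion matrix of `f` or `g`) and `ν b` (`a ^ i v ↦ a ^ (2 i) v`) are known. `C_V(b) = ⟨v⟩`, so `c` and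
`d` fix `v`. (3) `ν c` is determined by the image `w` of `a v` (the `b ^ j a v` and `v` span `V`): 2048 candidates,
test `c ^ 2 = 1`, `(a c) ^ 3 = 1`; likewise `ν d`, test relations that hold in `M24` (`d ^ 5`, `[c, d]`, orders of
short words in `a, c, d`). One solution is left for `f` and one for `g`. (4) These are the matrices of the even
cocode and of the code modulo 1: give the linear map from masks to vectors explicitly and check that it intertwines
`a, c, d` on a basis. -/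
theorem exists_vd [Finite G] {V : Subgroup G} (hV : IsElementaryAbelian 2 V) (hcard : Nat.card V = 2 ^ 11)
    (hC : centralizer (V : Set G) = V)
    (hM : IsoM24 (normalizer (V : Set G) ⧸ V.subgroupOf (normalizer (V : Set G)))) :
    ∃ θ π, VT V θ π ∨ VC V θ π := by
  classical
  obtain ⟨ι, hι, hi, hA⟩ := Md.exists_iota hV hcard
  obtain ⟨μ, hμ⟩ := CoRec.exists_mu ι hι hi hA
  obtain ⟨e⟩ := hM
  have ker : ∀ a, μ a = 1 ↔ (a : G) ∈ V := fun a => by
    refine ⟨fun h => hC.le fun b hb => ?_, fun h => Md.gl_ext fun v => hi ?_⟩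
    · obtain ⟨v, rfl⟩ := (hA b).1 hb
      have := hμ a v
      rw [h, one_smul, mul_inv_eq_iff_eq_mul] at this
      exact this.symm
    · rw [← hμ, one_smul, ← hC.ge h _ ((hA _).2 ⟨v, rfl⟩), mul_inv_cancel_right]
  let ψ : normalizer (V : Set G) →* M24 := e.toMonoidHom.comp (QuotientGroup.mk' _)
  have hψ : ∀ a, ψ a = 1 ↔ (a : G) ∈ V := fun a => e.map_eq_one_iff.trans (QuotientGroup.eq_one_iff a)
  have sψ : Function.Surjective ψ := e.surjective.comp (QuotientGroup.mk'_surjective _)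
  let ν : M24 →* Md.GL11 := (QuotientGroup.lift _ μ fun a ha => (ker a).2 ha).comp e.symm.toMonoidHom
  have hν : ∀ a, ν (ψ a) = μ a := fun a => congrArg (QuotientGroup.lift _ μ fun a ha => (ker a).2 ha)
    (e.symm_apply_apply _)
  obtain ⟨φ, hφ⟩ := Md.exists_lin (ν := ν) fun h => by
    obtain ⟨a, ha⟩ := sψ Md.ga
    rw [← ha, hν, ker, ← hψ, ha] at h
    exact absurd ((R_transl.pow_succ_eq_one_iff 0).2 (by rw [zero_add, pow_one]; exact congrArg Subtype.val h))
      (by decide +kernel)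
  have ι0 : ι 0 = 1 := by simpa using hι 0 0
  let π : G → Pm := fun a => if h : a ∈ normalizer (V : Set G) then ψ ⟨a, h⟩ else 1
  have hπ : ∀ a (h : a ∈ normalizer (V : Set G)), π a = ψ ⟨a, h⟩ := fun a h => dif_pos h
  have key : ∀ {Dm Kr}, (Dm = Ev ∧ Kr = Code) ∨ (Dm = Code ∧ Kr = K1) → Md.Lin Dm Kr ν φ →
      VD Dm Kr V (fun s => ι (φ s)) π := fun ty h =>
    ⟨ty, fun s _ t _ => by rw [h.add, hι], fun s hs => by rw [← h.ker s hs, ← ι0, hi.eq_iff],
      fun v => (hA v).trans ⟨fun ⟨w, e⟩ => let ⟨s, hs, e'⟩ := h.surj w; ⟨s, hs, by rw [e', e]⟩,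
        fun ⟨s, _, e⟩ => ⟨_, e⟩⟩,
      fun a ha b hb => by rw [hπ a ha, hπ b hb, hπ _ (mul_mem ha hb), ← Subgroup.coe_mul, ← map_mul]; rfl,
      fun a ha => hπ a ha ▸ Subtype.prop _,
      fun g hg => let ⟨a, e⟩ := sψ ⟨g, hg⟩; ⟨a, a.2, by rw [hπ a a.2, e]⟩,
      fun a ha => by rw [hπ a ha, OneMemClass.coe_eq_one, hψ],
      fun a ha s hs => by rw [hπ a ha, ← h.act _ s hs, hν]; exact hμ ⟨a, ha⟩ _, hC.le⟩
  exact ⟨_, π, hφ.imp (key (.inl ⟨rfl, rfl⟩)) (key (.inr ⟨rfl, rfl⟩))⟩

end CL.VM
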