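/- Elementary abelian 2-subgroups of `M24`. -/
import Cfsg.Agent.SPOR.VM.Defs

set_option autoImplicit false

namespace CL.VM
open Subgroup Cfsg Cfsg.Spor CL.Golay
open CL.MAut (Pm)
open scoped Pointwise

/-- an elementary abelian 2-subgroup of `M24` -/
structure El (D : Subgroup Pm) : Prop where
  le : D ≤ M24
  sq : ∀ d ∈ D, d * d = 1

variable {D : Subgroup Pm}

/-- PROOF. `invol_class`, `ConjTo.card_fixS`. -/
theorem El.fix (h : El D) {d : Pm} (hd : d ∈ D) (h1 : d ≠ 1) : (fixS d).card = 0 ∨ (fixS d).card = 8 :=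
  (invol_class (h.le hd) (orderOf_eq_prime ((pow_two d).trans (h.sq d hd)) h1)).symm.imp
    (fun e => e.card_fixS.trans card_fixS_2B) fun e => e.card_fixS.trans card_fixS_2A

namespace Rk

open Classical in
/-- the orbit of a point -/
noncomputable def orb (D : Subgroup Pm) (p : GolayPt) : Finset GolayPt := Finset.univ.filter fun q => ∃ d ∈ D, d p = q

theorem mem_orb {p q : GolayPt} : q ∈ orb D p ↔ ∃ d ∈ D, d p = q := by simp [orb]

theorem self_orb (p : GolayPt) : p ∈ orb D p := mem_orb.2 ⟨1, one_mem _, rfl⟩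

theorem orb_eq {p q : GolayPt} (h : q ∈ orb D p) : orb D q = orb D p := by
  obtain ⟨d, hd, rfl⟩ := mem_orb.1 h
  ext r
  rw [mem_orb, mem_orb]
  exact ⟨fun ⟨e, he, k⟩ => ⟨e * d, mul_mem he hd, k⟩,
    fun ⟨e, he, k⟩ => ⟨e * d⁻¹, mul_mem he (inv_mem hd), by simpa using k⟩⟩

theorem orb_sub {s : Finset GolayPt} (hs : ∀ d ∈ D, d • s = s) {p : GolayPt} (hp : p ∈ s) : orb D p ⊆ s :=
  fun q hq => by
    obtain ⟨d, hd, rfl⟩ := mem_orb.1 hq
    exact apply_mem_of_smul_eq (hs d hd) hp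

theorem card_orb (D : Subgroup Pm) (p : GolayPt) :
    Nat.card D = (orb D p).card * Nat.card (D ⊓ MulAction.stabilizer Pm p : Subgroup Pm) := by
  rw [CL.card_eq_orbit_mul D p, ← Set.ncard_coe_finset]
  congr 2
  ext q
  rw [Finset.mem_coe, mem_orb]
  exact ⟨fun ⟨g, hg⟩ => ⟨g, g.2, hg⟩, fun ⟨g, hg, e⟩ => ⟨⟨g, hg⟩, e⟩⟩

theorem dvd_of_orb {s : Finset GolayPt} (hs : ∀ d ∈ D, d • s = s) {m : ℕ} (f : GolayPt → ℕ)
    (h : ∀ p ∈ s, m ∣ ∑ q ∈ orb D p, f q) : m ∣ ∑ q ∈ s, f q := by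
  classical
  rw [← Finset.sum_fiberwise_of_maps_to (g := orb D) (t := s.image (orb D)) fun p hp => Finset.mem_image_of_mem _ hp]
  refine Finset.dvd_sum fun a ha => ?_
  obtain ⟨p, hp, rfl⟩ := Finset.mem_image.1 ha
  have : s.filter (fun q => orb D q = orb D p) = orb D p := by
    ext q
    rw [Finset.mem_filter]
    exact ⟨fun k => k.2 ▸ self_orb q, fun k => ⟨orb_sub hs hp k, orb_eq k⟩⟩
  rw [this]
  exact h p hp

end Rk
open Rk

/-- Burnside's lemma on an invariant set.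
PROOF. `MulAction.sum_card_fixedBy_eq_card_orbits_mul_card_group` for the action on `s`. -/
theorem dvd_sum (D : Subgroup Pm) {s : Finset GolayPt} (hs : ∀ d ∈ D, d • s = s) :
    Nat.card D ∣ ∑ᶠ d : D, (fixS (d : Pm) ∩ s).card := by
  classical
  have e : ∑ᶠ d : D, (fixS (d : Pm) ∩ s).card =
      ∑ p ∈ s, Nat.card (D ⊓ MulAction.stabilizer Pm p : Subgroup Pm) := by
    rw [finsum_eq_sum_of_fintype]
    have e1 : ∀ d : D, (fixS (d : Pm) ∩ s).card = ∑ p ∈ s, if (d : Pm) p = p then 1 else 0 := fun d => by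
      rw [← Finset.card_filter]
      congr 1
      ext p
      rw [Finset.mem_inter, Finset.mem_filter, mem_fixS, and_comm]
    rw [Finset.sum_congr rfl fun d _ => e1 d, Finset.sum_comm]
    refine Finset.sum_congr rfl fun p _ => ?_
    rw [← Finset.card_filter, ← Fintype.card_subtype, ← Nat.card_eq_fintype_card]
    exact Nat.card_congr ⟨fun d => ⟨d.1, d.1.2, d.2⟩, fun d => ⟨⟨d.1, d.2.1⟩, d.2.2⟩, fun _ => rfl, fun _ => rfl⟩
  rw [e]
  refine dvd_of_orb hs _ fun p _ => ?_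
  rw [Finset.sum_congr rfl (g := fun _ => Nat.card (D ⊓ MulAction.stabilizer Pm p : Subgroup Pm)) fun q hq => by
    have h1 := card_orb D q
    rw [orb_eq hq, card_orb D p] at h1
    exact (Nat.eq_of_mul_eq_mul_left (Finset.card_pos.2 ⟨p, self_orb p⟩) h1).symm,
    Finset.sum_const, smul_eq_mul, ← card_orb]

namespace Rk

theorem dvd_sub {s : Finset GolayPt} (hs : ∀ d ∈ D, d • s = s) {k : ℕ}
    (hk : ∀ d ∈ D, d ≠ 1 → (fixS d ∩ s).card = k) {m : ℕ} (hm : s.card = k + m) : Nat.card D ∣ m := by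
  classical
  have h := dvd_sum D hs
  rw [finsum_eq_sum_of_fintype, Finset.sum_congr rfl (g := fun d => k + if d = 1 then m else 0) fun d _ => by
    split_ifs with e
    · rw [e, ← hm]
      congr 1
      exact Finset.inter_eq_right.2 fun p _ => mem_fixS.2 rfl
    · exact hk d d.2 fun e' => e (Subtype.ext e'), Finset.sum_add_distrib, Finset.sum_const, Finset.card_univ,
    ← Nat.card_eq_fintype_card, smul_eq_mul, Finset.sum_ite_eq', if_pos (Finset.mem_univ _)] at h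
  exact (Nat.dvd_add_right (dvd_mul_right _ _)).1 h

theorem fix_ne {d : Pm} {p : GolayPt} (h : d p = p) : (fixS d).card ≠ 0 :=
  (Finset.card_pos.2 ⟨p, mem_fixS.2 h⟩).ne'

theorem univ_inv (d : Pm) (_ : d ∈ D) : d • (Finset.univ : Finset GolayPt) = Finset.univ := Finset.smul_finset_univ

end Rk

theorem El.mono (h : El D) {D' : Subgroup Pm} (k : D' ≤ D) : El D' := ⟨k.trans h.le, fun d hd => h.sq d (k hd)⟩

theorem El.comm (h : El D) {a b : Pm} (ha : a ∈ D) (hb : b ∈ D) : a * b = b * a := by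
  rw [← inv_eq_of_mul_eq_one_right (h.sq _ (mul_mem ha hb)), mul_inv_rev, inv_eq_of_mul_eq_one_right (h.sq a ha),
    inv_eq_of_mul_eq_one_right (h.sq b hb)]

theorem El.card (h : El D) : ∃ n, Nat.card D = 2 ^ n :=
  haveI : Fact (Nat.Prime 2) := ⟨Nat.prime_two⟩
  IsPGroup.iff_card.1 fun d => ⟨1, Subtype.ext ((pow_two _).trans (h.sq d d.2))⟩

theorem El.orb_fix (h : El D) {d : Pm} (hd : d ∈ D) {p : GolayPt} (e : d p = p) : orb D p ⊆ fixS d := fun q hq => by
  obtain ⟨c, hc, rfl⟩ := mem_orb.1 hq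
  rw [mem_fixS, ← Equiv.Perm.mul_apply, h.comm hd hc, Equiv.Perm.mul_apply, e]

/-- an orbit of length at most `2 ^ j` -/
theorem El.small (h : El D) {s : Finset GolayPt} (hs : ∀ d ∈ D, d • s = s) {j : ℕ} (hj : ¬ 2 ^ (j + 1) ∣ s.card) :
    ∃ p ∈ s, ∃ a ≤ j, (orb D p).card = 2 ^ a := by
  by_contra! k
  refine hj (Finset.card_eq_sum_ones s ▸ dvd_of_orb hs _ fun p hp => ?_)
  obtain ⟨n, hn⟩ := h.card
  obtain ⟨a, -, e⟩ := (Nat.dvd_prime_pow Nat.prime_two).1 (hn ▸ Dvd.intro _ (card_orb D p).symm)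
  rw [← Finset.card_eq_sum_ones, e]
  exact pow_dvd_pow 2 (by by_contra! l; exact k p hp a (by omega) e)

theorem El.bound (h : El D) {s : Finset GolayPt} (hs : ∀ d ∈ D, d • s = s) {j : ℕ} (hj : 0 < j)
    (hc : s.card = 3 * 2 ^ j) (hk : ∀ d ∈ D, d ≠ 1 → (fixS d).card ≠ 0 → (fixS d ∩ s).card = 2 ^ j) :
    Nat.card D ≤ 2 ^ j * 2 ^ j := by
  obtain ⟨p, hp, a, ha, e⟩ := h.small hs (j := j) (by
    rw [hc, pow_succ, mul_comm, mul_dvd_mul_iff_right (by positivity)]; decide)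
  obtain ⟨b, hb, e1⟩ := (Nat.dvd_prime_pow Nat.prime_two).1
    (dvd_sub (D := D ⊓ MulAction.stabilizer Pm p) (fun d hd => hs d hd.1)
      (fun d hd h1 => hk d hd.1 h1 (fix_ne hd.2)) (m := 2 ^ (j + 1)) (by rw [hc, pow_succ]; ring))
  have e2 := card_orb D p
  rw [e, e1, ← pow_add] at e2
  by_contra! l
  rw [e2, ← pow_add, Nat.pow_lt_pow_iff_right one_lt_two] at l
  obtain rfl : a = j := by omega
  obtain rfl : b = a + 1 := by omega
  have p2 : 2 ≤ 2 ^ a := Nat.le_self_pow hj.ne' 2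
  obtain ⟨q, hq, hq'⟩ := Finset.exists_mem_notMem_of_card_lt_card (s := orb D p) (t := s) (by omega)
  have h1 : D ⊓ MulAction.stabilizer Pm p ⊓ MulAction.stabilizer Pm q = ⊥ := by
    refine (eq_bot_iff_forall _).2 fun d hd => by_contra fun h1 => hq' ?_
    rw [Finset.eq_of_subset_of_card_le (Finset.subset_inter (h.orb_fix hd.1.1 hd.1.2) (orb_sub hs hp))
      (by rw [hk d hd.1.1 h1 (fix_ne hd.2), e])]
    exact Finset.mem_inter.2 ⟨mem_fixS.2 hd.2, hq⟩
  have h2 := card_orb (D ⊓ MulAction.stabilizer Pm p) q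
  rw [h1, card_bot, mul_one, e1] at h2
  have h3 : (orb (D ⊓ MulAction.stabilizer Pm p) q).card ≤ (orb D q).card := Finset.card_le_card fun r hr => by
    obtain ⟨d, hd, k⟩ := mem_orb.1 hr
    exact mem_orb.2 ⟨d, hd.1, k⟩
  have h4 := Finset.card_le_card (orb_sub hs hq)
  have h5 : D ⊓ MulAction.stabilizer Pm q ≠ ⊥ := fun k => by
    have := card_orb D q
    rw [k, card_bot, mul_one, e2, pow_add, pow_succ] at this
    nlinarith
  obtain ⟨⟨d, hd⟩, h6⟩ := ne_bot_iff_exists_ne_one.1 h5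
  have h7 := Finset.card_le_card (Finset.subset_inter (h.orb_fix hd.1 hd.2) (orb_sub hs hq))
  rw [hk d hd.1 (fun k => h6 (Subtype.ext k)) (fix_ne hd.2)] at h7
  rw [pow_succ] at h2
  omega

/-- PROOF. All non-trivial elements fix 8 points: `|D| ∣ 24 + 8 (|D| - 1)`. -/
theorem El.dvd16 (h : El D) (hp : ∀ d ∈ D, (fixS d).card ≠ 0) : Nat.card D ∣ 16 :=
  dvd_sub univ_inv (k := 8) (fun d hd h1 => by rw [Finset.inter_univ]; exact (h.fix hd h1).resolve_left (hp d hd))
    (by rw [Finset.card_univ, card_pt])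

/-- PROOF. `D` is semiregular on 24 points. -/
theorem El.dvd8 (h : El D) (hp : ∀ d ∈ D, d ≠ 1 → (fixS d).card = 0) : Nat.card D ∣ 8 := by
  have := dvd_sub univ_inv (k := 0) (m := 8 * 3) (fun d hd h1 => by rw [Finset.inter_univ]; exact hp d hd h1)
    (by rw [Finset.card_univ, card_pt])
  obtain ⟨n, hn⟩ := h.card
  rw [hn] at this ⊢
  exact (Nat.Coprime.pow_left n (by decide)).dvd_of_dvd_mul_right this

theorem El.stab16 (h : El D) (p : GolayPt) : Nat.card (D ⊓ MulAction.stabilizer Pm p : Subgroup Pm) ≤ 16 :=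
  Nat.le_of_dvd (by decide) ((h.mono inf_le_left).dvd16 fun _ hd => fix_ne hd.2)

/-- PROOF. The stabiliser of a point of `s` has index at most 2. -/
theorem El.le32 (h : El D) {s : Finset GolayPt} (hs : s.card = 2) (hp : ∀ d ∈ D, d • s = s) :
    Nat.card D ≤ 32 := by
  obtain ⟨p, k⟩ := Finset.card_pos.1 (show 0 < s.card by omega)
  rw [card_orb D p]
  exact Nat.mul_le_mul ((Finset.card_le_card (orb_sub hp k)).trans hs.le) (h.stab16 p)

/-- PROOF. `D` has an orbit `Ω` of length at most 8. If `|D| ≥ 128` then `|Ω| = 8`, the point stabiliser `D₁` has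
order 16 and fixes `Ω`, so each non-trivial element of `D₁` fixes exactly `Ω`; `D₁` is regular on the other 16
points and the stabiliser of one of them, of order 8, fixes all 16 (`D` is abelian). -/
theorem El.le64 (h : El D) : Nat.card D ≤ 64 :=
  h.bound univ_inv (j := 3) (by decide) (by rw [Finset.card_univ, card_pt]; rfl) fun d hd h1 h0 => by
    rw [Finset.inter_univ]; exact (h.fix hd h1).resolve_left h0

/-- PROOF. `64 ∣ 24 + 8 a`, so `a ≡ 5 mod 8`; a point stabiliser has index at most 8, so `a ≥ 7`. -/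
theorem El.many (h : El D) (hc : Nat.card D = 64) :
    13 ≤ {d | d ∈ D ∧ d ≠ 1 ∧ (fixS d).card ≠ 0}.ncard := by
  classical
  have h1 := dvd_sum D univ_inv
  have e : {d | d ∈ D ∧ d ≠ 1 ∧ (fixS d).card ≠ 0}.ncard =
      (Finset.univ.filter fun d : D => (d : Pm) ≠ 1 ∧ (fixS (d : Pm)).card ≠ 0).card := by
    rw [← Set.ncard_coe_finset, ← Set.ncard_image_of_injective _ Subtype.val_injective]
    congr 1
    ext d
    exact ⟨fun k => ⟨⟨d, k.1⟩, by simpa using k.2, rfl⟩, by rintro ⟨d, k, rfl⟩; exact ⟨d.2, by simpa using k⟩⟩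
  rw [finsum_eq_sum_of_fintype, Finset.sum_congr rfl (g := fun d : D => (if d = 1 then 24 else 0) +
      8 * if (d : Pm) ≠ 1 ∧ (fixS (d : Pm)).card ≠ 0 then 1 else 0) fun d _ => by
    rw [Finset.inter_univ]
    by_cases k : d = 1
    · rw [if_pos k, if_neg fun l => l.1 (congrArg Subtype.val k), k]
      exact (congrArg Finset.card (Finset.eq_univ_of_forall fun p => mem_fixS.2 rfl)).trans card_pt
    · have k' : (d : Pm) ≠ 1 := fun l => k (Subtype.ext l)
      rcases h.fix d.2 k' with l | l <;> simp [k, k', l], Finset.sum_add_distrib, Finset.sum_ite_eq',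
    if_pos (Finset.mem_univ _), ← Finset.mul_sum, ← Finset.card_filter, ← e, hc] at h1
  obtain ⟨p, -, a, ha, e1⟩ := h.small univ_inv (j := 3) (by rw [Finset.card_univ, card_pt]; decide)
  have h2 := card_orb D p
  have h3 : 2 ^ a ≤ 2 ^ 3 := Nat.pow_le_pow_right (by decide) ha
  have h4 : 8 ≤ Nat.card (D ⊓ MulAction.stabilizer Pm p : Subgroup Pm) := by nlinarith
  have h5 := Set.ncard_le_ncard (s := ((D ⊓ MulAction.stabilizer Pm p : Subgroup Pm) : Set Pm))
    (t := insert 1 {d | d ∈ D ∧ d ≠ 1 ∧ (fixS d).card ≠ 0})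
    (fun d hd => or_iff_not_imp_left.2 fun k => ⟨hd.1, k, fix_ne hd.2⟩) (Set.toFinite _)
  have h6 := Set.ncard_insert_le 1 {d | d ∈ D ∧ d ≠ 1 ∧ (fixS d).card ≠ 0}
  rw [← Nat.card_coe_set_eq, SetLike.coe_sort_coe] at h5
  omega

/-- PROOF. Conjugate to `pm c2A` and run through the code. -/
theorem fix_dodecad {x : Pm} (hx : x ∈ M24) (h2 : orderOf x = 2) (hf : (fixS x).card ≠ 0) {s : Finset GolayPt}
    (hs : s ∈ dodecads) (e : x • s = s ∨ x • s = sᶜ) : x • s = s ∧ (fixS x ∩ s).card = 4 := by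
  have k : K.allLt2 (fun k => !Nat.beq (K.pc24 (cw k)) 12 || (!Nat.beq (img24 c2A (cw k)) (Nat.xor (cw k) 16777215) &&
      (!Nat.beq (img24 c2A (cw k)) (cw k) || Nat.beq (K.pc24 (Nat.land (fixM c2A) (cw k))) 4))) 64 64 = true := by
    decide +kernel
  obtain ⟨c, hc, rfl⟩ := conjTo_2A hx h2 hf
  obtain ⟨s, rfl⟩ : ∃ t, s = c • t := ⟨c⁻¹ • s, (smul_inv_smul c s).symm⟩
  rw [fixS_conj, ← Finset.smul_finset_inter, Finset.card_smul_finset]
  rw [mul_smul, inv_smul_smul, mul_smul, ← smul_finset_compl', smul_left_cancel_iff] at *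
  rw [smul_left_cancel_iff] at e
  rw [smul_mem_dodecads hc] at hs
  obtain ⟨n, hn, rfl⟩ := mem_code_iff.1 hs.1
  have := K.allLt2_iff.1 k n hn
  simp only [Bool.or_eq_true, Bool.and_eq_true, Bool.not_eq_true', ← Bool.not_eq_true, Nat.beq_eq] at this
  rw [← R_2A.setOf_fixM, ← E.setOf_and, card_setOf]
  rw [← R_2A.setOf_img, ← E.setOf_compl, E.setOf_inj (R_2A.img_lt _) (cw_lt hn)] at *
  rw [E.setOf_inj (R_2A.img_lt _) (Nat.xor_lt_two_pow (cw_lt hn) (by norm_num))] at e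
  have h1 := this.resolve_left fun l => l ((card_setOf _).symm.trans hs.2)
  have h3 := e.resolve_right h1.1
  exact ⟨h3, h1.2.resolve_left fun l => l h3⟩

theorem El.fix4 (h : El D) {s : Finset GolayPt} (hs : s ∈ dodecads) {d : Pm} (hd : d ∈ D) (e : d • s = s)
    (h1 : d ≠ 1) (h0 : (fixS d).card ≠ 0) : (fixS d ∩ s).card = 4 :=
  (fix_dodecad (h.le hd) (orderOf_eq_prime ((pow_two d).trans (h.sq d hd)) h1) h0 hs (Or.inl e)).2

/-- PROOF. Suppose `|D| ≥ 32`. `D` has an orbit `Ω ⊆ s` of length at most 4; the point stabiliser `D₁` has order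
`≥ 8` and its non-trivial elements fix 4 points of `s`, so `|D₁| ∣ 12 + 4 (|D₁| - 1)`, `|D₁| = 8`, `|Ω| = 4`,
`|D| = 32`, `D₁` is regular on `s ∖ Ω`. The stabiliser in `D` of a point of `s ∖ Ω` has order 4 and fixes 8 points
of `s`. -/
theorem El.dodecad (h : El D) {s : Finset GolayPt} (hs : s ∈ dodecads) (hp : ∀ d ∈ D, d • s = s) :
    Nat.card D ≤ 16 :=
  h.bound hp (j := 2) (by decide) hs.2 fun d hd => h.fix4 hs hd (hp d hd)

/-- PROOF. An element with fixed points fixes 4 points in each of `s`, `t`, `s ∆ t`, 8 in all, so exactly 2 in the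
hexad `s ∩ t`. Suppose `|D| ≥ 8`. `D` has an orbit of length `≤ 2` on the hexad; the point stabiliser `D₁` has
order `≥ 4` and fixes a second point, so is semiregular on the other four; `D` acts on these four points with a
non-trivial point stabiliser, which fixes all four. -/
theorem El.hexad (h : El D) {s t : Finset GolayPt} (hs : s ∈ dodecads) (ht : t ∈ dodecads)
    (hst : symmDiff s t ∈ dodecads) (hp : ∀ d ∈ D, d • s = s ∧ d • t = t) : Nat.card D ≤ 4 := by
  refine h.bound (s := s ∩ t) (fun d hd => by rw [Finset.smul_finset_inter, (hp d hd).1, (hp d hd).2]) (j := 1)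
    (by decide) ?_ fun d hd h1 h0 => ?_
  · have := card_symmDiff_add s t
    rw [(mem_dodecads.1 hs).2, (mem_dodecads.1 ht).2, (mem_dodecads.1 hst).2] at this
    omega
  · have := card_symmDiff_add (fixS d ∩ s) (fixS d ∩ t)
    rw [← Finset.inter_inter_distrib_left, show symmDiff (fixS d ∩ s) (fixS d ∩ t) = fixS d ∩ symmDiff s t from
        (inf_symmDiff_distrib_left _ _ _).symm,
      h.fix4 hs hd (hp d hd).1 h1 h0, h.fix4 ht hd (hp d hd).2 h1 h0, h.fix4 hst hd
        (by rw [Finset.smul_finset_symmDiff, (hp d hd).1, (hp d hd).2]) h1 h0] at this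
    omega

/-- the span of four masks -/
def Rk.sp (a b c d : ℕ) (u : Fin 4 → ZMod 2) : ℕ :=
  ((u 0).val * a) ^^^ ((u 1).val * b) ^^^ ((u 2).val * c) ^^^ ((u 3).val * d)

theorem Rk.pure {x : Pm} {P : ℕ} (hP : I M24 P) (e : ConjTo (pm P) x) (m : (Fin 4 → ZMod 2) → ℕ)
    (h1 : ∀ u v, m (u + v) = m u ^^^ m v) (h2 : ∀ u, img24 P (m u) = m u ∨ img24 P (m u) = m u ^^^ (2 ^ 24 - 1))
    (h3 : ∀ u, u ≠ 0 → isOct (m u) = true ∨ isOct (m u ^^^ (2 ^ 24 - 1)) = true) :
    ∃ f : (Fin 4 → ZMod 2) → Finset GolayPt,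
    (∀ u v, f (u + v) = symmDiff (f u) (f v)) ∧ (∀ u, x • f u = f u ∨ x • f u = (f u)ᶜ) ∧
      ∀ u, u ≠ 0 → f u ∈ octads ∨ (f u)ᶜ ∈ octads := by
  obtain ⟨c, hc, rfl⟩ := e
  refine ⟨fun u => c • E.setOf (m u), fun u v => by
    beta_reduce; rw [h1, E.setOf_xor, Finset.smul_finset_symmDiff], fun u => ?_,
    fun u hu => ?_⟩
  · rw [mul_smul, inv_smul_smul, mul_smul, ← smul_finset_compl', ← R.setOf_img hP.rep, ← E.setOf_compl]
    exact (h2 u).imp (fun e => by rw [e]) fun e => by rw [e]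
  · rw [← smul_finset_compl', smul_mem_octads hc, smul_mem_octads hc, ← E.setOf_compl]
    exact (h3 u hu).imp setOf_mem_of_isOct setOf_mem_of_isOct

/-- PROOF. For `pm c2A` take the span of the masks `10558, 361272, 2130606, 4231958`, for `pm c2B` that of
`504864, 1256224, 2826278, 4415544`. -/
theorem exists_pure {x : Pm} (hx : x ∈ M24) (h2 : orderOf x = 2) : ∃ f : (Fin 4 → ZMod 2) → Finset GolayPt,
    (∀ u v, f (u + v) = symmDiff (f u) (f v)) ∧ (∀ u, x • f u = f u ∨ x • f u = (f u)ᶜ) ∧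
      ∀ u, u ≠ 0 → f u ∈ octads ∨ (f u)ᶜ ∈ octads :=
  (invol_class hx h2).elim
    (fun e => Rk.pure c2A_in e (sp 10558 361272 2130606 4231958) (by decide +kernel) (by decide +kernel)
      (by decide +kernel))
    fun e => Rk.pure c2B_in e (sp 504864 1256224 2826278 4415544) (by decide +kernel) (by decide +kernel)
      (by decide +kernel)

end CL.VM
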