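/- Weakly closed elementary abelian 2-subgroups: first facts. -/
import Cfsg.Agent.SPOR.VM.WDef

set_option autoImplicit false
set_option linter.unusedSectionVars false

namespace CL.VM
open Subgroup CL.MSS CL.PComp

variable {X : Type*} [Group X] [Finite X] {B S A Θ M : Subgroup X}

theorem WC.comm (h : WC B S) {a b : X} (ha : a ∈ B) (hb : b ∈ B) : a * b = b * a := by
  rw [← inv_eq_of_mul_eq_one_right (h.sq _ (mul_mem ha hb)), mul_inv_rev, inv_eq_of_mul_eq_one_right (h.sq a ha),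
    inv_eq_of_mul_eq_one_right (h.sq b hb)]

theorem WC.pg (h : WC B S) : IsPGroup 2 B := h.syl.pgroup.to_le h.le

theorem WC.le_cent (h : WC B S) (hA : A ≤ B) : B ≤ centralizer (A : Set X) := fun _ hb _ ha => h.comm (hA ha) hb

theorem WC.cj_le_cent (h : WC B S) {g b : X} (hb : b ∈ g •ᶜ B) : g •ᶜ B ≤ centralizer {b} := by
  obtain ⟨b, hb, rfl⟩ := hb
  rintro _ ⟨c, hc, rfl⟩
  exact mem_centralizer_singleton_iff.2 (by rw [← map_mul, ← map_mul, h.comm hc hb])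

/-- a 2-subgroup contains at most one conjugate of `B` -/
theorem WC.uniq (h : WC B S) {g k : X} {P : Subgroup X} (hP : IsPGroup 2 P) (hg : g •ᶜ B ≤ P)
    (hk : k •ᶜ B ≤ P) : g •ᶜ B = k •ᶜ B := by
  have : Fact (Nat.Prime 2) := ⟨Nat.prime_two⟩
  obtain ⟨x, -, hx⟩ := h.syl.exists_conj_le hP le_top
  rw [← cj_inj x, ← cj_mul, ← cj_mul, h.wc _ (cj_mul x g B ▸ (cj_mono x hg).trans hx),
    h.wc _ (cj_mul x k B ▸ (cj_mono x hk).trans hx)]

/-- PROOF. Conjugate `P` into `S`. -/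
theorem WC.le_norm (h : WC B S) {g : X} {P : Subgroup X} (hP : IsPGroup 2 P) (hle : g •ᶜ B ≤ P) :
    P ≤ normalizer ((g •ᶜ B : Subgroup X) : Set X) := by
  refine fun x hx => mem_normalizer_iff_cj.2 ?_
  rw [← cj_mul]
  exact h.uniq hP (cj_mul x g B ▸ cj_le_of_mem hle hx) hle

theorem WC.le_norm' (h : WC B S) {P : Subgroup X} (hP : IsPGroup 2 P) (hle : B ≤ P) :
    P ≤ normalizer (B : Set X) := by
  simpa only [cj_one] using h.le_norm (g := 1) hP ((cj_one B).le.trans hle)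

/-- PROOF. Sylow subgroups `P₁ ≥ g •ᶜ B`, `P₂ ≥ k •ᶜ B` of `Y` are conjugate in `Y`; a 2-subgroup contains at most one
conjugate of `B` (conjugate it into `S`). -/
theorem WC.conj_in (h : WC B S) {g k : X} {Y : Subgroup X} (hg : g •ᶜ B ≤ Y) (hk : k •ᶜ B ≤ Y) :
    ∃ y ∈ Y, y •ᶜ (g •ᶜ B) = k •ᶜ B := by
  have : Fact (Nat.Prime 2) := ⟨Nat.prime_two⟩
  obtain ⟨P, hP, hle⟩ := exists_sylIn_ge (isPGroup_cj k h.pg) hk
  obtain ⟨y, hy, e⟩ := hP.exists_conj_le (isPGroup_cj g h.pg) hg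
  refine ⟨y, hy, ?_⟩
  rw [← cj_mul] at e ⊢
  exact h.uniq hP.pgroup e hle

/-- PROOF. Take a Sylow subgroup of `Y` containing `B`; it normalises `B`. -/
theorem WC.exists_conj_le (h : WC B S) {Y D : Subgroup X} (hB : B ≤ Y) (hD : IsPGroup 2 D) (hDY : D ≤ Y) :
    ∃ y ∈ Y, y •ᶜ D ≤ normalizer (B : Set X) := by
  have : Fact (Nat.Prime 2) := ⟨Nat.prime_two⟩
  obtain ⟨P, hP, hle⟩ := exists_sylIn_ge h.pg hB
  obtain ⟨y, hy, e⟩ := hP.exists_conj_le hD hDY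
  exact ⟨y, hy, e.trans (h.le_norm' hP.pgroup hle)⟩

/-- PROOF. `S ≤ N(B)` is Sylow in `N(B)`: conjugate `P` into `S` by an element of `N(B)`. -/
theorem WC.le_of_cent (h : WC B S) {P : Subgroup X} (hP : IsPGroup 2 P) (hc : P ≤ centralizer (B : Set X)) :
    P ≤ B := by
  have : Fact (Nat.Prime 2) := ⟨Nat.prime_two⟩
  obtain ⟨n, hn, e⟩ := (h.syl.of_le (h.le_norm' h.syl.pgroup h.le) le_top).exists_conj_le hP
    (hc.trans (centralizer_le_normalizer _))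
  rw [← cj_le_cj_iff n, cj_eq_of_mem_normalizer hn]
  exact (le_inf e (cj_le_of_mem_normalizer hc (normalizer_le_normalizer_centralizer B hn))).trans h.cen

/-- `C(B) = B × O(C(B))` -/
theorem WC.odd_mem (h : WC B S) {n : X} (hn : n ∈ centralizer (B : Set X)) (ho : (orderOf n).Coprime 2) :
    n ∈ opOf 2 (centralizer (B : Set X)) := by
  have : Fact (Nat.Prime 2) := ⟨Nat.prime_two⟩
  have hs : SylIn 2 B (centralizer (B : Set X)) :=
    ⟨h.le_cent le_rfl, h.pg, fun Q hQ h1 h2 => le_antisymm (h.le_of_cent hQ h2) h1⟩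
  have hP : normalizer (hs.toSylow : Set (centralizer (B : Set X))) ≤
      centralizer (hs.toSylow : Set (centralizer (B : Set X))) := fun x _ b hb => Subtype.ext (x.2 b hb)
  refine (mem_opOf ⟨n, hn⟩).2 (le_pPrimeCore (coprime_card_iff_not_dvd.2
    (MonoidHom.not_dvd_card_ker_transferSylow hs.toSylow hP)) ?_)
  obtain ⟨k, hk⟩ := hs.toSylow.isPGroup' (MonoidHom.transferSylow hs.toSylow hP ⟨n, hn⟩)
  exact eq_one_of_coprime_of_pow (Nat.Coprime.coprime_dvd_left ((orderOf_map_dvd _ _).trans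
    (orderOf_mk n hn).dvd) ho) hk

/-- Burnside's fusion lemma. PROOF. `B` and `y •ᶜ B` lie in `Y ⊓ C(y b y⁻¹)`; use `conj_in`. -/
theorem WC.fusion (h : WC B S) {Y : Subgroup X} (hB : B ≤ Y) {y b : X} (hy : y ∈ Y) (hb : b ∈ B)
    (hb' : y * b * y⁻¹ ∈ B) : ∃ n ∈ normalizer (B : Set X) ⊓ Y, n * b * n⁻¹ = y * b * y⁻¹ := by
  obtain ⟨x, hx, e⟩ := h.conj_in (g := y) (k := 1) (Y := Y ⊓ centralizer {y * b * y⁻¹})
    (le_inf (cj_le_of_mem hB hy) (h.cj_le_cent (conj_mem_cj hb)))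
    (le_inf ((cj_one B).le.trans hB) (h.cj_le_cent ((cj_one B).ge hb')))
  rw [← cj_mul, cj_one] at e
  refine ⟨x * y, ⟨mem_normalizer_iff_cj.2 e, mul_mem hx.1 hy⟩, ?_⟩
  calc _ = x * (y * b * y⁻¹) * x⁻¹ := by group
    _ = _ := by rw [mem_centralizer_singleton_iff.1 hx.2, mul_inv_cancel_right]

theorem Gd.cj (h : Gd B A) {n : X} (hn : n ∈ normalizer (B : Set X)) : Gd B (n •ᶜ A) := by
  have := cj_mono n h
  rwa [cj_sup, cj_inf, cj_eq_of_mem (Q := normalizer _) hn, ← opOf_map_of_injective 2 _ (MulAut.conj n).injective,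
    cj_centralizer] at this

/-- PROOF. With `Θ = O(C(A))`: `B Θ ⊴ C(A)`, so `B Θ ⊓ C(A₁) = B (Θ ⊓ C(A₁)) ⊴ C(A₁)`. For `x ∈ C(A₁)` the Sylow
subgroups `B` and `x •ᶜ B` of `B (Θ ⊓ C(A₁))` are conjugate by an element of `Θ ⊓ C(A₁) ≤ O(C(A₁))`. -/
theorem WC.up (h : WC B S) {A₁ : Subgroup X} (h1 : A ≤ A₁) (h2 : A₁ ≤ B) (g : Gd B A) : Gd B A₁ := by
  intro x hx
  have c1 : centralizer (A₁ : Set X) ≤ centralizer (A : Set X) := centralizer_le h1
  have n1 := le_normalizer_opOf 2 (centralizer (A : Set X))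
  have b1 := h.le_cent h2
  obtain ⟨t, ht, n, hn, e⟩ := (mem_sup_of_normalizes_left (inf_le_right.trans n1)).1 (g (c1 hx))
  have e1 : x •ᶜ B ≤ centralizer (A₁ : Set X) ⊓ (B ⊔ opOf 2 (centralizer (A : Set X))) := by
    refine le_inf (cj_le_of_mem b1 hx) ?_
    rw [← e, cj_mul, cj_eq_of_mem_normalizer hn.1]
    exact cj_le_of_mem le_sup_left (mem_sup_right ht)
  rw [inf_sup_of_normalizes b1 ((b1.trans c1).trans n1)] at e1
  obtain ⟨y, hy, e2⟩ := h.conj_in (k := 1) e1 ((cj_one B).le.trans le_sup_left)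
  rw [← cj_mul, cj_one] at e2
  have hy' : y ∈ opOf 2 (centralizer (A₁ : Set X)) ⊔ (normalizer (B : Set X) ⊓ centralizer (A₁ : Set X)) :=
    sup_le (le_sup_of_le_right (le_inf le_normalizer b1)) (le_sup_of_le_left ((inf_comm _ _).le.trans
      (inf_le_opOf (c1.trans n1) (opOf_coprime _ _)))) hy
  exact (mul_mem_cancel_left hy').1 (mem_sup_right ⟨mem_normalizer_iff_cj.2 e2,
    mul_mem (sup_le b1 inf_le_left hy) hx⟩)

/-- PROOF. `Θ = O(C(A))`, `B Θ ⊴ C(A)`. `[F, B] ≤ B Θ ⊓ F Θ = Θ`. Let `L = {x ∈ C(A) | [x, B] ≤ Θ} ⊴ C(A)`. A Sylow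
subgroup `P ≥ B` of `L` has `[P, B] ≤ P ⊓ Θ = 1`, so `P = B` (`le_of_cent`). In `L / Θ` the Sylow subgroup is
central, so `L / Θ` has a normal 2-complement (Burnside); it is characteristic, its preimage is a normal subgroup
of `C(A)` of odd order, so is `Θ`; it contains `F`. -/
theorem WC.le_core (h : WC B S) (hA : A ≤ B) (g : Gd B A) {F : Subgroup X} (hF : F ≤ centralizer (A : Set X))
    (odd : (Nat.card F).Coprime 2) (hn : B ≤ normalizer (F : Set X)) : F ≤ opOf 2 (centralizer (A : Set X)) := by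
  have n1 := le_normalizer_opOf 2 (centralizer (A : Set X))
  have c1 : centralizer (B : Set X) ≤ centralizer (A : Set X) := centralizer_le hA
  have b1 := h.le_cent hA
  have o1 := opOf_coprime 2 (centralizer (A : Set X))
  have l1 := opOf_le 2 (centralizer (A : Set X))
  have k1 : opOf 2 (centralizer (B : Set X)) ≤ opOf 2 (centralizer (A : Set X)) := by
    have l2 := (opOf_le 2 (centralizer (B : Set X))).trans c1
    refine le_sup_left.trans (le_opOf (sup_le l2 l1) (g.trans (sup_le (le_sup_right.trans le_normalizer)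
      (le_normalizer_sup (inf_le_left.trans ((normalizer_le_normalizer_centralizer B).trans
        (normalizer_le_normalizer_opOf 2 _))) (inf_le_right.trans n1))))
      (coprime_card_sup (l2.trans n1) (opOf_coprime _ _) o1))
  intro f hf
  obtain ⟨t, ht, n, hn', e⟩ := (mem_sup_of_normalizes_left (inf_le_right.trans n1)).1 (g (hF hf))
  have o2 := coprime_card_sup (hF.trans n1) odd o1
  have m : n ∈ F ⊔ opOf 2 (centralizer (A : Set X)) :=
    (mul_mem_cancel_left (mem_sup_right ht)).1 (e ▸ mem_sup_left hf)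
  refine e ▸ mul_mem ht (k1 (h.odd_mem (fun b hb => ?_) (coprime_orderOf_of_mem o2 m)))
  have : b * n * b⁻¹ * n⁻¹ ∈ B ⊓ (F ⊔ opOf 2 (centralizer (A : Set X))) := ⟨by
    rw [mul_assoc, mul_assoc, ← mul_assoc n]
    exact mul_mem hb ((mem_normalizer_iff.1 hn'.1 _).1 (inv_mem hb)),
    mul_mem (conj_mem_of_normalizes (le_normalizer_sup hn (b1.trans n1)) hb m) (Subgroup.inv_mem _ m)⟩
  rwa [inf_eq_bot_of_isPGroup_of_coprime h.pg o2, mem_bot, mul_inv_eq_one, mul_inv_eq_iff_eq_mul] at this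

omit [Finite X] in
theorem Mx.le_cent (k : Mx B A Θ M) : M ≤ centralizer (A : Set X) := k.eq.le.trans (sup_le k.le inf_le_right)

omit [Finite X] in
theorem Mx.N_le (k : Mx B A Θ M) : normalizer (B : Set X) ⊓ centralizer (A : Set X) ≤ M :=
  le_sup_right.trans k.eq.ge

omit [Finite X] in
theorem Mx.Θ_le (k : Mx B A Θ M) : Θ ≤ M := le_sup_left.trans k.eq.ge

theorem Mx.B_le (k : Mx B A Θ M) (h : WC B S) : B ≤ M := (le_inf le_normalizer (h.le_cent k.AB)).trans k.N_le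

/-- PROOF. `b = y b₁ y⁻¹ = m b₂ m⁻¹`. `y •ᶜ B` and `m •ᶜ B` lie in `C(A) ⊓ C(b) = m •ᶜ (C(A) ⊓ C(b₂)) ≤ M`; by
`conj_in` some `c ∈ M` has `c y ∈ m (N(B) ⊓ C(A))`. -/
theorem Mx.mem (k : Mx B A Θ M) (h : WC B S) {y m b : X} (hy : y ∈ centralizer (A : Set X)) (hm : m ∈ M)
    (h1 : b ∈ y •ᶜ B) (h2 : b ∈ m •ᶜ B) (hb : b ∉ A) : y ∈ M := by
  have b1 := h.le_cent k.AB
  have hc : centralizer (A : Set X) ⊓ centralizer {b} ≤ M := by
    have := cj_mono m (k.cen _ (mem_cj.1 h2) fun e => hb (by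
      rw [← cj_eq_of_mem_centralizer (k.le_cent hm)]; exact mem_cj.2 e))
    rwa [cj_inf, cj_eq_of_mem (k.le_cent hm), cj_eq_of_mem hm, cj_centralizer_singleton,
      show m * (m⁻¹ * b * m) * m⁻¹ = b by group] at this
  obtain ⟨c, hc', e⟩ := h.conj_in (le_inf (cj_le_of_mem b1 hy) (h.cj_le_cent h1))
    (le_inf (cj_le_of_mem b1 (k.le_cent hm)) (h.cj_le_cent h2))
  have : m⁻¹ * (c * y) ∈ M := k.N_le ⟨mem_normalizer_iff_cj.2 (by rw [cj_mul, cj_mul, e, inv_cj_cj]),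
    mul_mem (Subgroup.inv_mem _ (k.le_cent hm)) (mul_mem hc'.1 hy)⟩
  exact (mul_mem_cancel_left (hc hc')).1 ((mul_mem_cancel_left (inv_mem hm)).1 this)

/-- PROOF. `M = Θ N`, and both factors normalise `B Θ`. -/
theorem Mx.norm_sup (k : Mx B A Θ M) : M ≤ normalizer ((B ⊔ Θ : Subgroup X) : Set X) := by
  exact k.eq.le.trans (sup_le (le_sup_right.trans le_normalizer)
    (le_normalizer_sup inf_le_left (k.N_le.trans k.norm)))

/-- PROOF. `B` is a Sylow subgroup of `B Θ`. -/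
theorem Mx.exists_cj (k : Mx B A Θ M) (h : WC B S) {u : X} (hu : u ∈ B ⊔ Θ) {n : ℕ} (h2 : u ^ 2 ^ n = 1) :
    ∃ t ∈ Θ, u ∈ t •ᶜ B := by
  have : Fact (Nat.Prime 2) := ⟨Nat.prime_two⟩
  have n1 : B ≤ normalizer (Θ : Set X) := (k.B_le h).trans k.norm
  have hs : SylIn 2 B (B ⊔ Θ) := ⟨le_sup_left, h.pg, fun Q hQ h1 h2 => by
    rw [← inf_of_le_left h2, inf_sup_of_normalizes h1 n1, inf_eq_bot_of_isPGroup_of_coprime hQ k.odd, sup_bot_eq]⟩
  obtain ⟨x, hx, e⟩ := hs.exists_le_conj (isPGroup_zpowers h2) (zpowers_le.2 hu)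
  rw [sup_comm] at hx
  obtain ⟨t, ht, b, hb, rfl⟩ := (mem_sup_of_normalizes_left n1).1 hx
  rw [cj_mul, cj_eq_of_mem hb] at e
  exact ⟨t, ht, e (mem_zpowers u)⟩

end CL.VM
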