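/- `V` is weakly closed. -/
import Cfsg.Agent.SPOR.VM.Base
import Cfsg.Agent.SPOR.VM.Rk
import Cfsg.Agent.SPOR.VM.W0
import Cfsg.Agent.SPOR.VM.UqChk
import Cfsg.Agent.TECH.MiscSyl

set_option autoImplicit false

namespace CL.VM
open Subgroup Cfsg Cfsg.Spor CL.Golay CL.MSS CL.PComp
open CL.MAut (Pm)
open scoped Pointwise symmDiff

variable {G : Type*} [Group G] {Dm Kr : Set (Finset GolayPt)} {V : Subgroup G} {θ : Finset GolayPt → G}
  {π : G → Pm}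

theorem Uq.comm {A : Subgroup G} (h2 : ∀ a ∈ A, a * a = 1) {a b : G} (ha : a ∈ A) (hb : b ∈ A) : a * b = b * a := by
  rw [← inv_eq_of_mul_eq_one_right (h2 _ (mul_mem ha hb)), mul_inv_rev, inv_eq_of_mul_eq_one_right (h2 a ha),
    inv_eq_of_mul_eq_one_right (h2 b hb)]

theorem Uq.idx {U F : Subgroup G} [Finite F] (h : U ≤ F) (hc : Nat.card F ≤ 2 * Nat.card U) {v w : G} (hv : v ∈ F)
    (hw : w ∈ F) (v1 : v ∉ U) (w1 : w ∉ U) : v * w ∈ U := by
  have h1 := (U.subgroupOf F).index_mul_card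
  rw [Nat.card_congr (subgroupOfEquivOfLe h).toEquiv] at h1
  have h0 : 0 < Nat.card F := Nat.card_pos
  have h3 : (U.subgroupOf F).index ≠ 1 := fun e => v1 ((index_eq_one.1 e).ge (mem_top (⟨v, hv⟩ : F)))
  have h4 : (U.subgroupOf F).index = 2 := by
    generalize (U.subgroupOf F).index = n at *
    rcases n with _ | _ | _ | n
    · omega
    · omega
    · rfl
    · nlinarith
  exact (mul_mem_iff_of_index_two h4 (a := ⟨v, hv⟩) (b := ⟨w, hw⟩)).2 (iff_of_false v1 w1)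

namespace VD
variable (h : VD Dm Kr V θ π)
include h

theorem fin_V : Finite V := Nat.finite_of_card_ne_zero (by rw [h.card_V]; norm_num)

theorem el_im {A : Subgroup G} (h2 : ∀ a ∈ A, a * a = 1) : El (h.im A) := ⟨h.im_le A, fun g hg => by
  obtain ⟨a, ha, k, rfl⟩ := h.mem_im.1 hg
  rw [← h.π_mul a k a k, h2 a ha, h.π_one']⟩

theorem noA {A : Subgroup G} (hA : A ≤ normalizer (V : Set G)) (h2 : ∀ a ∈ A, a * a = 1)
    (hc : 128 ≤ Nat.card (A ⊓ V : Subgroup G)) {a : G} (ha : a ∈ A) (e : π a = pm c2A) :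
    Nat.card A ≤ 1024 := by
  have := h.fin_V
  have : Finite (V ⊓ centralizer {a} : Subgroup G) := Finite.Set.subset (V : Set G) fun _ k => k.1
  have h1 := h.card_fix (hA ha) (e ▸ orderOf_2A)
  rw [e, card_fixS_2A, if_neg (by decide)] at h1
  have h3 : A ⊓ V = V ⊓ centralizer {a} := eq_of_le_of_card_ge
    (fun v hv => ⟨hv.2, mem_centralizer_singleton_iff.2 (Uq.comm h2 hv.1 ha)⟩) (h1.trans_le hc)
  have h4 : ∀ s ∈ Dm, pm c2A • s = s → ∀ g ∈ h.im A, (g • s) ∆ s ∈ Kr := fun s hs k g hg => by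
    obtain ⟨b, hb, l, rfl⟩ := h.mem_im.1 hg
    refine (h.comm_θ_iff l hs).1 (Uq.comm h2 hb (h3.ge ⟨h.θ_mem hs, mem_centralizer_singleton_iff.2 ?_⟩).1)
    rw [eq_comm, ← mul_inv_eq_iff_eq_mul, h.conj a (hA ha) s hs, e, k]
  have h5 : ∃ L : List ℕ, {g | g ∈ M24 ∧ ∀ X ∈ L, g • E.setOf X = E.setOf X}.ncard ≤ 2 ∧
      ∀ g ∈ h.im A, ∀ X ∈ L, g • E.setOf X = E.setOf X := by
    rcases h.ty with ⟨rfl, rfl⟩ | ⟨rfl, rfl⟩
    · obtain ⟨k1, k2⟩ := Uq.chkA_spec Uq.chkA_T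
      exact ⟨_, k2, fun g hg X hX => eq_of_Syn_eq (Syn_eq_iff.2 (h4 _ (J4.even_of_two (k1 X hX).1) (k1 X hX).2 g hg))
        (by rw [Finset.card_smul_finset, (k1 X hX).1]; decide)⟩
    · obtain ⟨k1, k2⟩ := Uq.chkA_spec Uq.chkA_C
      refine ⟨_, k2, fun g hg X hX => symmDiff_eq_bot.1
        ((h4 _ (Uq.ocA_mem X hX) (k1 X hX).2 g hg).resolve_right fun l => ?_)⟩
      have := card_symmDiff_le (g • E.setOf X) (E.setOf X)
      rw [l, Finset.card_univ, card_pt, Finset.card_smul_finset, (k1 X hX).1] at this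
      omega
  obtain ⟨L, k1, k2⟩ := h5
  have h6 : (h.im A : Set Pm).ncard ≤ 2 :=
    le_trans (Set.ncard_le_ncard (fun g hg => by exact ⟨h.im_le A hg, k2 g hg⟩) (Set.toFinite _)) k1
  rw [← Nat.card_coe_set_eq, SetLike.coe_sort_coe] at h6
  rw [h.card_im hA, h3, h1]
  omega

theorem noB {A : Subgroup G} (hA : A ≤ normalizer (V : Set G)) (h2 : ∀ a ∈ A, a * a = 1)
    (hc : 32 ≤ Nat.card (A ⊓ V : Subgroup G)) {a : G} (ha : a ∈ A) (e : π a = pm c2B) :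
    Nat.card A ≤ 1024 := by
  have := h.fin_V
  have : Finite (V ⊓ centralizer {a} : Subgroup G) := Finite.Set.subset (V : Set G) fun _ k => k.1
  have h1 := h.card_fix (hA ha) (e ▸ orderOf_2B)
  rw [e, card_fixS_2B, if_pos rfl] at h1
  have cu : ∀ b ∈ A, A ⊓ V ≤ centralizer {b} := fun b hb v hv =>
    mem_centralizer_singleton_iff.2 (Uq.comm h2 hv.1 hb)
  have h3 : A ⊓ V ≤ V ⊓ centralizer {a} := le_inf inf_le_right (cu a ha)
  have ix := @Uq.idx _ _ _ _ _ h3 (by omega)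
  obtain ⟨rep, key, k, hk⟩ := h.exists_cd
  obtain ⟨F, L, c⟩ : ∃ F L, Uq.chkB rep key F L = true := by
    rcases hk with ⟨rfl, rfl⟩ | ⟨rfl, rfl⟩
    exacts [⟨_, _, Uq.chkB_T⟩, ⟨_, _, Uq.chkB_C⟩]
  obtain ⟨c1, c2⟩ := Uq.chkB_spec c
  have lt : ∀ j, K.fld 11 2047 F j < 2048 := fun j => Nat.lt_succ_of_le (K.fld_le _ _ _ _)
  have z : ∀ b ∈ A, ∀ P, R (π b) P → ∀ j, Uq.df rep key F P j = 0 ↔
      θ (E.setOf (rep (K.fld 11 2047 F j))) ∈ centralizer {b} := fun b hb P hP j => by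
    rw [Uq.df_eq, Nat.xor_eq_zero_iff, h.ψ_comm k (hA hb) hP (lt j)]
  have m : ∀ j < 64, θ (E.setOf (rep (K.fld 11 2047 F j))) ∈ V ⊓ centralizer {a} := fun j hj =>
    ⟨h.ψ_mem k (lt j), (z a ha _ (e ▸ R_2B) j).1 (c1 j hj)⟩
  obtain ⟨b, hb, w⟩ : ∃ b ∈ A, ∀ d ∈ A, V ⊓ centralizer {a} ⊓ centralizer {b} ≤ centralizer {d} := by
    by_cases l : ∀ d ∈ A, V ⊓ centralizer {a} ≤ centralizer {d}
    · exact ⟨a, ha, fun d hd => inf_le_left.trans (l d hd)⟩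
    push Not at l
    obtain ⟨b, hb, l⟩ := l
    refine ⟨b, hb, fun d hd v hv => cu d hd (by_contra fun v1 => l fun u hu => ?_)⟩
    by_cases u1 : u ∈ A ⊓ V
    · exact cu b hb u1
    · exact ((centralizer {b}).mul_mem_cancel_left hv.2).1 (cu b hb (ix hv.1 hu v1 u1))
  have h6 := c2 (h.im A : Set Pm) (fun y hy => ?_) (π b) (h.mem_im.2 ⟨b, hb, hA hb, rfl⟩) fun y hy P Q hP hQ j hj l => ?_
  · rw [← Nat.card_coe_set_eq, SetLike.coe_sort_coe] at h6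
    have h7 := card_le_of_le h3
    rw [h.card_im hA]
    nlinarith
  · refine ⟨mem_Cent.2 ⟨h.im_le A hy, (h.el_im h2).comm hy (h.mem_im.2 ⟨a, ha, hA ha, e⟩)⟩, (h.el_im h2).sq y hy,
      fun P hP i hi j hj => ?_⟩
    obtain ⟨d, hd, l, rfl⟩ := h.mem_im.1 hy
    rw [z d hd P hP, z d hd P hP, or_iff_not_imp_left, or_iff_not_imp_left]
    intro i1 j1
    have := mem_centralizer_singleton_iff.1 (cu d hd (ix (m i hi) (m j hj) (fun l => i1 (cu d hd l))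
      fun l => j1 (cu d hd l)))
    have x2 : ∀ c, av rep key P c < 2048 := fun _ => k.key_lt _
    have x1 : ∀ {a b : ℕ}, a < 2048 → b < 2048 → a ^^^ b < 2048 := Nat.xor_lt_two_pow (n := 11)
    rw [eq_comm, ← mul_inv_eq_iff_eq_mul, ← conj_mul, h.ψ_conj k l hP (lt i), h.ψ_conj k l hP (lt j),
      ← h.ψ_xor k (x2 _) (x2 _), ← h.ψ_xor k (lt _) (lt _), h.ψ_inj k (x1 (x2 _) (x2 _)) (x1 (lt _) (lt _))] at this
    rw [Uq.df_eq, Uq.df_eq, ← Nat.xor_eq_zero_iff, ← Nat.xor_eq_zero_iff.2 this]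
    ac_rfl
  · obtain ⟨d, hd, -, rfl⟩ := h.mem_im.1 hy
    exact (z d hd Q hQ j).2 (w d hd ⟨m j hj, (z b hb P hP j).1 l⟩)

theorem wlog {x : Pm} {n : ℕ} (k : ∀ {A : Subgroup G}, A ≤ normalizer (V : Set G) → (∀ a ∈ A, a * a = 1) →
    n ≤ Nat.card (A ⊓ V : Subgroup G) → ∀ {a : G}, a ∈ A → π a = x → Nat.card A ≤ 1024)
    {A : Subgroup G} (hA : A ≤ normalizer (V : Set G)) (h2 : ∀ a ∈ A, a * a = 1)
    (hc : n ≤ Nat.card (A ⊓ V : Subgroup G)) {a : G} (ha : a ∈ A) (e : ConjTo x (π a)) : Nat.card A ≤ 1024 := by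
  obtain ⟨c, c1, e⟩ := e.symm
  obtain ⟨c, c2, rfl⟩ := h.π_surj c c1
  rw [← card_cj c]
  refine k (cj_le_of_mem hA c2) ?_ ?_ (conj_mem_cj ha) (by rw [h.π_conj c2 (hA ha), e])
  · rintro _ ⟨b, hb, rfl⟩
    rw [← map_mul, h2 b hb, map_one]
  · rwa [← cj_eq_of_mem_normalizer c2, ← cj_inf, card_cj]

/-- PROOF. `D = h.im A` is elementary of order `2 ^ k ≤ 64`, `A ⊓ V ≤ U = C_V(D)`; show `|U| |D| ≤ 2 ^ 10` if
`D ≠ 1`. If `D` has no fixed-point-free element then `|D| ≤ 16` and `|U| ≥ 128`. -/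
theorem uniq {A : Subgroup G} (hA : A ≤ normalizer (V : Set G)) (h2 : ∀ a ∈ A, a * a = 1)
    (hc : 2 ^ 11 ≤ Nat.card A) : A = V := by
  have := h.fin_V
  refine eq_of_le_of_card_ge (fun a ha => by_contra fun a1 => ?_) (h.card_V.trans_le hc)
  have el := h.el_im h2
  have h1 := h.card_im hA
  have o : ∀ b ∈ A, π b ≠ 1 → orderOf (π b) = 2 := fun b hb =>
    orderOf_eq_prime ((pow_two _).trans (el.sq _ (h.mem_im.2 ⟨b, hb, hA hb, rfl⟩)))
  suffices Nat.card A ≤ 1024 by omega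
  by_cases l : ∀ d ∈ h.im A, (fixS d).card ≠ 0
  · have := Nat.le_of_dvd (by decide) (el.dvd16 l)
    exact h.wlog h.noA hA h2 (by nlinarith) ha (conjTo_2A (h.π_mem a (hA ha))
      (o a ha fun e => a1 ((h.π_one a (hA ha)).1 e)) (l _ (h.mem_im.2 ⟨a, ha, hA ha, rfl⟩)))
  · push Not at l
    obtain ⟨d, hd, l⟩ := l
    obtain ⟨b, hb, -, rfl⟩ := h.mem_im.1 hd
    have := el.le64
    exact h.wlog h.noB hA h2 (by nlinarith) hb (conjTo_2B (h.π_mem b (hA hb))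
      (o b hb fun e => Rk.fix_ne (p := none) (by rw [e]; rfl) l) l)

variable [Finite G]

/-- PROOF. A Sylow subgroup `S` of `N(V)` contains `V`; `N(S) ≤ N(V)` by `uniq`, so `S` is Sylow in `G`. -/
theorem wc {S : Subgroup G} (hS : SylIn 2 S (normalizer (V : Set G))) : WC V S := by
  have : Fact (Nat.Prime 2) := ⟨Nat.prime_two⟩
  have h1 : V ≤ S := hS.le_of_normalized (fun v => ⟨1, Subtype.ext ((pow_two _).trans (h.sq_V v.2))⟩)
    le_normalizer hS.le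
  have h2 : ∀ g : G, g •ᶜ V ≤ S → g •ᶜ V = V := fun g hg => h.uniq (hg.trans hS.le)
    (fun _ ha => (h.cj g).sq_V ha) (by rw [card_cj, h.card_V])
  exact ⟨hS.of_normalizer_le le_top fun g hg => mem_normalizer_iff_cj.2 (h2 g (cj_le_of_mem_normalizer h1 hg.2)),
    h1, fun _ => h.sq_V, h2, inf_le_right.trans h.cent⟩

theorem card_syl {S : Subgroup G} (hS : SylIn 2 S ⊤) : Nat.card S = 2 ^ 21 := by
  have : Fact (Nat.Prime 2) := ⟨Nat.prime_two⟩
  obtain ⟨T, hT⟩ := exists_sylIn 2 (normalizer (V : Set G))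
  rw [hS.card_eq (h.wc hT).syl, hT.card_eq_pow_factorization, h.card_N,
    show 2 ^ 11 * 244823040 = 2 ^ 21 * 239085 by norm_num, Nat.factorization_mul (by norm_num) (by norm_num),
    Finsupp.add_apply, Nat.Prime.factorization_pow Nat.prime_two, Finsupp.single_eq_same,
    Nat.factorization_eq_zero_of_not_dvd (by norm_num)]

/-- a subgroup of `N(V)` of order divisible by `2 ^ 21` contains a Sylow subgroup of `G` -/
theorem wc_of {H S : Subgroup G} (hH : H ≤ normalizer (V : Set G)) (hc : 2 ^ 21 ∣ Nat.card H)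
    (hS : SylIn 2 S H) : WC V S := by
  have : Fact (Nat.Prime 2) := ⟨Nat.prime_two⟩
  obtain ⟨T, hT⟩ := exists_sylIn 2 (normalizer (V : Set G))
  refine h.wc (hT.of_card_le hS.pgroup (hS.le.trans hH) ?_)
  rw [h.card_syl (h.wc hT).syl, hS.card_eq_pow_factorization]
  exact Nat.pow_le_pow_right (by decide) ((Nat.prime_two.pow_dvd_iff_le_factorization Nat.card_pos.ne').1 hc)

/-- Frattini. PROOF. `WC.conj_in`. -/
theorem frattini {Y : Subgroup G} (hY : V ≤ Y) {g : G} (hg : g ∈ normalizer (Y : Set G)) :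
    ∃ y ∈ Y, y⁻¹ * g ∈ normalizer (V : Set G) := by
  obtain ⟨T, hT⟩ := exists_sylIn 2 (normalizer (V : Set G))
  obtain ⟨y, hy, e⟩ := (h.wc hT).conj_in (g := g) (k := 1) (cj_le_of_mem_normalizer hY hg) ((cj_one V).le.trans hY)
  exact ⟨y⁻¹, inv_mem hy, mem_normalizer_iff_cj.2 (by rw [inv_inv, cj_mul, e, cj_one])⟩

/-- PROOF. `V` is a Sylow subgroup of `Y` (`WC.le_norm`) in the centre of its normaliser: Burnside. -/
theorem burnside {Y : Subgroup G} (hY : V ≤ Y) (hn : Y ⊓ normalizer (V : Set G) ≤ V) : Y = opOf 2 Y ⊔ V := by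
  have : Fact (Nat.Prime 2) := ⟨Nat.prime_two⟩
  obtain ⟨T, hT⟩ := exists_sylIn 2 (normalizer (V : Set G))
  have w := h.wc hT
  have hs : SylIn 2 V Y := ⟨hY, w.pg, fun Q hQ h1 h2 => le_antisymm ((le_inf h2 (w.le_norm' hQ h1)).trans hn) h1⟩
  have hP : normalizer (hs.toSylow : Set Y) ≤ centralizer (hs.toSylow : Set Y) := fun x hx b hb =>
    Subtype.ext (h.comm_V hb (hn ⟨x.2, mem_normalizer_fintype fun v hv => (hx ⟨v, hY hv⟩).1 hv⟩))
  have := congrArg (Subgroup.map Y.subtype) (Misc.burnside_pPrimeCore hs.toSylow hP).sup_eq_top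
  rwa [Subgroup.map_sup, hs.map_toSylow, ← MonoidHom.range_eq_map, range_subtype, eq_comm] at this

end VD
end CL.VM
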