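/- Reduction to a simple group. -/
import Cfsg.Agent.SPOR.VM.Uniq
import Cfsg.Agent.FGS.HHLenQ
import Cfsg.Agent.S0365

set_option autoImplicit false

namespace CL.VM
open Subgroup Cfsg Cfsg.Spor CL.Golay CL.MSS CL.PComp
open CL.MAut (Pm)
open scoped Pointwise symmDiff

variable {G : Type*} [Group G] [Finite G] {Dm Kr : Set (Finset GolayPt)} {V : Subgroup G}
  {θ : Finset GolayPt → G} {π : G → Pm}

/-- PROOF. `N(V) ⊓ C(z)` has order divisible by `2 ^ 21`, so contains a Sylow subgroup `T` of `N(V)`; `z ∈ V ≤ T`. -/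
theorem VD.core (h : VD Dm Kr V θ π) {z : G} (hz : z ∈ V) (z1 : z ≠ 1)
    (hc : 2 ^ 21 ∣ Nat.card (normalizer (V : Set G) ⊓ centralizer {z} : Subgroup G))
    (hO : ∀ T : Sylow 2 (normalizer (V : Set G)), ∀ s : normalizer (V : Set G),
      s ∈ (T : Subgroup (normalizer (V : Set G))) → orderOf s = 2 →
      (∀ y ∈ (T : Subgroup (normalizer (V : Set G))), y * s = s * y) →
        pPrimeCore 2 (centralizer ({(s : G)} : Set G)) = ⊥) : opOf 2 (centralizer {z}) = ⊥ := by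
  obtain ⟨S, hS⟩ := exists_sylIn 2 (normalizer (V : Set G) ⊓ centralizer {z} : Subgroup G)
  have w := h.wc_of inf_le_left hc hS
  have k := w.syl.of_le (hS.le.trans inf_le_left) le_top
  have := hO k.toSylow ⟨z, le_normalizer hz⟩ (w.le hz)
    (orderOf_eq_prime (Subtype.ext ((pow_two z).trans (h.sq_V hz))) fun e => z1 (congrArg Subtype.val e))
    fun y hy => Subtype.ext (mem_centralizer_singleton_iff.1 (hS.le hy).2)
  rw [opOf_def, this, Subgroup.map_bot]

theorem VD.dvdT (h : VT V θ π) :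
    2 ^ 21 ∣ Nat.card (normalizer (V : Set G) ⊓ centralizer {θ (E.setOf T4)} : Subgroup G) := by
  rw [h.centT, h.card_pre inf_le_left, card_stab_sextet (sex_mem isTet_T4)]
  decide
theorem VD.dvdC (h : VC V θ π) :
    2 ^ 21 ∣ Nat.card (normalizer (V : Set G) ⊓ centralizer {θ (E.setOf O0)} : Subgroup G) := by
  rw [h.centC O0_mem, h.card_pre inf_le_left, card_stab_octad O0_mem]
  decide
theorem VD.neT (h : VT V θ π) : θ (E.setOf T4) ≠ 1 := by
  intro e
  have := card_of_mem_code ((h.θ_one _ (show Even _ by rw [card_T4]; decide)).1 e)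
  rw [card_T4] at this
  omega
theorem VD.neC (h : VC V θ π) : θ (E.setOf O0) ≠ 1 := by
  intro e
  have := O0_mem.2
  rcases (h.θ_one _ O0_mem.1).1 e with k | k <;> rw [k] at this
  · exact absurd this (by decide)
  · rw [Finset.card_univ, card_pt] at this
    omega

/-- PROOF. `O(G)` is generated by the `C_{O(G)}(u) ≤ O(C(u)) = 1`, `u ∈ {a, b, a b}`, so is trivial. Let `M ≠ 1` be
normal; it has even order, so meets a Sylow subgroup `S ≤ N = N(V)` non-trivially. If `M ⊓ V = 1` then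
`M ⊓ N ≤ C(V) = V`, absurd; so `V ≤ M` (`irr`). `h.im (M ⊓ N)` is normal in the simple group `M24`. If it is trivial,
`burnside` gives `M = O(M) V = V`, which is not normal. So `N ≤ M`, and `frattini` gives `M = G`. -/
theorem VD.simple (h : VD Dm Kr V θ π) (hn : ¬ V.Normal) {a b : G} (ha : a ∈ V) (hb : b ∈ V) (a1 : a ≠ 1)
    (b1 : b ≠ 1) (ab : a ≠ b) (oa : opOf 2 (centralizer {a}) = ⊥) (ob : opOf 2 (centralizer {b}) = ⊥)
    (oab : opOf 2 (centralizer {a * b}) = ⊥) : IsSimpleGroup G := by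
  have : Fact (Nat.Prime 2) := ⟨Nat.prime_two⟩
  have : Nontrivial G := ⟨⟨a, 1, a1⟩⟩
  have nY : ∀ (M : Subgroup G) [M.Normal] (H : Subgroup G), H ≤ normalizer (M : Set G) :=
    fun _ _ _ => le_normalizer_of_normal
  have o : pPrimeCore 2 G = ⊥ := by
    have k : ∀ u : G, opOf 2 (centralizer {u}) = ⊥ → pPrimeCore 2 G ⊓ centralizer {u} ≤ ⊥ := fun u e =>
      e ▸ inf_le_opOf (nY _ _) (PComp.pPrimeCore_coprime 2)
    exact le_bot_iff.1 (HHL.le_of_four (PComp.pPrimeCore_coprime 2) (h.sq_V ha) (h.sq_V hb) a1 b1 ab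
      (h.comm_V ha hb) (nY _ ⊤ trivial) (nY _ ⊤ trivial) (k a oa) (k b ob) (k _ oab))
  refine ⟨fun M hM => or_iff_not_imp_left.2 fun h1 => ?_⟩
  obtain ⟨S, hS⟩ := exists_sylIn 2 (normalizer (V : Set G))
  have h2 : 2 ∣ Nat.card M := by
    by_contra k
    exact h1 (le_bot_iff.1 (o ▸ PComp.le_pPrimeCore ((Nat.prime_two.coprime_iff_not_dvd.2 k).symm)))
  obtain ⟨⟨x, hx⟩, x1⟩ := ne_bot_iff_exists_ne_one.1
    (((h.wc hS).syl.inf_normal_of_le (nY M ⊤) le_top).ne_bot h2)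
  have hV : V ≤ M := by
    refine inf_eq_left.1 ((h.irr inf_le_left (le_normalizer_inf le_rfl (nY M _))).resolve_left fun e => x1 ?_)
    refine Subtype.ext (mem_bot.1 (e ▸ ⟨h.cent fun v hv => ?_, hx.2⟩))
    have : x * v * x⁻¹ * v⁻¹ ∈ V ⊓ M := ⟨V.mul_mem ((mem_normalizer_iff.1 (hS.le hx.1) v).1 hv) (V.inv_mem hv), by
      rw [mul_assoc, mul_assoc, ← mul_assoc v]
      exact M.mul_mem hx.2 (hM.conj_mem _ (M.inv_mem hx.2) v)⟩
    rw [e, mem_bot, mul_inv_eq_one, mul_inv_eq_iff_eq_mul] at this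
    exact this.symm
  have nm : ((h.im M).subgroupOf M24).Normal := ⟨fun d hd g => by
    obtain ⟨a, ha, k, e⟩ := h.mem_im.1 hd
    obtain ⟨b, hb, e'⟩ := h.π_surj g g.2
    refine h.mem_im.2 ⟨b * a * b⁻¹, hM.conj_mem a ha b, mul_mem (mul_mem hb k) (inv_mem hb), ?_⟩
    rw [h.π_conj hb k, e, e']
    rfl⟩
  have := Cfsg.Agent.S0365.result
  rcases nm.eq_bot_or_eq_top with e | e
  · rw [subgroupOf_eq_bot, disjoint_iff, inf_eq_left.2 (h.im_le _)] at e
    have k := h.burnside hV fun y hy => (h.π_one y hy.2).1 (mem_bot.1 (e ▸ h.mem_im.2 ⟨y, hy.1, hy.2, rfl⟩))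
    rw [le_bot_iff.1 ((PComp.le_pPrimeCore_of_isSubnormal hM.isSubnormal).trans o.le), bot_sup_eq] at k
    exact absurd (k ▸ hM) hn
  · refine eq_top_iff.2 fun g _ => ?_
    obtain ⟨y, hy, k⟩ := h.frattini hV (nY M ⊤ (mem_top g))
    obtain ⟨m, hm, k1, k2⟩ := h.mem_im.1 (subgroupOf_eq_top.1 e (h.π_mem _ k))
    have := mul_mem hy (mul_mem hm (hV ((h.π_eq_iff k1 k).1 k2)))
    simpa using this

theorem VD.simple_of (h : VD Dm Kr V θ π) (hn : ¬ V.Normal) {z : G} (z1 : z ≠ 1)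
    (o : opOf 2 (centralizer {z}) = ⊥) {X : Set (Finset GolayPt)}
    (hX : ∀ s ∈ X, s ∈ Dm ∧ ∃ a ∈ normalizer (V : Set G), a * z * a⁻¹ = θ s) {s t : Finset GolayPt}
    (hs : s ∈ X) (ht : t ∈ X) (hst : s ∆ t ∈ X) : IsSimpleGroup G := by
  have k : ∀ s ∈ X, θ s ≠ 1 ∧ opOf 2 (centralizer {θ s}) = ⊥ := fun s hs => by
    obtain ⟨-, a, -, e⟩ := hX s hs
    rw [← e, ← cj_centralizer_singleton, opOf_map_of_injective 2 _ (MulAut.conj a).injective, o,
      Subgroup.map_bot]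
    exact ⟨fun e => z1 (by simpa using e), rfl⟩
  have e := h.θ_mul s (hX s hs).1 t (hX t ht).1
  exact h.simple hn (h.θ_mem (hX s hs).1) (h.θ_mem (hX t ht).1) (k s hs).1 (k t ht).1
    (fun e' => (k _ hst).1 (by rw [e, e', h.θ_sq (hX t ht).1])) (k s hs).2 (k t ht).2 (e ▸ (k _ hst).2)

/-- PROOF. Tetrads `{0, 1, 2, ∞}`, `{0, 1, 3, 5}` of `O0` and their sum; `conjT`. -/
theorem VD.simpleT (h : VT V θ π) (hn : ¬ V.Normal) (o : opOf 2 (centralizer {θ (E.setOf T4)}) = ⊥) :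
    IsSimpleGroup G := by
  refine h.simple_of hn h.neT o (X := {s | s.card = 4}) (fun s hs => ⟨?_, h.conjT hs⟩) card_T4
    (t := E.setOf 43) ((card_setOf _).trans (by decide +kernel)) ?_
  · change Even _
    rw [show s.card = 4 from hs]
    decide
  · rw [← E.setOf_xor]
    exact (card_setOf _).trans (by decide +kernel)
/-- PROOF. The octads `trOc 0`, `trOc 1`, `trOc 2` of a trio; `conjC`. -/
theorem VD.simpleC (h : VC V θ π) (hn : ¬ V.Normal) (o : opOf 2 (centralizer {θ (E.setOf O0)}) = ⊥) :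
    IsSimpleGroup G := by
  refine h.simple_of hn h.neC o (X := octads) (fun s hs => ⟨hs.1, h.conjC hs⟩) O0_mem
    (t := E.setOf 5279) (setOf_mem_of_isOct (by decide +kernel)) ?_
  rw [← E.setOf_xor]
  exact setOf_mem_of_isOct (by decide +kernel)

end CL.VM
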