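/- Extensions of `M24` by the code modulo the full set split. -/
import Cfsg.Agent.SPOR.VM.Defs
import Cfsg.Agent.KSG.ModExtM
import Cfsg.Agent.SPOR.VM.SplitC

set_option autoImplicit false

namespace CL.VM
open Subgroup Cfsg Cfsg.Spor CL.Golay CL.MSS CL.PComp
open CL.MAut (Pm)

variable {G : Type*} [Group G] [Finite G] {V : Subgroup G} {θ : Finset GolayPt → G} {π : G → Pm}

namespace Sp
open CL.ModExt CL.F2M Finset
open scoped Pointwise

omit [Finite G] in
theorem ctx (h : VC V θ π) (p : normalizer (V : Set G) →* M24) (hp : ∀ a, (p a : Pm) = π a) :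
    ∃ crd : normalizer (V : Set G) → Fin 11 → ZMod 2, PCtx p crd entQ ∧
      (∀ v, ∃ x ∈ p.ker, crd x = v) ∧ ∀ x ∈ p.ker, crd x = 0 → x = 1 := by
  classical
  have hk : ∀ x, x ∈ p.ker ↔ (x : G) ∈ V := fun x => by
    rw [MonoidHom.mem_ker, ← OneMemClass.coe_eq_one, hp, h.π_one _ x.2]
  have mc : ∀ {w}, w ∈ golayCode → support₂ w ∈ Code := fun hw => mem_golayCode_iff.1 hw
  have tm : ∀ v ∈ golayCode, ∀ w ∈ golayCode,
      θ (support₂ (v + w)) = θ (support₂ v) * θ (support₂ w) := fun v hv w hw => by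
    rw [support₂_add, h.θ_mul _ (mc hv) _ (mc hw)]
  have t1 : ∀ w ∈ golayCode, θ (support₂ w) = 1 ↔ w = 0 ∨ w = 1 := fun w hw => by
    rw [h.θ_one _ (mc hw), ← support₂_injective.eq_iff (a := w) (b := 0),
      ← support₂_injective.eq_iff (a := w) (b := 1), support₂_zero, support₂_one]
    rfl
  have w2 : ∀ w : GolayPt → ZMod 2, w + w = 0 := fun w => funext fun _ => CharTwo.add_self_eq_zero _
  have o1 : (1 : GolayPt → ZMod 2) ∈ golayCode := mem_golayCode_iff.2 (by rw [support₂_one]; exact univ_mem_code)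
  have rep : ∀ x ∈ p.ker, ∃ w ∈ golayCode, w none = 0 ∧ θ (support₂ w) = x := fun x hx => by
    obtain ⟨s, ⟨w, hw, rfl⟩, e⟩ := (h.mem_V _).1 ((hk x).1 hx)
    by_cases h0 : w none = 0
    · exact ⟨w, hw, h0, e⟩
    · refine ⟨w + 1, golayCode.add_mem hw o1, ?_, ?_⟩
      · rw [Pi.add_apply, zmod2_ne_zero_iff.1 h0]; rfl
      · rw [tm w hw 1 o1, (t1 1 o1).2 (Or.inr rfl), mul_one, e]
  let κ : (GolayPt → ZMod 2) → Fin 11 → ZMod 2 := fun w j => w (E.dec j) + w none
  have κa : ∀ v w, κ (v + w) = κ v + κ w := fun v w => funext fun j => add_add_add_comm _ _ _ _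
  let crd : normalizer (V : Set G) → Fin 11 → ZMod 2 := fun x =>
    if hx : ∃ w ∈ golayCode, θ (support₂ w) = x then κ hx.choose else 0
  have hc : ∀ (x : normalizer (V : Set G)), ∀ w ∈ golayCode, θ (support₂ w) = x → crd x = κ w :=
    fun x w hw e => by
      have hx : ∃ w ∈ golayCode, θ (support₂ w) = x := ⟨w, hw, e⟩
      obtain ⟨h1, h2⟩ := hx.choose_spec
      have h3 : θ (support₂ (hx.choose + w)) = 1 := by
        rw [tm _ h1 _ hw, h2, ← e, ← tm _ hw _ hw, w2, t1 _ golayCode.zero_mem]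
        exact Or.inl rfl
      have h4 : κ (hx.choose + w) = 0 := by
        rcases (t1 _ (golayCode.add_mem h1 hw)).1 h3 with e1 | e1 <;> rw [e1] <;> funext j <;> rfl
      rw [show crd x = κ hx.choose from dif_pos hx, ← zero_add (κ w), ← h4, κa, add_assoc, add_self_vec,
        add_zero]
  refine ⟨crd, ⟨fun x hx y hy => ?_, fun g P hP x hx r => ?_⟩, fun v => ?_, fun x hx e => ?_⟩
  · obtain ⟨v, hv, -, e1⟩ := rep x hx
    obtain ⟨w, hw, -, e2⟩ := rep y hy
    rw [hc x v hv e1, hc y w hw e2, hc (x * y) _ (golayCode.add_mem hv hw)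
      (by rw [tm v hv w hw, e1, e2]; rfl), κa]
  · obtain ⟨w, hw, h0, e⟩ := rep x hx
    rw [hc x w hw e, hc _ _ (comp_inv_mem (p g).2 hw) (by
      rw [Subgroup.coe_mul, Subgroup.coe_mul, Subgroup.coe_inv, ← e, h.conj _ g.2 _ (mc hw), ← hp,
        ← support₂_perm]
      rfl)]
    simp only [κ, h0, add_zero, Function.comp_apply]
    rw [expand hw h0, Finset.sum_apply, Finset.sum_apply, ← sum_add_distrib]
    refine sum_congr rfl fun c _ => ?_
    rw [← expand hw h0, Pi.smul_apply, Pi.smul_apply, smul_eq_mul, smul_eq_mul, ← mul_add, mul_comm,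
      entQ, b2z_xor, ← wd_dec _ (by omega), ← wd_dec _ (by norm_num : 23 < 24), wd_img hP]
    rfl
  · have hV := (h.mem_V _).2 ⟨_, mc (comb_mem v), rfl⟩
    refine ⟨⟨_, Subgroup.le_normalizer hV⟩, (hk _).2 hV, ?_⟩
    rw [hc _ _ (comb_mem v) rfl]
    funext j
    simp only [κ, comb_none, comb_dec, add_zero]
  · obtain ⟨w, hw, h0, e1⟩ := rep x hx
    rw [hc x w hw e1] at e
    have := eq_zero_of_info hw h0 fun j => by simpa only [κ, h0, add_zero, Pi.zero_apply] using congrFun e j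
    exact Subtype.ext (e1.symm.trans ((t1 w hw).2 (Or.inl this)))

end Sp

/-- PROOF. `H²(M24, C / 1) = 0`. Copy `S2649` (kit `KSG/ModExt`, `KSG/ModExtM`, generator `tools/m24/ext.py`) with
`M24` for `M23`: Sylow subgroup of order `2 ^ 10`, fusion letters from the octad, trio and sextet groups;
coordinates of a code word `c`: those of the member of `{c, cᶜ}` that avoids `none` (basis `bC`). A complement `H`
is mapped isomorphically onto `M24` by `h.hom`; `χ` is the inverse. -/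
theorem VD.split (h : VC V θ π) : ∃ χ, VS V θ π χ := by
  let p : normalizer (V : Set G) →* M24 := h.hom.codRestrict M24 fun a => h.π_mem a a.2
  have hp : ∀ a, (p a : Pm) = π a := fun _ => rfl
  have hs : Function.Surjective p := fun g => by
    obtain ⟨a, ha, e⟩ := h.π_surj g g.2
    exact ⟨⟨a, ha⟩, Subtype.ext e⟩
  obtain ⟨crd, P, h1, h2⟩ := Sp.ctx h p hp
  obtain ⟨a, ha⟩ := CL.ModExt.exists_lifts hs Sp.data.mem
  obtain ⟨H, h3, h4⟩ := Sp.data.split P hs h1 ha fun e he => absurd he List.not_mem_nil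
  let e : H ≃* M24 := MulEquiv.ofBijective (p.comp H.subtype)
    ⟨(injective_iff_map_eq_one _).2 fun x hx => Subtype.ext (h2 x hx ((h3 x hx).1 x.2)), fun g => by
      obtain ⟨x, hx, e⟩ := h4.ge (Subgroup.mem_top g)
      exact ⟨⟨x, hx⟩, e⟩⟩
  exact ⟨((normalizer (V : Set G)).subtype.comp H.subtype).comp e.symm.toMonoidHom, h,
    fun g => (e.symm g).1.2, fun g => congrArg Subtype.val (e.apply_symm_apply g)⟩

end CL.VM
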