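/- Type T: computations in the sextet group. All statements were checked with `tools/vm/m24.py`. -/
import Cfsg.Agent.SPOR.VM.MDef

set_option autoImplicit false

namespace CL.VM
open Subgroup Cfsg Cfsg.Spor CL.Golay
open CL.MAut (Pm)
open Equiv.Perm (sign)
open scoped Pointwise symmDiff

variable {g x : Pm} {s t : Finset GolayPt}

namespace Tm
open CL.K CL.Orb CL.Enc

section
open Equiv Equiv.Perm

theorem t1 : ∀ p : Fin 6 → ZMod 2, ∑ i, p i = 0 → ¬ (∀ i, p i = p 0) → ∃ a b c d : Fin 6, a ≠ b ∧ c ≠ d ∧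
    ∀ i, p (swap a b (swap c d i)) + ![1, 1, 0, 0, 0, 0] i = p (swap a b (swap c d 0)) + 1 := by decide +kernel

theorem t2 {τ : Perm (Fin 6)} (h : ∀ p : Fin 6 → ZMod 2, ∑ i, p i = 0 → ∀ i j, p (τ i) + p i = p (τ j) + p j) : τ = 1 := by
  refine Equiv.ext fun i => by_contra fun n => ?_
  have k : ∀ a b c d : Fin 6, ∃ k, k ≠ a ∧ k ≠ b ∧ k ≠ c ∧ k ≠ d := by decide +kernel
  obtain ⟨j, a, b, -⟩ := k i (τ i) i i
  obtain ⟨k, c, d, e, f⟩ := k i (τ i) j (τ⁻¹ j)
  have := h (Pi.single (τ i) 1 + Pi.single j 1) (by simp [Finset.sum_add_distrib]; rfl) i k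
  replace f : τ k ≠ j := fun e => f (by simp [← e])
  simp [a.symm, b.symm, c, d, e, f, show i ≠ τ i from fun e => n e.symm] at this

theorem cyc {p : ℕ} [Fact p.Prime] {τ : Perm (Fin 6)} (h : τ ^ p = 1) :
    ∃ n, τ.cycleType = Multiset.replicate n p ∧ τ.support.card = n * p :=
  ⟨_, cycleType_of_pow_prime_eq_one h, by
    rw [← sum_cycleType, cycleType_of_pow_prime_eq_one h]; simp⟩

theorem conj_of {p : ℕ} [hp : Fact p.Prime] {τ τ' : Perm (Fin 6)} (h : τ ^ p = 1) (h' : τ' ^ p = 1)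
    (e : τ.support.card = τ'.support.card) : ∃ ρ, ρ * τ' * ρ⁻¹ = τ := by
  obtain ⟨n, a, b⟩ := cyc h
  obtain ⟨n', a', b'⟩ := cyc h'
  rw [← isConj_iff, isConj_iff_cycleType_eq, a, a', Nat.eq_of_mul_eq_mul_right hp.out.pos (b.symm.trans (e.trans b'))]

theorem t3 {τ : Perm (Fin 6)} (h1 : τ ≠ 1) (h2 : τ * τ = 1) (h3 : sign τ = 1) : ∃ p q : Fin 6 → ZMod 2, ∑ i, p i = 0 ∧ ∑ i, q i = 0 ∧
   ∀ r : Fin 6 → ZMod 2, ∑ i, r i = 0 → (∀ i j, r (τ i) + r i = r (τ j) + r j) → (∀ i j, r i = r j) ∨ (∀ i j, r i + p i = r j + p j) ∨ 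
     (∀ i j, r i + q i = r j + q j) ∨ ∀ i j, r i + p i + q i = r j + p j + q j := by
  rw [← sq] at h2
  obtain ⟨ρ, rfl⟩ := conj_of h2 (τ' := swap 0 1 * swap 2 3) (by decide) (by
    obtain ⟨n, a, b⟩ := cyc h2
    have c := τ.support.card_le_univ
    rw [sign_of_cycleType, a] at h3
    rw [b, Fintype.card_fin] at c
    rw [Ne, ← card_cycleType_eq_zero, a, Multiset.card_replicate] at h1
    have : n ≤ 3 := by omega
    interval_cases n
    · exact absurd rfl h1
    · exact absurd h3 (by decide)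
    · exact b.trans (by decide)
    · exact absurd h3 (by decide))
  have k : ∀ r : Fin 6 → ZMod 2, ∑ i, r i = 0 → (∀ i j, r ((swap 0 1 * swap 2 3 : Perm (Fin 6)) i) + r i =
      r ((swap 0 1 * swap 2 3 : Perm (Fin 6)) j) + r j) → (∀ i j, r i = r j) ∨
      (∀ i j, r i + ![1, 1, 0, 0, 0, 0] i = r j + ![1, 1, 0, 0, 0, 0] j) ∨ 
      (∀ i j, r i + ![0, 0, 1, 1, 0, 0] i = r j + ![0, 0, 1, 1, 0, 0] j) ∨
      ∀ i j, r i + ![1, 1, 0, 0, 0, 0] i + ![0, 0, 1, 1, 0, 0] i = r j + ![1, 1, 0, 0, 0, 0] j + ![0, 0, 1, 1, 0, 0] j := by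
    decide +kernel
  refine ⟨fun i => ![1, 1, 0, 0, 0, 0] (ρ⁻¹ i), fun i => ![0, 0, 1, 1, 0, 0] (ρ⁻¹ i),
    (Equiv.sum_comp ρ⁻¹ _).trans (by decide), (Equiv.sum_comp ρ⁻¹ _).trans (by decide), fun r hr h => ?_⟩
  have := k (fun i => r (ρ i)) ((Equiv.sum_comp ρ r).trans hr) fun i j => by simpa using h (ρ i) (ρ j)
  refine this.imp ?_ (.imp ?_ (.imp ?_ ?_)) <;> exact fun k i j => by
    simpa only [show ∀ i, ρ (ρ⁻¹ i) = i from ρ.apply_symm_apply] using k (ρ⁻¹ i) (ρ⁻¹ j)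

theorem t4 {τ a b : Perm (Fin 6)} (h : τ ^ 3 = 1) (ha : a ^ 3 = 1) (hb : b ^ 3 = 1) (a6 : a.support.card = 6) (b3 : b.support.card = 3) : τ = 1 ∨ (∃ ρ, ρ * a * ρ⁻¹ = τ) ∨ ∃ ρ, ρ * b * ρ⁻¹ = τ := by
  obtain ⟨n, e, f⟩ := cyc h
  have c := τ.support.card_le_univ
  rw [f, Fintype.card_fin] at c
  have : n ≤ 2 := by omega
  interval_cases n
  · exact Or.inl (card_cycleType_eq_zero.1 (by rw [e]; rfl))
  · exact Or.inr (Or.inr (conj_of h hb (f.trans b3.symm)))
  · exact Or.inr (Or.inl (conj_of h ha (f.trans a6.symm)))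

end

theorem tetM_lt : ∀ i, tetM i < 2 ^ 24 := by decide
theorem tet_inj {i j : Fin 6} : tet i = tet j ↔ i = j := by
  rw [tet, tet, E.setOf_inj (tetM_lt i) (tetM_lt j)]; revert i j; decide
theorem mem_sex {u : Finset GolayPt} : u ∈ sex T4 ↔ ∃ i, tet i = u := by
  rw [sex_T4_eq]
  simp [tetL, tet, tetM, Fin.exists_fin_succ, eq_comm]
theorem tet_inter {i j : Fin 6} (h : i ≠ j) : tet i ∩ tet j = ∅ := by
  rw [tet, tet, ← E.setOf_and, ← E.setOf_zero]; congr 1; revert i j; decide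
theorem mem_X6 : x ∈ X6 ↔ x ∈ FixF (sex T4) ∧ x * x = 1 := Set.ext_iff.1 sexO2_eq x
theorem F_le : FixF (sex T4) ≤ Sex := fun _ h => (mem_FixF_iff_stab.1 h).1
/-- table of `y0` -/
def Y : ℕ := 5449130480366048776612061589756962
theorem RY : R y0 Y := R.pm (by decide +kernel)
theorem inF {P : ℕ} (hP : R g P) (h : (presCode P && fixSets tetL P) = true) : g ∈ FixF (sex T4) := by
  rw [Bool.and_eq_true] at h
  exact mem_FixF_T4.2 ⟨hP.mem_M24_iff.2 h.1, (hP.fixSets_iff (by decide)).1 h.2⟩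
theorem y0_F : y0 ∈ FixF (sex T4) := inF RY (by decide +kernel)
theorem inX {P : ℕ} (hP : R g P) (h : (presCode P && fixSets tetL P && Nat.beq (comp24 P P) one24) = true) : g ∈ X6 := by
  rw [Bool.and_eq_true, Nat.beq_eq] at h
  exact mem_X6.2 ⟨inF hP h.1, (hP.comp24_eq_one_iff hP).1 h.2⟩
theorem eq_one {P : ℕ} (hP : R g P) (e : P = one24) : g = 1 := hP.permOf_eq.symm.trans (e ▸ R.one.permOf_eq)

/-- chain for `X6` -/
def lvX : List (ℕ × List ℕ) := [(0, [984818244535754528103549039458486304, 5447382388983081592886053788877911,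
  46999706481866609773835742131356386, 88531741395152432619144554048084993]), (3,
  [984818244535754528103549039458486304, 960831283963798152912375878980765728, 960884477435128931241433760505432096,
  961438956620049001677386430328277024]), (4, [984818244535754528103549039458486304,
  961365507626256404119956257276790816, 972512676110088067912772961567868960, 976448692869377735270425038196672544])]
/-- chain for the group fixing all tetrads -/
def lvF : List (ℕ × List ℕ) := [(0, [984818244535754528103549039458486304, 5447382388983081592886053788877911, 5449130480366048776612061589756962,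
  5461884519211575771589463973071585]), (3, [984818244535754528103549039458486304,
  46986323819515814371065204457299008, 47527044190441957774151084272704576, 47595462196545319713515265581440064]),
  (4, [984818244535754528103549039458486304, 47034407073731634391220238243978304,
  59276857866983322750650045308197952, 70365596815236416272784276646386752]), (1,
  [984818244535754528103549039458486304, 63091270512736695476215892246912064, 100247931515887572706570511075870432])]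
theorem cardX : Nat.card X6 = 64 := (card_eq_ncard fun _ => mem_X6).trans ncard_sexO2
theorem lvlX : Lv X6 lvX [] := Lv.ofM (p := fun P => presCode P && fixSets tetL P && Nat.beq (comp24 P P) one24)
  (fun _ ⟨g, _, hP⟩ h => ⟨g, inX hP h, hP⟩) (by decide +kernel) cardX.le
theorem lvlF : Lv (FixF (sex T4)) lvF [] := Lv.ofM (p := fun P => presCode P && fixSets tetL P)
  (fun _ ⟨g, _, hP⟩ h => ⟨g, inF hP h, hP⟩) (by decide +kernel) (card_FixF_sextet (sex_mem isTet_T4)).le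
theorem allX {p : ℕ → Bool} (h : allP24 PC.cTrue p lvX [] one24 = true) (hx : x ∈ X6) : ∃ P, R x P ∧ p P = true :=
  lvlX.all0 (Snd.cTrue fun _ => True) h x hx trivial
theorem allF {p : ℕ → Bool} (h : allP24 PC.cTrue p lvF [] one24 = true) (hx : x ∈ FixF (sex T4)) :
    ∃ P, R x P ∧ p P = true := lvlF.all0 (Snd.cTrue fun _ => True) h x hx trivial

end Tm
open Tm CL.K CL.Orb CL.Enc

theorem tet_smul (hg : g ∈ Sex) (i : Fin 6) : g • tet i = tet (σ0 g i) := by
  have a : ∀ i, ∃ j, tet j = g • tet i := fun i => mem_sex.1 (hg.2.le (Finset.smul_mem_smul_finset (mem_sex.2 ⟨i, rfl⟩)))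
  choose f hf using a
  have : ∃ τ : Equiv.Perm (Fin 6), ∀ i, g • tet i = tet (τ i) := ⟨.ofBijective f (Finite.injective_iff_bijective.1 fun i j e =>
    tet_inj.1 (MulAction.injective g ((hf i).symm.trans (e ▸ hf j)))), fun i => (hf i).symm⟩
  rw [σ0, dif_pos this]
  exact this.choose_spec i
theorem Tm.σ0_eq (hg : g ∈ Sex) {τ : Equiv.Perm (Fin 6)} : σ0 g = τ ↔ ∀ i, g • tet i = tet (τ i) :=
  ⟨fun e i => e ▸ tet_smul hg i, fun h => Equiv.ext fun i => tet_inj.1 ((tet_smul hg i).symm.trans (h i))⟩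
theorem Tm.σ0_R (hg : g ∈ Sex) {P : ℕ} (hP : R g P) {τ : Equiv.Perm (Fin 6)} (h : ∀ i, img24 P (tetM i) = tetM (τ i)) :
    σ0 g = τ := (σ0_eq hg).2 fun i => (hP.setOf_img _).symm.trans (congrArg _ (h i))
theorem Tm.σ0_F (hg : g ∈ Sex) : σ0 g = 1 ↔ g ∈ FixF (sex T4) := by
  rw [σ0_eq hg, mem_FixF, and_iff_right (show g ∈ M24 from hg.1)]
  exact ⟨fun h t ht => by obtain ⟨i, rfl⟩ := mem_sex.1 ht; exact h i, fun h i => h _ (mem_sex.2 ⟨i, rfl⟩)⟩
theorem σ0_mul {g' : Pm} (hg : g ∈ Sex) (hg' : g' ∈ Sex) : σ0 (g * g') = σ0 g * σ0 g' := by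
  refine (σ0_eq (mul_mem hg hg')).2 fun i => ?_
  rw [mul_smul, tet_smul hg', tet_smul hg]; rfl
/-- `σ0` as a homomorphism -/
noncomputable def Tm.σH : Sex →* Equiv.Perm (Fin 6) := MonoidHom.mk' (fun g => σ0 g) fun a b => σ0_mul a.2 b.2
theorem Tm.σ0_inv (hg : g ∈ Sex) : σ0 g⁻¹ = (σ0 g)⁻¹ := map_inv σH ⟨g, hg⟩
/-- PROOF. `|Sex| / |FixF| = 138240 / 192 = 720`. -/
theorem σ0_surj (τ : Equiv.Perm (Fin 6)) : ∃ g ∈ Sex, σ0 g = τ := by
  obtain ⟨g, e⟩ := surjective_of_card_ker σH (by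
    rw [card_of_mem_iff (K := σH.ker) F_le fun a => (σ0_F a.2), card_FixF_sextet (sex_mem isTet_T4),
      card_stab_sextet (sex_mem isTet_T4), Nat.card_perm, Nat.card_fin]; decide) τ
  exact ⟨g, g.2, e⟩
/-- PROOF. The kernel is `FixF (sex T4)`, of order 192. -/
theorem σ0_one (hg : g ∈ Sex) : σ0 g = 1 ↔ g ∈ X6 ⊔ zpowers y0 := by
  rw [σ0_F hg]
  refine ⟨fun h => ?_, fun h => sup_le (fun _ h => (mem_X6.1 h).1) (zpowers_le.2 y0_F) h⟩
  obtain ⟨P, hP, e⟩ := allF (p := fun P => anyLt (fun i => force (comp24 P (pow24 Y i)) fun Q => Nat.beq (comp24 Q Q) one24) 3)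
    (by decide +kernel) h
  obtain ⟨i, -, e⟩ := anyLt_iff.1 e
  have k := hP.mul (RY.pow i)
  rw [force_eq, Nat.beq_eq, k.comp24_eq_one_iff k] at e
  exact (mul_mem_cancel_right (mem_sup_right (npow_mem_zpowers y0 i))).1
    (mem_sup_left (mem_X6.2 ⟨mul_mem h (pow_mem y0_F i), e⟩))
theorem card_Sex : Nat.card Sex = 138240 := card_stab_sextet (sex_mem isTet_T4)
theorem X6_le : X6 ≤ Sex := fun _ h => F_le (mem_X6.1 h).1
theorem card_X6 : Nat.card X6 = 64 := cardX
theorem X6_sq (hx : x ∈ X6) : x * x = 1 := (mem_X6.1 hx).2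
theorem X6_conj (hg : g ∈ Sex) (hx : x ∈ X6) : g * x * g⁻¹ ∈ X6 := mem_X6.2 (conj_mem_sexO2 (sex_mem isTet_T4) hg.1 hg.2 (mem_X6.1 hx))
theorem y0_mem : y0 ∈ Sex := F_le y0_F
theorem y0_cube : y0 ^ 3 = 1 := (RY.pow_succ_eq_one_iff 2).1 (by decide +kernel)
theorem X6_trace (hx : x ∈ X6) : x * (y0 * x * y0⁻¹) * (y0 ^ 2 * x * (y0 ^ 2)⁻¹) = 1 := by
  obtain ⟨P, hP, e⟩ := allX (p := fun P => force (comp24 (comp24 Y P) (inv24 Y)) fun Q =>
    Nat.beq (comp24 (comp24 P Q) (comp24 (comp24 Y Q) (inv24 Y))) one24) (by decide +kernel) hx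
  have k := (RY.mul hP).mul RY.inv
  rw [force_eq, Nat.beq_eq, (hP.mul k).comp24_eq_one_iff ((RY.mul k).mul RY.inv)] at e
  rw [← e]; group
theorem X6_fpf (hx : x ∈ X6) (e : x * y0 = y0 * x) : x = 1 := by
  obtain ⟨P, hP, k⟩ := allX (p := fun P => Nat.beq P one24 || !Nat.beq (comp24 P Y) (comp24 Y P)) (by decide +kernel) hx
  rw [(hP.comp24_eq_iff RY RY hP).2 e, Nat.beq_refl, Bool.not_true, Bool.or_false, Nat.beq_eq] at k
  exact eq_one hP k
theorem Tm.io (hg : g ∈ Sex) : g * y0 * g⁻¹ * y0 ^ (-(sign (σ0 g) : ℤ)) ∈ X6 := by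
  let S : Submonoid Pm :=
    { carrier := {g | g ∈ Sex ∧ g * y0 * g⁻¹ * y0 ^ (-(sign (σ0 g) : ℤ)) ∈ X6}
      one_mem' := ⟨one_mem _, by rw [(σ0_F (one_mem _)).2 (one_mem _)]; simp⟩
      mul_mem' := fun {g h} hg hh => ⟨mul_mem hg.1 hh.1, by
        have a := X6_conj hg.1 hh.2
        have b := hg.2
        rw [σ0_mul hg.1 hh.1, map_mul, Units.val_mul]
        generalize (sign (σ0 g) : ℤ) = ε at b
        rcases Int.units_eq_one_or (sign (σ0 h)) with e | e <;> rw [e] at a ⊢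
        · convert mul_mem a b using 1
          simp only [Units.val_one]; group
        · convert mul_mem a (X6_conj (zpow_mem y0_mem (-ε)) (inv_mem b)) using 1
          simp only [Units.val_neg, Units.val_one]; group⟩ }
  let K : Subgroup Pm := ⟨S, fun {g} hg =>
    Submonoid.powers_le.2 (show g ∈ S from hg) (mem_powers_iff_mem_zpowers.2 (inv_mem (mem_zpowers g)))⟩
  refine (AllI.grp_le (H := K) (L := gSex) (List.forall_mem_cons.2 ⟨?_, List.forall_mem_singleton.2 ?_⟩) (stab_sex_eq ▸ hg)).2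
  · obtain ⟨g, hg, hP⟩ := gSex_in _ List.mem_cons_self
    refine ⟨g, ⟨hg, ?_⟩, hP⟩
    rw [σ0_R hg hP (τ := [0, 3, 1].formPerm * [2, 4, 5].formPerm) (by decide +kernel), show (sign _ : ℤˣ) = 1 by decide +kernel,
      Units.val_one, zpow_neg_one]
    exact inX (((R.mul hP RY).mul (R.inv hP)).mul RY.inv) (by decide +kernel)
  · obtain ⟨g, hg, hP⟩ := gSex_in _ (List.mem_cons_of_mem _ List.mem_cons_self)
    refine ⟨g, ⟨hg, ?_⟩, hP⟩
    rw [σ0_R hg hP (τ := [0, 3].formPerm * [1, 4, 5].formPerm) (by decide +kernel), show (sign _ : ℤˣ) = -1 by decide +kernel,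
      Units.val_neg, Units.val_one, neg_neg, zpow_one]
    exact inX (((R.mul hP RY).mul (R.inv hP)).mul RY) (by decide +kernel)
/-- PROOF. Both statements together by induction on the generators `gSex`. -/
theorem inner0 (hg : g ∈ Sex) (e : sign (σ0 g) = 1) : g * y0 * g⁻¹ * y0⁻¹ ∈ X6 := by
  simpa [e] using io hg
theorem outer0 (hg : g ∈ Sex) (e : sign (σ0 g) ≠ 1) : g * y0 * g⁻¹ * y0 ∈ X6 := by
  simpa [(Int.units_eq_one_or _).resolve_left e] using io hg
/-- table of an element acting on the tetrads as two 3-cycles -/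
def Tm.A3 : ℕ := 148008413903170959185898568973260334
/-- table of an element acting on the tetrads as a 3-cycle -/
def Tm.B3 : ℕ := 981603476415513496959060580675782688
theorem Tm.inAB : AllI Sex [A3, B3] := (AllI.ofM (by decide +kernel)).sex le_rfl T4 (by decide +kernel)
theorem Tm.inA : I Sex A3 := inAB _ List.mem_cons_self
theorem Tm.inB : I Sex B3 := inAB _ (List.mem_cons_of_mem _ List.mem_cons_self)
theorem Tm.σA : σ0 (pm A3) = [0, 3, 5].formPerm * [1, 2, 4].formPerm := σ0_R inA.permOf_mem inA.rep (by decide +kernel)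
theorem Tm.σB : σ0 (pm B3) = [1, 4, 2].formPerm := σ0_R inB.permOf_mem inB.rep (by decide +kernel)
/-- PROOF. `a = pm 148008413903170959185898568973260334`, `b = pm 981603476415513496959060580675782688`: order 3,
`⟨a, b⟩` has order 27. -/
theorem yder0 : ∃ a ∈ Sex, ∃ b ∈ Sex, sign (σ0 a) = 1 ∧ sign (σ0 b) = 1 ∧ a * b * a⁻¹ * b⁻¹ = y0 := by
  refine ⟨_, inA.permOf_mem, _, inB.permOf_mem, by rw [σA]; decide +kernel, by rw [σB]; decide +kernel, ?_⟩
  exact ((R.comp24_eq_iff ((R.mul inA.rep inB.rep).mul (R.inv inA.rep)) (R.inv inB.rep) RY R.one).1 (by decide +kernel)).trans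
    (mul_one _)

theorem Tm.cast_sd (s t : Finset GolayPt) : ((s ∆ t).card : ZMod 2) = s.card + t.card := by
  have := congrArg (Nat.cast : ℕ → ZMod 2) (card_symmDiff_add s t)
  rwa [Nat.cast_add, Nat.cast_add, Nat.cast_mul, show ((2 : ℕ) : ZMod 2) = 0 from rfl, zero_mul, add_zero] at this
theorem par_symmDiff (s t : Finset GolayPt) (i : Fin 6) : par (s ∆ t) i = par s i + par t i := by
  rw [par, par, par, ← cast_sd]
  exact congrArg _ (congrArg _ (inf_symmDiff_distrib_right ..))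
theorem par_smul (hg : g ∈ Sex) (s : Finset GolayPt) (i : Fin 6) : par (g • s) (σ0 g i) = par s i := by
  rw [par, ← tet_smul hg, card_inter_smul, par]
theorem sum_par (s : Finset GolayPt) : ∑ i, par s i = (s.card : ZMod 2) := by
  have k : ∀ p, ∑ i, (if p ∈ tet i then 1 else 0 : ZMod 2) = 1 := by
    simp only [tet, E.mem_setOf]; decide +kernel
  simp only [par, ← Finset.filter_mem_eq_inter, Finset.natCast_card_filter]
  rw [Finset.sum_comm, Finset.sum_congr rfl fun p _ => k p]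
  simp
theorem Tm.par_setOf (n : ℕ) (i : Fin 6) : par (E.setOf n) i = (pc24 (Nat.land n (tetM i)) : ZMod 2) :=
  congrArg _ (card_inter_setOf ..)
theorem Tm.even_iff : Even s.card ↔ ∑ i, par s i = 0 := by rw [sum_par, ZMod.natCast_eq_zero_iff_even]
theorem Tm.par_act (hg : g ∈ Sex) (s : Finset GolayPt) (i : Fin 6) : par (g • s) i = par s ((σ0 g)⁻¹ i) := by
  rw [← par_smul hg s]; simp
theorem par_surj (p : Fin 6 → ZMod 2) : ∃ s, par s = p := by
  have : ∀ p : Fin 6 → ZMod 2, ∀ i, (pc24 (Nat.land (∑ j, (p j).val * ![8, 256, 512, 64, 16, 1] j) (tetM i)) : ZMod 2) = p i := by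
    decide +kernel
  exact ⟨_, funext fun i => (par_setOf _ i).trans (this p i)⟩
theorem EqP.even (h : EqP s) : Even s.card := by
  rw [even_iff, Finset.sum_congr rfl fun i _ => h i 0, Finset.sum_const, Finset.card_univ, Fintype.card_fin, nsmul_eq_mul]
  exact mul_eq_zero_of_left rfl _
theorem EqP.symmDiff (h : EqP s) (h' : EqP t) : EqP (s ∆ t) := fun i j => by
  rw [par_symmDiff, par_symmDiff, h i j, h' i j]
theorem EqP.smul (h : EqP s) (hg : g ∈ Sex) : EqP (g • s) := fun i j => by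
  rw [par_act hg, par_act hg, h]
theorem eqP_code (h : s ∈ Code) : EqP s := fun i j => by
  have := even_card_inter h (Syn_eq_iff.1 (((mem_sextetOf.1 (mem_sex.2 ⟨i, rfl⟩)).2).trans (mem_sextetOf.1 (mem_sex.2 ⟨j, rfl⟩)).2.symm))
  rw [← ZMod.natCast_eq_zero_iff_even, show s ∩ _ = _ from inf_symmDiff_distrib_left s _ _, cast_sd] at this
  exact (eq_neg_of_add_eq_zero_left this).trans (ZMod.neg_eq_self_mod_two _)
theorem EqP.congr (h : EqP (s ∆ t)) : EqP s ↔ EqP t :=
  ⟨fun k => by simpa using k.symmDiff h, fun k => by simpa using h.symmDiff k⟩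
theorem Zt.eqP (h : Zt s) : EqP s := by
  refine h.elim eqP_code fun h => (eqP_code h).congr.2 ?_
  simp only [EqP, par_setOf]; decide +kernel
namespace Tm

theorem Syn_sd (s t : Finset GolayPt) : Syn (s ∆ t) = Syn s ^^^ Syn t := by
  conv_lhs => rw [← E.setOf_maskOf s, ← E.setOf_maskOf t, ← E.setOf_xor]
  rw [Syn_setOf (Nat.xor_lt_two_pow (E.maskOf_lt s) (E.maskOf_lt t)), syn_xor]
  rfl
theorem code_iff : s ∈ Code ↔ Syn s = 0 := by
  rw [Syn, syn_eq_zero_iff, ← setOf_mem_code_iff (E.maskOf_lt s), E.setOf_maskOf]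
/-- the class of `∅` or of the tetrad -/
def zc (c : ℕ) : Bool := Nat.beq c 0 || Nat.beq c 3489
theorem Syn_T4 : Syn (E.setOf T4) = 3489 := (Syn_setOf (by decide)).trans (by decide +kernel)
theorem zt_iff : Zt s ↔ zc (Syn s) = true := by
  rw [Zt, zc, Bool.or_eq_true, Nat.beq_eq, Nat.beq_eq, code_iff, ← Syn_eq_iff, Syn_T4]
/-- a set with syndrome `c` -/
noncomputable def rp (c : ℕ) : Finset GolayPt := E.setOf (Nat.shiftLeft c 12)
theorem sh_lt {c : ℕ} (hc : c < 4096) : Nat.shiftLeft c 12 < 2 ^ 24 := by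
  show c <<< 12 < _
  rw [Nat.shiftLeft_eq]; omega
theorem Syn_rp {c : ℕ} (hc : c < 4096) : Syn (rp c) = c := (Syn_setOf (sh_lt hc)).trans syn_shiftLeft
/-- the syndrome of `g • s + s` -/
def ac (P c : ℕ) : ℕ := Nat.xor (syn (img24 P (Nat.shiftLeft c 12))) c
theorem Syn_ac0 {P c : ℕ} (hP : R g P) (hc : c < 4096) : Syn ((g • rp c) ∆ rp c) = ac P c := by
  rw [Syn_sd, Syn_rp hc, rp, ← hP.setOf_img, Syn_setOf (hP.img_lt _)]; rfl
theorem Syn_ac {P : ℕ} (hg : g ∈ M24) (hP : R g P) (s : Finset GolayPt) : Syn ((g • s) ∆ s) = ac P (Syn s) := by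
  rw [← Syn_ac0 hP (Syn_lt s), Syn_sd, Syn_sd, Syn_rp (Syn_lt s), (Syn_smul_eq_iff hg).2 (Syn_rp (Syn_lt s))]
/-- equal parity on all tetrads -/
noncomputable def eqp (n : ℕ) : Bool := lall (fun t => Nat.beq (Nat.mod (pc24 (Nat.land n t)) 2) (Nat.mod (pc24 (Nat.land n T4)) 2)) tetL
theorem eqp_iff {n : ℕ} : EqP (E.setOf n) ↔ eqp n = true := by
  have : EqP (E.setOf n) ↔ ∀ i, par (E.setOf n) i = par (E.setOf n) 5 := ⟨fun h i => h i 5, fun h i j => (h i).trans (h j).symm⟩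
  simp only [this, par_setOf, ZMod.natCast_eq_natCast_iff', eqp, lall_iff, Nat.beq_eq]
  exact ⟨fun h t ht => by obtain ⟨i, rfl⟩ := (show ∀ t ∈ tetL, ∃ i, tetM i = t by decide) t ht; exact h i,
    fun h i => h _ ((show ∀ i, tetM i ∈ tetL by decide) i)⟩
/-- `eqp` for syndromes -/
noncomputable def eqc (c : ℕ) : Bool := eqp (Nat.shiftLeft c 12)
theorem eqP_iff : EqP s ↔ eqc (Syn s) = true := (eqP_code (Syn_eq_iff.1 (Syn_rp (Syn_lt s)).symm)).congr.trans eqp_iff
/-- the syndromes of the sets with `EqP` -/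
def LW : List ℕ := [0, 18, 36, 54, 65, 83, 101, 119, 264, 282, 300, 318, 329, 347, 365, 383, 640, 658, 676, 694, 705, 723, 741, 759,
  904, 922, 940, 958, 969, 987, 1005, 1023, 1026, 1040, 1062, 1076, 1091, 1105, 1127, 1141, 1290, 1304, 1326, 1340,
  1355, 1369, 1391, 1405, 1666, 1680, 1702, 1716, 1731, 1745, 1767, 1781, 1930, 1944, 1966, 1980, 1995, 2009, 2031,
  2045, 2191, 2205, 2219, 2233, 2254, 2268, 2282, 2296, 2439, 2453, 2467, 2481, 2502, 2516, 2530, 2544, 2575, 2589,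
  2603, 2617, 2638, 2652, 2666, 2680, 2823, 2837, 2851, 2865, 2886, 2900, 2914, 2928, 3213, 3231, 3241, 3259, 3276,
  3294, 3304, 3322, 3461, 3479, 3489, 3507, 3524, 3542, 3552, 3570, 3597, 3615, 3625, 3643, 3660, 3678, 3688, 3706,
  3845, 3863, 3873, 3891, 3908, 3926, 3936, 3954]
/-- the even sets modulo `EqP` -/
def LV : List ℕ := [0, 3, 5, 6, 9, 10, 12, 15, 129, 130, 132, 135, 136, 139, 141, 142]
theorem W_ex (h : EqP s) : Syn s ∈ LW := by
  have := allLt2_iff.1 (show allLt2 (fun c => !eqc c || lmem c LW) 64 64 = true by decide +kernel) _ (Syn_lt s)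
  rwa [eqP_iff.1 h, Bool.not_true, Bool.false_or, lmem_iff] at this
theorem W_rp {c : ℕ} (h : c ∈ LW) : c < 4096 ∧ EqP (rp c) := by
  have := lall_iff.1 (show lall (fun c => Nat.blt c 4096 && eqc c) LW = true by decide +kernel) c h
  rw [Bool.and_eq_true, Nat.blt_eq] at this
  exact ⟨this.1, eqp_iff.2 this.2⟩
theorem E_ex (h : Even s.card) : ∃ c ∈ LV, c < 4096 ∧ EqP (s ∆ rp c) := by
  have := allLt2_iff.1 (show allLt2 (fun c => !J4.okN (Nat.shiftLeft c 12) || lany (fun e => eqc (Nat.xor c e)) LV) 64 64 = true by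
    decide +kernel) _ (Syn_lt s)
  rw [J4.okN_iff.2 ⟨sh_lt (Syn_lt s), J4.even_of_Syn_eq (Syn_rp (Syn_lt s)).symm h⟩, Bool.not_true, Bool.false_or, lany_iff] at this
  obtain ⟨c, hc, e⟩ := this
  have l := (show ∀ c ∈ LV, c < 4096 by decide) c hc
  exact ⟨c, hc, l, by rwa [eqP_iff, Syn_sd, Syn_rp l]⟩
theorem sd_act (g : Pm) (s t : Finset GolayPt) : ((g • s) ∆ s) ∆ ((g • t) ∆ t) = (g • (s ∆ t)) ∆ (s ∆ t) := by
  rw [Finset.smul_finset_symmDiff, symmDiff_symmDiff_symmDiff_comm]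

end Tm

theorem Zt.symmDiff (h : Zt s) (h' : Zt t) : Zt (s ∆ t) := by
  rw [zt_iff, zc, Bool.or_eq_true, Nat.beq_eq, Nat.beq_eq] at *
  rw [Syn_sd]
  rcases h with h | h <;> rcases h' with h' | h' <;> simp [h, h']
theorem Zt.congr (h : Zt (s ∆ t)) : Zt s ↔ Zt t :=
  ⟨fun k => by simpa using k.symmDiff h, fun k => by simpa using h.symmDiff k⟩
theorem Zt.smul (h : Zt s) (hg : g ∈ Sex) : Zt (g • s) := by
  refine h.imp (smul_mem_code hg.1).2 fun h => Syn_eq_iff.1 (((Syn_smul_eq_iff hg.1).2 (Syn_eq_iff.2 h)).trans ?_)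
  exact (mem_sextetOf.1 (hg.2.le (Finset.smul_mem_smul_finset (self_mem_sextetOf card_T4)))).2
open Classical in
theorem card_EqP : ((Finset.range 2048).filter fun c => EqP (E.setOf (repT c))).card = 128 := by
  rw [card_filter_range_eq_sum _ _ (fun c => when (eqp (repT c)) 1) fun c _ => by
    rw [eqp_iff]; cases eqp (repT c) <;> simp <;> rfl, ← sumLt2_eq _ 32 64]
  decide +kernel

/-- PROOF. The statements on the parity vectors are statements on `Perm (Fin 6)` acting on `Fin 6 → ZMod 2`. -/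
theorem trans0 (hs : Even s.card) (ht : Even t.card) (h1 : ¬ EqP s) (h2 : ¬ EqP t) :
    ∃ g ∈ Sex, sign (σ0 g) = 1 ∧ EqP ((g • s) ∆ t) := by
  obtain ⟨a, b, c, d, m, n, e⟩ := t1 _ (even_iff.1 hs) fun k => h1 fun i j => (k i).trans (k j).symm
  obtain ⟨a', b', c', d', m', n', e'⟩ := t1 _ (even_iff.1 ht) fun k => h2 fun i j => (k i).trans (k j).symm
  obtain ⟨g, hg, k⟩ := σ0_surj (.swap a' b' * .swap c' d' * (.swap a b * .swap c d)⁻¹)
  refine ⟨g, hg, by simp [k, m, n, m', n'], fun i j => ?_⟩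
  obtain ⟨i, rfl⟩ := (Equiv.swap a' b' * Equiv.swap c' d').surjective i
  obtain ⟨j, rfl⟩ := (Equiv.swap a' b' * Equiv.swap c' d').surjective j
  simp only [par_symmDiff, par_act hg, k, ← Equiv.Perm.mul_apply, mul_inv_rev (_ * _), inv_inv, inv_mul_cancel_right] at *
  have : (2 : ZMod 2) = 0 := rfl
  linear_combination e i + e' i - e j - e' j + (![1, 1, 0, 0, 0, 0] j - ![1, 1, 0, 0, 0, 0] i) * this
theorem centE0 (hg : g ∈ Sex) : σ0 g = 1 ↔ ∀ s : Finset GolayPt, Even s.card → EqP ((g • s) ∆ s) := by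
  refine ⟨fun e s _ i j => by simp [par_symmDiff, par_act hg, e, CharTwo.add_self_eq_zero], fun h => inv_eq_one.1 (t2 fun p hp => ?_)⟩
  obtain ⟨s, rfl⟩ := par_surj p
  simpa only [EqP, par_symmDiff, par_act hg] using h s (even_iff.2 hp)
theorem cE40 (hg : g ∈ Sex) (h1 : σ0 g ≠ 1) (h2 : σ0 g * σ0 g = 1) (h3 : sign (σ0 g) = 1) :
    ∃ s t : Finset GolayPt, Even s.card ∧ Even t.card ∧ ∀ r : Finset GolayPt, Even r.card → EqP ((g • r) ∆ r) →
      EqP r ∨ EqP (r ∆ s) ∨ EqP (r ∆ t) ∨ EqP (r ∆ s ∆ t) := by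
  obtain ⟨p, q, a, b, k⟩ := t3 h1 h2 h3
  obtain ⟨s, rfl⟩ := par_surj p
  obtain ⟨t, rfl⟩ := par_surj q
  refine ⟨s, t, even_iff.2 a, even_iff.2 b, fun r hr e => ?_⟩
  simp only [EqP, par_symmDiff, par_act hg, inv_eq_of_mul_eq_one_right h2] at e ⊢
  exact k _ (even_iff.1 hr) e

theorem X6_W (hx : x ∈ X6) (hs : EqP s) : Zt ((x • s) ∆ s) := by
  obtain ⟨P, hP, k⟩ := allX (p := fun P => lall (fun c => zc (ac P c)) LW) (by decide +kernel) hx
  rw [zt_iff, Syn_ac (X6_le hx).1 hP]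
  exact lall_iff.1 k _ (W_ex hs)
theorem cent_W (hx : x ∈ X6) (h : ∀ s, EqP s → (x • s) ∆ s ∈ Code) : x = 1 := by
  obtain ⟨P, hP, k⟩ := allX (p := fun P => Nat.beq P one24 || lany (fun c => !Nat.beq (ac P c) 0) LW) (by decide +kernel) hx
  rw [Bool.or_eq_true, Nat.beq_eq, lany_iff] at k
  refine k.elim (eq_one hP) fun ⟨c, hc, k⟩ => ?_
  rw [← Syn_ac0 hP (W_rp hc).1, code_iff.1 (h _ (W_rp hc).2)] at k
  exact absurd k (by decide)
theorem cent_X6 (hs : EqP s) (h : ∀ x ∈ X6, (x • s) ∆ s ∈ Code) : Zt s := by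
  have := lall_iff.1 (show lall (fun c => zc c || lany (fun P => !Nat.beq (ac P c) 0) gSexO2) LW = true by decide +kernel) _ (W_ex hs)
  rw [Bool.or_eq_true, ← zt_iff, lany_iff] at this
  refine this.elim id fun ⟨P, hP, k⟩ => ?_
  obtain ⟨x, hx, hP⟩ := gSexO2_in.toGrp P hP
  rw [← Syn_ac (X6_le hx).1 hP, code_iff.1 (h x hx)] at k
  exact absurd k (by decide)
theorem fpf_W (hs : EqP s) (h : Zt ((y0 • s) ∆ s)) : Zt s := by
  have := lall_iff.1 (show lall (fun c => zc c || !zc (ac Y c)) LW = true by decide +kernel) _ (W_ex hs)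
  rwa [← Syn_ac y0_mem.1 RY, zt_iff.1 h, Bool.not_true, Bool.or_false, ← zt_iff] at this
/-- some elements of the sextet group -/
def Tm.LC : List ℕ := [764867679772360234098852559910841736, 29048554731003109874463750605800535, 107231423804060442266000604455558145,
  93834433952292601709161418748124161, 854985452602965042424702710276341034, 793143285281689943807831288339700949,
  900917678779041330558470627015401062, 764958208857512809525578011295392108, 105481650484998290983232060097223681,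
  915445545138538304017926223955562928, 144885711969515441871110737540200625, 24840496363859016890177502494262359,
  94897800395042698151971974821403649, 631393564422540259954674285266708788, 915436679385197701173208100980766212,
  179266752712780469122058923847369142, 62932062343305149260328739488073751]
theorem Tm.inC : AllI Sex LC := (AllI.ofM (by decide +kernel)).sex le_rfl T4 (by decide +kernel)
/-- those commuting with `P` -/
noncomputable def Tm.cC (P : ℕ) : List ℕ := lfilter (fun C => Nat.beq (comp24 C P) (comp24 P C)) LC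
theorem Tm.mem_cC {P C : ℕ} (hP : R x P) (h : C ∈ cC P) : ∃ c ∈ Sex, c * x = x * c ∧ R c C := by
  rw [cC, lfilter_eq, List.mem_filter, Nat.beq_eq] at h
  obtain ⟨c, hc, hC⟩ := inC C h.1
  exact ⟨c, hc, (R.comp24_eq_iff hC hP hP hC).1 h.2, hC⟩
/-- PROOF. `Sex` has two orbits on `X6 ∖ 1`: that of `x4 = pm 5989235823820259689967313196876887` (45 elements, 8
fixed points; centralised by `pm 734763341182251380309608318420826213`, `pm 564798496043830724908559190056818832`)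
and that of `x6 = pm 5447382388983081592886053788877911` (18 elements, no fixed point; centralised by
`pm 321319147611758097645328283984272051`, `pm 894739886469816917790386112394698342`). The two elements suffice. -/
theorem fix_W (hx : x ∈ X6) (h1 : x ≠ 1) (hs : EqP s) (h : ∀ c ∈ Sex, c * x = x * c → Zt ((c • s) ∆ s)) : Zt s := by
  obtain ⟨P, hP, k⟩ := allX (p := fun P => Nat.beq P one24 || forceL (cC P) fun L =>
    lall (fun c => zc c || lany (fun C => !zc (ac C c)) L) LW) (by decide +kernel) hx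
  rw [Bool.or_eq_true, Nat.beq_eq, forceL_eq, lall_iff] at k
  have := k.resolve_left (fun e => h1 (eq_one hP e)) _ (W_ex hs)
  rw [Bool.or_eq_true, ← zt_iff, lany_iff] at this
  refine this.elim id fun ⟨C, hC, k⟩ => ?_
  obtain ⟨c, hc, e, hC⟩ := mem_cC hP hC
  rw [← Syn_ac hc.1 hC, zt_iff.1 (h c hc e)] at k
  exact absurd k (by decide)
theorem fix_E (hx : x ∈ X6) (h1 : (fixS x).card = 0) (hs : Even s.card)
    (h : ∀ c ∈ Sex, c * x = x * c → EqP ((c • s) ∆ s)) : EqP s := by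
  obtain ⟨P, hP, k⟩ := allX (p := fun P => !Nat.beq (pc24 (fixM P)) 0 || forceL (cC P) fun L =>
    lall (fun c => eqc c || lany (fun C => !eqc (ac C c)) L) LV) (by decide +kernel) hx
  obtain ⟨d, hd, l, e⟩ := E_ex hs
  rw [← hP.card_fixS, h1, forceL_eq, Nat.beq_refl, Bool.not_true, Bool.false_or] at k
  have := lall_iff.1 k d hd
  rw [Bool.or_eq_true, lany_iff] at this
  refine this.elim (fun k => e.congr.2 (eqp_iff.2 k)) fun ⟨C, hC, k⟩ => ?_
  obtain ⟨c, hc, f, hC⟩ := mem_cC hP hC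
  rw [← Syn_ac0 hC l, eqP_iff.1 ((EqP.congr (sd_act .. ▸ (e.smul hc).symmDiff e)).1 (h c hc f))] at k
  exact absurd k (by decide)
theorem Tm.zt_ac (hx : x ∈ X6) {P c : ℕ} (hP : R x P) (l : c < 4096) (e : EqP (s ∆ rp c)) :
    Zt ((x • s) ∆ s) ↔ zc (ac P c) = true := by
  rw [Zt.congr (sd_act .. ▸ X6_W hx e), zt_iff, Syn_ac0 hP l]
theorem rkE0 (hs : Even s.card) (h : ¬ EqP s) : {x | x ∈ X6 ∧ Zt ((x • s) ∆ s)}.ncard = 4 := by
  obtain ⟨d, hd, l, e⟩ := E_ex hs
  have := lall_iff.1 (show lall (fun c => eqc c || Nat.beq (sumP24 PC.cTrue (fun P => when (zc (ac P c)) 1) lvX [] one24) 4) LV = true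
    by decide +kernel) d hd
  rw [Bool.or_eq_true, Nat.beq_eq, ← lvlX.count0 (Snd.cTrue fun x => Zt ((x • rp d) ∆ rp d)) fun g P hP =>
    when_spec (by rw [zt_iff, Syn_ac0 hP l])] at this
  rw [← this.resolve_left fun k => h (e.congr.2 (eqp_iff.2 k))]
  exact congrArg _ (Set.ext fun x => and_congr_right fun hx => Zt.congr (sd_act .. ▸ X6_W hx e))
theorem four0 (hs : Even s.card) (ht : Even t.card) (h1 : ¬ EqP s) (h2 : ¬ EqP t) (h3 : ¬ EqP (s ∆ t))
    (hx : x ∈ X6) (e1 : Zt ((x • s) ∆ s)) (e2 : Zt ((x • t) ∆ t)) : x = 1 := by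
  obtain ⟨P, hP, k⟩ := allX (p := fun P => Nat.beq P one24 || forceL (lfilter (fun c => !eqc c && zc (ac P c)) LV) fun L =>
    lall (fun c => lall (fun d => eqc (Nat.xor c d)) L) L) (by decide +kernel) hx
  obtain ⟨c, hc, l, e⟩ := E_ex hs
  obtain ⟨d, hd, l', e'⟩ := E_ex ht
  rw [Bool.or_eq_true, Nat.beq_eq, forceL_eq, lfilter_eq] at k
  refine k.elim (eq_one hP) fun k => (h3 ?_).elim
  have m : ∀ {s c}, c ∈ LV → c < 4096 → EqP (s ∆ rp c) → ¬ EqP s → Zt ((x • s) ∆ s) →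
      c ∈ LV.filter fun c => !eqc c && zc (ac P c) := fun hc l e n z => List.mem_filter.2 ⟨hc, by
    rw [(zt_ac hx hP l e).1 z, Bool.and_true, Bool.not_eq_true', ← Bool.not_eq_true]
    exact fun k => n (e.congr.2 (eqp_iff.2 k))⟩
  refine (EqP.congr (symmDiff_symmDiff_symmDiff_comm s _ t _ ▸ e.symmDiff e')).2 ?_
  rw [eqP_iff, Syn_sd, Syn_rp l, Syn_rp l']
  exact lall_iff.1 (lall_iff.1 k c (m hc l e h1 e1)) d (m hd l' e' h2 e2)
/-- PROOF. Take for `s` a duad `d` inside a tetrad `T`: `g • d` is `d` or `T ∖ d`. So `σ0 g = 1`, `g = x y0 ^ i`,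
and `fpf_W`. -/
theorem cW0 (hg : g ∈ Sex) (h : ∀ s, EqP s → Zt ((g • s) ∆ s)) : g ∈ X6 := by
  have f : g ∈ FixF (sex T4) := (σ0_F hg).1 (Equiv.ext fun i => by_contra fun n => by
    obtain ⟨d, a, b⟩ := Finset.exists_subset_card_eq (s := tet i) (n := 2) (by
      rw [(mem_sextetOf.1 (mem_sex.2 ⟨i, rfl⟩)).1]; decide)
    have c : ∀ j, j ≠ i → d ∩ tet j = ∅ := fun j e =>
      Finset.subset_empty.1 ((Finset.inter_subset_inter_right a).trans (tet_inter e.symm).le)
    have e : g • d ∩ tet i = ∅ := Finset.subset_empty.1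
      ((Finset.inter_subset_inter_right (tet_smul hg i ▸ Finset.smul_finset_subset_smul_finset a)).trans (tet_inter n).le)
    have c4 := card_symmDiff_add (g • d) d
    rw [Finset.subset_empty.1 ((Finset.inter_subset_inter_left a).trans e.le), Finset.card_smul_finset, b] at c4
    have p : ∀ j, par d j = 0 := fun j => by
      by_cases k : j = i
      · rw [k, par, Finset.inter_eq_left.2 a, b]; rfl
      · rw [par, c j k]; rfl
    rcases h d fun i j => (p i).trans (p j).symm with z | z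
    · have := card_of_mem_code z
      simp at c4; omega
    · obtain ⟨j, z⟩ := mem_sex.1 (mem_sextetOf.2 ⟨c4, Syn_eq_iff.2 z⟩)
      have k : tet j ∩ tet i = d := by
        rw [z, show _ ∩ tet i = _ from inf_symmDiff_distrib_right _ _ _, Finset.inf_eq_inter, Finset.inf_eq_inter, e,
          Finset.inter_eq_left.2 a]; exact bot_symmDiff d
      by_cases l : j = i
      · rw [← k, l, Finset.inter_self, (mem_sextetOf.1 (mem_sex.2 ⟨i, rfl⟩)).1] at b; omega
      · rw [← k, tet_inter l] at b; simp at b)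
  obtain ⟨P, hP, k⟩ := allF (p := fun P => Nat.beq (comp24 P P) one24 || lany (fun c => !zc (ac P c)) LW) (by decide +kernel) f
  rw [Bool.or_eq_true, Nat.beq_eq, hP.comp24_eq_one_iff hP, lany_iff] at k
  refine k.elim (fun k => mem_X6.2 ⟨f, k⟩) fun ⟨c, hc, k⟩ => ?_
  rw [← Syn_ac0 hP (W_rp hc).1, zt_iff.1 (h _ (W_rp hc).2)] at k
  exact absurd k (by decide)
/-- PROOF. `g ^ 4 ≡ g` modulo `X6` has order 1 or 3, so is conjugate in `Sex` into the Sylow subgroup `⟨a, b⟩` of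
`yder0`; each of its 24 elements outside `⟨y0⟩` fixes modulo `Zt` some `s` with `EqP s`, `¬ Zt s`. -/
theorem three0 (hg : g ∈ Sex) (h3 : g ^ 3 ∈ X6) (h : ∀ s, EqP s → Zt ((g • s) ∆ s) → Zt s) : σ0 g = 1 := by
  have key : ∀ A, I Sex A → allP24 PC.cTrue (fun P => force (comp24 A P) fun Q => lany (fun c => !zc c && zc (ac Q c)) LW)
      lvF [] one24 = true → ¬ ∃ ρ, ρ * σ0 (pm A) * ρ⁻¹ = σ0 g := by
    rintro A hA k ⟨ρ, e⟩
    obtain ⟨u, hu, rfl⟩ := σ0_surj ρ
    have m := mul_mem (inv_mem hA.permOf_mem) (mul_mem (mul_mem (inv_mem hu) hg) hu)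
    obtain ⟨P, hP, k⟩ := allF k ((σ0_F m).1 (by
      rw [σ0_mul (inv_mem hA.permOf_mem) (mul_mem (mul_mem (inv_mem hu) hg) hu), σ0_mul (mul_mem (inv_mem hu) hg) hu,
        σ0_mul (inv_mem hu) hg, σ0_inv hu, σ0_inv hA.permOf_mem, ← e]; group))
    replace hP := R.mul hA.rep hP
    rw [mul_inv_cancel_left] at hP
    rw [force_eq, lany_iff] at k
    obtain ⟨c, hc, k⟩ := k
    rw [Bool.and_eq_true, ← Syn_ac0 hP (W_rp hc).1, ← zt_iff, Bool.not_eq_true', ← Bool.not_eq_true, ← Syn_rp (W_rp hc).1,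
      ← zt_iff, Syn_rp (W_rp hc).1] at k
    have := (h _ ((W_rp hc).2.smul hu) (by
      simpa only [Finset.smul_finset_symmDiff, mul_smul, smul_inv_smul] using k.2.smul hu)).smul (inv_mem hu)
    rw [inv_smul_smul] at this
    exact k.1 this
  have := t4 (a := σ0 (pm A3)) (b := σ0 (pm B3)) ((map_pow σH ⟨g, hg⟩ 3).symm.trans ((σ0_F (pow_mem hg 3)).2 (mem_X6.1 h3).1))
    (by rw [σA]; decide +kernel) (by rw [σB]; decide +kernel) (by rw [σA]; decide +kernel) (by rw [σB]; decide +kernel)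
  exact this.resolve_right (not_or.2 ⟨key _ inA (by decide +kernel), key _ inB (by decide +kernel)⟩)
theorem nwc0 : ∃ s : Finset GolayPt, s.card = 4 ∧ EqP s ∧ s ∆ E.setOf T4 ∉ Code := by
  refine ⟨E.setOf 43, (card_setOf _).trans (by decide +kernel), eqp_iff.2 (by decide +kernel), ?_⟩
  rw [← E.setOf_xor, setOf_mem_code_iff (by decide)]
  decide +kernel

end CL.VM
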