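/- Type T: construction of `Q`. -/
import Cfsg.Agent.SPOR.VM.TM
import Cfsg.Agent.SPOR.VM.Rk

set_option autoImplicit false

namespace CL.VM
open Subgroup Cfsg Cfsg.Spor CL.Golay
open CL.MAut (Pm)
open scoped Pointwise symmDiff

variable {G : Type*} [Group G] {V : Subgroup G} {θ : Finset GolayPt → G} {π : G → Pm}

theorem VD.θ_Zt (h : VT V θ π) {s : Finset GolayPt} (hs : Even s.card) :
    θ s ∈ zpowers (θ (E.setOf T4)) ↔ Zt s := by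
  rw [LX.mem_zpowers_of_sq (h.θ_sq J4.even_T4), h.θ_one s hs, h.θ_eq_iff hs J4.even_T4, Zt]

/-- the subgroup `W` -/
theorem VD.exists_W (h : VT V θ π) : ∃ W ≤ V, ∀ s, Even s.card → (θ s ∈ W ↔ EqP s) := by
  refine ⟨{ carrier := {v | ∃ s, EqP s ∧ θ s = v}, one_mem' := ⟨∅, eqP_code empty_mem_code, h.θ_empty⟩
            mul_mem' := ?_, inv_mem' := ?_ }, ?_, fun s hs => ⟨?_, fun e => ⟨s, e, rfl⟩⟩⟩
  · rintro _ _ ⟨s, hs, rfl⟩ ⟨t, ht, rfl⟩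
    exact ⟨_, hs.symmDiff ht, h.θ_mul s hs.even t ht.even⟩
  · rintro _ ⟨s, hs, rfl⟩
    exact ⟨s, hs, (h.inv_V (h.θ_mem hs.even)).symm⟩
  · rintro _ ⟨s, hs, rfl⟩
    exact h.θ_mem hs.even
  · rintro ⟨t, ht, e⟩
    exact (eqP_code ((h.θ_eq_iff ht.even hs).1 e)).congr.1 ht

namespace Tq

theorem sq_lift (h : VT V θ π) {a b : G} (ha : a ∈ normalizer (V : Set G)) (hb : b ∈ normalizer (V : Set G))
    (e : π a = π b) : ∃ t : Finset GolayPt, Even t.card ∧ b = θ t * a ∧ b * b = θ ((π a • t) ∆ t) * (a * a) := by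
  obtain ⟨t, ht, k⟩ := (h.mem_V _).1 ((h.π_eq_iff (inv_mem hb) (inv_mem ha)).1 (by rw [h.π_inv ha, h.π_inv hb, e]))
  rw [inv_inv, ← mul_inv_eq_iff_eq_mul, inv_inv] at k
  refine ⟨t, ht, k.symm, ?_⟩
  rw [symmDiff_comm, h.θ_mul t ht _ (J4.even_smul _ ht), ← h.conj a ha t ht, ← k]; group

theorem conj_sq (h : VT V θ π) {a : G} (ha : a ∈ normalizer (V : Set G)) {s : Finset GolayPt} (hs : Even s.card)
    (e : θ s = a * a) {c : Pm} (hc : c ∈ M24) (f : c * π a = π a * c) : ∃ k ∈ normalizer (V : Set G), π k = c ∧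
      ∃ t : Finset GolayPt, Even t.card ∧ k * a * k⁻¹ = θ t * a ∧ θ ((c • s) ∆ s) = θ ((π a • t) ∆ t) := by
  obtain ⟨k, hk, rfl⟩ := h.π_surj c hc
  obtain ⟨t, ht, p, q⟩ := sq_lift h ha (mul_mem (mul_mem hk ha) (inv_mem hk)) (by rw [h.π_conj hk ha, f, mul_inv_cancel_right])
  refine ⟨k, hk, rfl, t, ht, p, ?_⟩
  rw [h.θ_mul _ (J4.even_smul _ hs) s hs, ← h.conj k hk s hs, e, ← conj_mul, q, ← e, mul_assoc, h.θ_sq hs, mul_one]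

theorem sq_θ (h : VT V θ π) {a : G} (ha : a ∈ h.pre X6) : ∃ s : Finset GolayPt, Even s.card ∧ θ s = a * a := by
  have n := (h.mem_pre.1 ha).1
  exact (h.mem_V _).1 ((h.π_one _ (mul_mem n n)).1 ((h.π_mul a n a n).trans (X6_sq (h.mem_pre.1 ha).2)))

theorem σ0_X {x : Pm} (hx : x ∈ X6) : σ0 x = 1 := (σ0_one (X6_le hx)).2 (mem_sup_left hx)

theorem abs0 {K : Type*} [Group K] (A : Subgroup K) [n : A.Normal] (sq : ∀ a ∈ A, a * a = 1) {y : K} (y3 : y ^ 3 = 1)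
    (io : ∀ k, k * y * k⁻¹ * y⁻¹ ∈ A ∨ k * y * k⁻¹ * y ∈ A) : ∃ Q : Subgroup K, Q.Normal ∧
      (∀ a, a ∈ Q ↔ a ∈ A ∧ a * (y * a * y⁻¹) * (y ^ 2 * a * (y ^ 2)⁻¹) = 1) ∧ ∀ a ∈ A, a * (y * a * y⁻¹) ∈ Q := by
  have iv : ∀ a ∈ A, a⁻¹ = a := fun a ha => inv_eq_of_mul_eq_one_right (sq a ha)
  have cm : ∀ {a b}, a ∈ A → b ∈ A → Commute a b := fun {a b} ha hb => by
    rw [Commute, SemiconjBy, ← iv _ (mul_mem ha hb), mul_inv_rev, iv a ha, iv b hb]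
  have y4 : (y ^ 2) ^ 2 = y := by rw [← pow_mul, show 2 * 2 = 3 + 1 from rfl, pow_succ, y3, one_mul]
  refine ⟨{ carrier := {a | a ∈ A ∧ a * (y * a * y⁻¹) * (y ^ 2 * a * (y ^ 2)⁻¹) = 1}, one_mem' := ⟨one_mem _, by group⟩
            mul_mem' := fun {a b} ha hb => ⟨mul_mem ha.1 hb.1, ?_⟩, inv_mem' := fun {a} ha => by rwa [iv a ha.1] },
    ⟨fun a ha k => ⟨n.conj_mem a ha.1 k, ?_⟩⟩, fun _ => Iff.rfl, fun a ha => ⟨mul_mem ha (n.conj_mem a ha y), ?_⟩⟩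
  · rw [← conj_mul, ← conj_mul, (cm hb.1 (n.conj_mem a ha.1 y)).mul_mul_mul_comm,
      (cm (mul_mem hb.1 (n.conj_mem b hb.1 y)) (n.conj_mem a ha.1 _)).mul_mul_mul_comm, ha.2, hb.2, mul_one]
  · obtain ⟨z, hz, u, hu, e⟩ : ∃ z, (z = y ∨ z = y ^ 2) ∧ ∃ u ∈ A, y = k * (u * z) * k⁻¹ := by
      rcases io k⁻¹ with e | e
      · exact ⟨y, .inl rfl, _, e, by group⟩
      · exact ⟨_, .inr rfl, _, e, by rw [mul_assoc _ y, ← pow_succ', y3]; group⟩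
    have key : ∀ b ∈ A, y * (k * b * k⁻¹) * y⁻¹ = k * (z * b * z⁻¹) * k⁻¹ := fun b hb => by
      rw [← mul_inv_eq_iff_eq_mul.2 (cm hu (n.conj_mem b hb z)).eq, e]; group
    rw [show y ^ 2 * (k * a * k⁻¹) * (y ^ 2)⁻¹ = y * (y * (k * a * k⁻¹) * y⁻¹) * y⁻¹ by rw [pow_two]; group, key a ha.1,
      key _ (n.conj_mem a ha.1 z), conj_mul, conj_mul, conj_eq_one_iff,
      show z * (z * a * z⁻¹) * z⁻¹ = z ^ 2 * a * (z ^ 2)⁻¹ by rw [pow_two]; group]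
    rcases hz with rfl | rfl
    · exact ha.2
    · rw [y4, mul_assoc, (cm (n.conj_mem a ha.1 _) (n.conj_mem a ha.1 y)).eq, ← mul_assoc, ha.2]
  · calc _ = a * (y * (a * a) * y⁻¹) * (y ^ 2 * (a * a) * (y ^ 2)⁻¹) * (y ^ 3 * a * (y ^ 3)⁻¹) := by group
      _ = 1 := by rw [y3, sq a ha]; simpa using sq a ha

theorem abs1 {W Y H : Subgroup G} (WH : H ≤ normalizer (W : Set G)) (YH : H ≤ normalizer (Y : Set G)) (hY : Y ≤ H)
    (hW : W ≤ Y) (sq : ∀ a ∈ Y, a * a ∈ W) {y : G} (hy : y ∈ H) (y3 : y ^ 3 = 1)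
    (io : ∀ k ∈ H, k * y * k⁻¹ * y⁻¹ ∈ Y ∨ k * y * k⁻¹ * y ∈ Y) : ∃ Q : Subgroup G, H ≤ normalizer (Q : Set G) ∧
      (∀ a, a ∈ Q ↔ a ∈ Y ∧ a * (y * a * y⁻¹) * (y ^ 2 * a * (y ^ 2)⁻¹) ∈ W) ∧ ∀ a ∈ Y, a * (y * a * y⁻¹) ∈ Q := by
  have := (normal_subgroupOf_iff_le_normalizer (hW.trans hY)).2 WH
  have := (normal_subgroupOf_iff_le_normalizer hY).2 YH
  let φ := QuotientGroup.mk' (W.subgroupOf H)
  have := Normal.map this φ (QuotientGroup.mk'_surjective _)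
  have m : ∀ a : H, φ a ∈ (Y.subgroupOf H).map φ ↔ a.1 ∈ Y := fun a => by
    rw [← mem_comap, comap_map_eq_self (by rw [QuotientGroup.ker_mk']; exact subgroupOf_mono _ hW), mem_subgroupOf]
  obtain ⟨Q, n, p, q⟩ := abs0 ((Y.subgroupOf H).map φ) (y := φ ⟨y, hy⟩)
    (by rintro _ ⟨a, ha, rfl⟩; exact (QuotientGroup.eq_one_iff (a * a)).2 (sq a ha))
    (by rw [← map_pow, show (⟨y, hy⟩ : H) ^ 3 = 1 from Subtype.ext y3, map_one]) fun k => by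
      obtain ⟨k, rfl⟩ := QuotientGroup.mk'_surjective _ k
      exact (io k k.2).imp (m (k * ⟨y, hy⟩ * k⁻¹ * (⟨y, hy⟩ : H)⁻¹)).2 (m (k * ⟨y, hy⟩ * k⁻¹ * ⟨y, hy⟩)).2
  refine ⟨(Q.comap φ).map H.subtype, le_normalizer_iff.2 ?_, fun a => ⟨?_, fun k => ⟨⟨a, hY k.1⟩, (p _).2 ⟨(m _).2 k.1, ?_⟩, rfl⟩⟩,
    fun a ha => ⟨_, q _ ((m ⟨a, hY ha⟩).2 ha), rfl⟩⟩
  · rintro k hk _ ⟨a, ha, rfl⟩
    exact ⟨_, (n.comap φ).conj_mem a ha ⟨k, hk⟩, rfl⟩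
  · rintro ⟨a, ha, rfl⟩
    exact ⟨(m a).1 ((p _).1 ha).1, (QuotientGroup.eq_one_iff (N := W.subgroupOf H)
      (a * ((⟨y, hy⟩ : H) * a * (⟨y, hy⟩ : H)⁻¹) * ((⟨y, hy⟩ : H) ^ 2 * a * ((⟨y, hy⟩ : H) ^ 2)⁻¹))).1 ((p _).1 ha).2⟩
  · exact (QuotientGroup.eq_one_iff (N := W.subgroupOf H)
      (⟨a, hY k.1⟩ * (⟨y, hy⟩ * ⟨a, hY k.1⟩ * (⟨y, hy⟩ : H)⁻¹) *
        ((⟨y, hy⟩ : H) ^ 2 * ⟨a, hY k.1⟩ * ((⟨y, hy⟩ : H) ^ 2)⁻¹))).2 k.2

end Tq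
open Tq

/-- PROOF. `x = π a`, `a ^ 2 = θ s`. For `v = θ t`, `(a v) ^ 2 = a ^ 2 [a, v]` up to order and `EqP (x • t ∆ t)`
(`centE0`), so the class of `a ^ 2` modulo `W` depends on `x` only. If `x` has fixed points use `lift`. Otherwise for
`c ∈ Sex` commuting with `x` and a lift `k`, `k a k⁻¹` is another lift of `x`, with square `θ (c • s)`; `fix_E`. -/
theorem VD.sq_Y (h : VT V θ π) {W : Subgroup G} (hW : ∀ s, Even s.card → (θ s ∈ W ↔ EqP s)) {a : G}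
    (ha : a ∈ h.pre X6) : a * a ∈ W := by
  obtain ⟨n, hx⟩ := h.mem_pre.1 ha
  have c : ∀ t : Finset GolayPt, Even t.card → θ ((π a • t) ∆ t) ∈ W := fun t ht =>
    (hW _ (J4.even_symmDiff (J4.even_smul _ ht) ht)).2 ((centE0 (X6_le hx)).1 (σ0_X hx) t ht)
  by_cases f : (fixS (π a)).card = 0
  · obtain ⟨s, hs, e⟩ := sq_θ h ha
    refine e ▸ (hW s hs).2 (fix_E hx f hs fun d hd k => ?_)
    obtain ⟨k, -, -, t, ht, -, q⟩ := conj_sq h n hs e hd.1 k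
    exact (hW _ (J4.even_symmDiff (J4.even_smul _ hs) hs)).1 (q ▸ c t ht)
  · obtain ⟨b, hb, e, b2⟩ := h.lift (X6_le hx).1 (X6_sq hx) f
    obtain ⟨t, ht, -, q⟩ := sq_lift h hb n e
    rw [q, b2, mul_one, e]
    exact c t ht

/-- PROOF. `y` is a lift of `y0` of order 3 (`exists_lift_odd`), `Y = h.pre X6`, `H = h.pre Sex` (`centT`). `Y / W` is
elementary abelian (`sq_Y`), `t a = a (y a y⁻¹) (y² a y⁻²) ∈ V` (`X6_trace`) is multiplicative modulo `W`, and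
`t v ≡ v ^ 3 = v` for `v ∈ V` (`centE0` for `y0`). Put `Q = {a ∈ Y | t a ∈ W}`; for `a ∈ Y` we have `a * t a ∈ Q`.
For `k ∈ H`, `k⁻¹ y k = y ^ (± 1) u` with `u ∈ Y` (`inner0`, `outer0`) acts on `Y / W` as `y ^ (± 1)`, so `k`
normalises `Q`. Squares: for `a ∈ Q` the class of `a ^ 2 = θ s` modulo `⟨z⟩` depends on `π a` only (`X6_W`; two lifts
in `Q` differ by an element of `W`); `fix_W`. -/
theorem VD.exists_tq (h : VT V θ π) : ∃ Q y, TQ V Q θ π y := by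
  obtain ⟨W, WV, hW⟩ := h.exists_W
  obtain ⟨y, yN, πy, y3⟩ := h.exists_lift_odd y0_mem.1 (by decide) y0_cube
  obtain ⟨Q, n, p, q⟩ := abs1 (W := W) (Y := h.pre X6) (H := h.pre Sex) (le_normalizer_iff.2 fun k hk w hw => by
      obtain ⟨s, hs, rfl⟩ := (h.mem_V w).1 (WV hw)
      rw [h.conj k (h.mem_pre.1 hk).1 s hs]
      exact (hW _ (J4.even_smul _ hs)).2 (((hW s hs).1 hw).smul (h.mem_pre.1 hk).2))
    (le_normalizer_iff.2 fun k hk a ha => by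
      rw [h.mem_pre] at *
      exact ⟨mul_mem (mul_mem hk.1 ha.1) (inv_mem hk.1), h.π_conj hk.1 ha.1 ▸ X6_conj hk.2 ha.2⟩)
    (fun a ha => h.mem_pre.2 ⟨(h.mem_pre.1 ha).1, X6_le (h.mem_pre.1 ha).2⟩) (WV.trans (h.V_le_pre _))
    (fun a => h.sq_Y hW) (h.mem_pre.2 ⟨yN, πy ▸ y0_mem⟩) y3 fun k hk => by
      obtain ⟨hk, s⟩ := h.mem_pre.1 hk
      have m := mul_mem (mul_mem hk yN) (inv_mem hk)
      rw [h.mem_pre, h.mem_pre, h.π_mul _ m _ yN, h.π_mul _ m _ (inv_mem yN), h.π_conj hk yN, h.π_inv yN, πy]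
      exact (em _).imp (fun e => ⟨mul_mem m (inv_mem yN), inner0 s e⟩) fun e => ⟨mul_mem m yN, outer0 s e⟩
  have θi : ∀ s : Finset GolayPt, Even s.card → (θ s ∈ Q ↔ EqP s) := fun s hs => by
    have a := J4.even_smul y0 hs
    have b := J4.even_smul (y0 ^ 2) hs
    rw [p, and_iff_right (h.V_le_pre _ (h.θ_mem hs)), h.conj y yN s hs, h.conj _ (pow_mem yN 2) s hs, h.π_pow yN, πy,
      ← h.θ_mul s hs _ a, ← h.θ_mul _ (J4.even_symmDiff hs a) _ b, hW _ (J4.even_symmDiff (J4.even_symmDiff hs a) b)]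
    have c := (σ0_one y0_mem).2 (mem_sup_right (mem_zpowers _))
    simp [EqP, par_symmDiff, sq, mul_smul, Tm.par_act y0_mem, c, CharTwo.add_self_eq_zero]
  refine ⟨Q, y, fun a ha => h.mem_pre.1 ((p a).1 ha).1, fun x hx => ?_, θi, yN, πy, y3, h.centT.trans_le n, fun a ha => ?_⟩
  · obtain ⟨a, ha, e⟩ := h.π_surj _ (X6_le (X6_conj y0_mem hx)).1
    refine ⟨_, q a (h.mem_pre.2 ⟨ha, e ▸ X6_conj y0_mem hx⟩), ?_⟩
    rw [h.π_mul a ha _ (mul_mem (mul_mem yN ha) (inv_mem yN)), h.π_conj yN ha, e, πy,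
      ← inv_eq_of_mul_eq_one_right (X6_sq hx), eq_inv_iff_mul_eq_one, mul_eq_one_comm, inv_eq_of_mul_eq_one_right (X6_sq hx),
      ← X6_trace hx]
    group
  · have hY := ((p a).1 ha).1
    obtain ⟨hn, hx⟩ := h.mem_pre.1 hY
    by_cases x1 : π a = 1
    · rw [h.sq_V ((h.π_one a hn).1 x1)]; exact one_mem _
    obtain ⟨s, hs, e⟩ := sq_θ h hY
    refine e ▸ (h.θ_Zt hs).2 (fix_W hx x1 ((hW s hs).1 (e ▸ h.sq_Y hW hY)) fun c hc l => ?_)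
    obtain ⟨k, hk, rfl, t, ht, r, q⟩ := conj_sq h hn hs e hc.1 l
    have := le_normalizer_iff.1 n k (h.mem_pre.2 ⟨hk, hc⟩) a ha
    rw [r, mul_mem_cancel_right ha, θi t ht] at this
    rw [← h.θ_Zt (J4.even_symmDiff (J4.even_smul _ hs) hs), q, h.θ_Zt (J4.even_symmDiff (J4.even_smul _ ht) ht)]
    exact X6_W hx this

end CL.VM
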