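/- Type T: the data `TD`. -/
import Cfsg.Agent.SPOR.VM.TQ1
import Cfsg.Agent.SPOR.VM.Red

set_option autoImplicit false

namespace CL.VM
open Subgroup Cfsg Cfsg.Spor CL.Golay CL.LX
open CL.MAut (Pm)
open scoped Pointwise symmDiff

variable {G : Type*} [Group G] [Finite G] {V Q : Subgroup G} {θ : Finset GolayPt → G} {π : G → Pm} {y : G}

namespace TQ
variable (h : VT V θ π) (k : TQ V Q θ π y)
include h k

omit k [Finite G] in
theorem mem_H {a : G} : a ∈ Hz V (θ (E.setOf T4)) ↔ a ∈ normalizer (V : Set G) ∧ π a ∈ Sex := by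
  rw [Hz, h.centT, h.mem_pre]
omit k [Finite G] in
theorem ev (g : Pm) {s : Finset GolayPt} (hs : Even s.card) : Even ((g • s) ∆ s).card :=
  J4.even_symmDiff (J4.even_smul _ hs) hs
omit k [Finite G] in
theorem cm' {a : G} (ha : a ∈ normalizer (V : Set G)) {s : Finset GolayPt} (hs : Even s.card) :
    θ s * a * (θ s)⁻¹ * a⁻¹ = θ ((π a • s) ∆ s) := by
  rw [← h.inv_V (h.θ_mem (ev h _ hs)), ← h.commutator_θ ha hs]; group
omit k [Finite G] in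
theorem mem_of_im {A : Subgroup G} (hA : V ≤ A) {a : G} (ha : a ∈ normalizer (V : Set G)) (e : π a ∈ h.im A) : a ∈ A := by
  obtain ⟨b, hb, n, e⟩ := h.mem_im.1 e
  exact (mul_mem_cancel_left (inv_mem hb)).1 (hA ((h.π_eq_iff n ha).1 e))
omit [Finite G] in
theorem im_eq : h.im Q = X6 := by
  ext x
  rw [h.mem_im]
  exact ⟨fun ⟨a, ha, _, e⟩ => e ▸ (k.le a ha).2, fun hx => let ⟨a, ha, e⟩ := k.surj x hx; ⟨a, ha, (k.le a ha).1, e⟩⟩
/-- PROOF. `cent_W`, `cent_X6`, `neT`. -/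
theorem es : ES Q (θ (E.setOf T4)) := by
  have s2 := h.θ_sq J4.even_T4
  have c : ∀ x ∈ Q, (∀ y ∈ Q, x * y = y * x) → x = 1 ∨ x = θ (E.setOf T4) := fun x hx c => by
    obtain ⟨s, hs, rfl⟩ := (h.mem_V x).1 ((h.π_one x (k.le x hx).1).1 (cent_W (k.le x hx).2 fun s hs =>
      (h.comm_θ_iff (k.le x hx).1 hs.even).1 (c _ ((k.θ_iff s hs.even).2 hs))))
    refine (mem_zpowers_of_sq s2).1 ((h.θ_Zt hs).2 (cent_X6 ((k.θ_iff s hs).1 hx) fun x hx => ?_))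
    obtain ⟨b, hb, rfl⟩ := k.surj x hx
    exact (h.comm_θ_iff (k.le b hb).1 hs).1 (c b hb).symm
  refine ⟨(k.θ_iff _ J4.even_T4).2 (Zt.eqP (Or.inr (by rw [symmDiff_self]; exact empty_mem_code))), h.neT, s2, fun x hx =>
    mem_centralizer_singleton_iff.1 ((mem_H h).2 ⟨(k.le x hx).1, X6_le (k.le x hx).2⟩).2, c, fun x hx y hy => ?_,
    fun x hx => (mem_zpowers_of_sq s2).1 (k.sq x hx), by_contra fun n => ?_⟩
  · have := mul_mem (mul_mem (k.sq _ (inv_mem hx)) (k.sq _ (mul_mem hx (inv_mem hy)))) (k.sq y hy)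
    refine ((mem_zpowers_of_sq s2).1 this).imp (fun e => ?_) fun e => ?_
    · rw [← mul_one (y * x), ← e]; group
    · rw [← e]; group
  · obtain ⟨s, a, b, e⟩ := nwc0
    push Not at n
    rcases c _ ((k.θ_iff s b.even).2 b) (n _ ((k.θ_iff s b.even).2 b)) with f | f
    · have := card_of_mem_code ((h.θ_one s b.even).1 f)
      omega
    · exact e ((h.θ_eq_iff b.even J4.even_T4).1 f)
/-- PROOF. `card_sub`, `card_EqP`. -/
theorem cardW : Nat.card (V ⊓ Q : Subgroup G) = 2 ^ 7 := by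
  classical
  rw [h.card_sub cdT inf_le_left (fun c => EqP (E.setOf (repT c))) fun c hc => by
    rw [mem_inf, and_iff_right (h.ψ_mem cdT hc), k.θ_iff _ (cdT.rep_mem c hc)]]
  exact card_EqP
/-- PROOF. `card_im`. -/
theorem cardQ : Nat.card Q = 2 ^ 13 := by
  rw [h.card_im fun a ha => (k.le a ha).1, inf_comm, k.cardW h, k.im_eq h, card_X6]; rfl
theorem sup_eq : V ⊔ Q = h.pre X6 := by
  refine le_antisymm (sup_le (h.V_le_pre _) fun a ha => h.mem_pre.2 (k.le a ha)) fun a ha => ?_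
  obtain ⟨n, ha⟩ := h.mem_pre.1 ha
  obtain ⟨b, hb, e⟩ := k.surj _ ha
  exact mem_of_im h le_sup_left n (h.mem_im.2 ⟨b, mem_sup_right hb, (k.le b hb).1, e⟩)
/-- PROOF. `b ∈ Cm Q Z (θ s)` iff `Zt (π b • s ∆ s)` (`commutator_θ`, `θ_Zt`); the fibres of `π` on `Q` are the
cosets of `V ⊓ Q`. -/
theorem ncard_Cm {s : Finset GolayPt} (hs : Even s.card) :
    (Cm Q (zpowers (θ (E.setOf T4))) (θ s)).ncard = 128 * {x | x ∈ X6 ∧ Zt ((x • s) ∆ s)}.ncard := by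
  let f : Q →* Pm := h.hom.comp (inclusion fun a ha => (k.le a ha).1)
  have e2 : f.ker = (V ⊓ Q).subgroupOf Q := by
    ext a
    rw [mem_subgroupOf, mem_inf, and_iff_left a.2]
    exact h.π_one a (k.le a a.2).1
  have := QuotientGroup.card_preimage_mk f.ker (QuotientGroup.kerLift f ⁻¹' {x | x ∈ X6 ∧ Zt ((x • s) ∆ s)})
  rw [Nat.card_coe_set_eq, Nat.card_coe_set_eq, Set.ncard_preimage_of_injective_subset_range (QuotientGroup.kerLift_injective f)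
    fun x hx => let ⟨a, ha, e⟩ := k.surj x hx.1; ⟨(⟨a, ha⟩ : Q), e⟩, ← Set.ncard_image_of_injective _ Subtype.val_injective] at this
  rw [show 128 = Nat.card f.ker by rw [e2, Nat.card_congr (subgroupOfEquivOfLe inf_le_right).toEquiv, k.cardW h]; rfl, ← this]
  refine congrArg _ (Set.ext fun b => ⟨fun hb => ⟨⟨b, hb.1⟩, ⟨(k.le b hb.1).2, ?_⟩, rfl⟩, ?_⟩)
  · exact (h.θ_Zt (ev h _ hs)).1 (h.commutator_θ (k.le b hb.1).1 hs ▸ hb.2)
  · rintro ⟨b, hb, rfl⟩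
    exact ⟨b.2, h.commutator_θ (k.le b b.2).1 hs ▸ (h.θ_Zt (ev h _ hs)).2 hb.2⟩
omit [Finite G] in
theorem cE {a : G} (ha : a ∈ Hz V (θ (E.setOf T4))) : σ0 (π a) = 1 ↔ ∀ v ∈ V, v * a * v⁻¹ * a⁻¹ ∈ Q := by
  obtain ⟨n, m⟩ := (mem_H h).1 ha
  rw [centE0 m]
  refine ⟨fun c v hv => ?_, fun c s hs => (k.θ_iff _ (ev h _ hs)).1 (cm' h n hs ▸ c _ (h.θ_mem hs))⟩
  obtain ⟨s, hs, rfl⟩ := (h.mem_V v).1 hv
  exact cm' h n hs ▸ (k.θ_iff _ (ev h _ hs)).2 (c s hs)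
omit [Finite G] in
theorem yH : y ∈ Hz V (θ (E.setOf T4)) := (mem_H h).2 ⟨k.yN, k.πy ▸ y0_mem⟩
/-- PROOF. `y' = v q y ^ e`, and `y` centralises `v` modulo `Q`; take cubes modulo `Q`. -/
theorem mem_of_cube {a : G} (ha : a ∈ Hz V (θ (E.setOf T4))) (h3 : a ^ 3 = 1) {e : ℤ}
    (h1 : π a * y0 ^ e ∈ X6) : a * y ^ e ∈ Q := by
  have m := mul_mem ha (zpow_mem (k.yH h) e)
  obtain ⟨b, hb, f⟩ := k.surj _ h1
  have QH : Q ≤ Hz V (θ (E.setOf T4)) := fun x hx => (mem_H h).2 ⟨(k.le x hx).1, X6_le (k.le x hx).2⟩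
  have hv : b⁻¹ * (a * y ^ e) ∈ V := (h.π_eq_iff (k.le b hb).1 m.1).1 (by
    rw [f, h.π_mul a ha.1 _ (zpow_mem k.yN e), ← k.πy]; exact congrArg _ (map_zpow h.hom ⟨y, k.yN⟩ e).symm)
  have := (normal_subgroupOf_iff_le_normalizer QH).2 k.HQ
  let φ := QuotientGroup.mk' (Q.subgroupOf (Hz V (θ (E.setOf T4))))
  have c : Commute (φ ⟨_, m⟩) (φ ⟨y, k.yH h⟩) := by
    have := (k.cE h (k.yH h)).1 (k.πy ▸ (σ0_one y0_mem).2 (mem_sup_right (mem_zpowers _))) _ hv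
    have := mul_mem (mul_mem hb this) (le_normalizer_iff.1 k.HQ y (k.yH h) _ (inv_mem hb))
    rw [← commutatorElement_eq_one_iff_commute, ← map_commutatorElement]
    refine (QuotientGroup.eq_one_iff _).2 (mem_subgroupOf.2 ?_)
    convert this using 1
    simp only [commutatorElement_def, coe_mul, InvMemClass.coe_inv]; group
  have s : φ ⟨_, m⟩ ^ 2 = 1 := by
    rw [← map_pow]
    refine (QuotientGroup.eq_one_iff _).2 (mem_subgroupOf.2 ?_)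
    convert mul_mem hb (le_normalizer_iff.1 k.HQ _ (mul_mem (inv_mem (QH hb)) m) _ hb) using 1
    rw [h.inv_V hv, coe_pow, pow_two]; group
  have t : φ ⟨_, m⟩ ^ 3 = 1 := by
    have := (c.zpow_right (-e)).mul_pow 3
    rw [← map_zpow, ← map_mul, ← map_pow, ← map_pow φ (_ ^ (-e)), show (_ : Hz V (θ (E.setOf T4))) ^ 3 = 1 from Subtype.ext (by
      simpa using h3), show ((⟨y, k.yH h⟩ : Hz V (θ (E.setOf T4))) ^ (-e)) ^ 3 = 1 from Subtype.ext (by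
      rw [coe_pow, coe_zpow, ← zpow_natCast, ← zpow_mul, mul_comm, zpow_mul, zpow_natCast, k.y3, one_zpow, coe_one])] at this
    simpa using this.symm
  rw [pow_succ, s, one_mul] at t
  exact (QuotientGroup.eq_one_iff (N := Q.subgroupOf (Hz V (θ (E.setOf T4)))) ⟨_, m⟩).1 t

/-- PROOF. Each field from the statement of `TM` with the same name; `centT`, `card_pre`, `conjT`. -/
theorem td : TD V Q (θ (E.setOf T4)) y fun a => σ0 (π a) := by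
  have z : ∀ {a s}, a ∈ normalizer (V : Set G) → Even (Finset.card s) →
      (θ s * a * (θ s)⁻¹ * a⁻¹ ∈ zpowers (θ (E.setOf T4)) ↔ Zt ((π a • s) ∆ s)) := fun ha hs => by
    rw [cm' h ha hs, h.θ_Zt (ev h _ hs)]
  have cy : ∀ {a}, a ∈ Hz V (θ (E.setOf T4)) → (a * y * a⁻¹) ^ 3 = 1 := fun _ => by rw [conj_pow, k.y3]; group
  have lift : ∀ g ∈ Sex, ∃ a ∈ Hz V (θ (E.setOf T4)), π a = g := fun g hg =>
    let ⟨a, ha, e⟩ := h.π_surj g hg.1; ⟨a, (mem_H h).2 ⟨ha, e ▸ hg⟩, e⟩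
  refine ⟨k.es h, h.θ_mem J4.even_T4, k.cardQ h, k.cardW h, by rw [Hz, h.centT, h.card_pre inf_le_left, card_Sex],
    fun a ha => (k.le a ha).1, k.HQ, k.yH h, k.y3, fun b hb => ?_, fun a ha b hb => ?_, fun τ => ?_, fun a ha => ?_,
    fun a ha e => ?_, fun a ha e => ?_, fun a ha => k.cE h ha, fun u hu u1 v hv v1 => ?_, fun a ha e1 e2 e3 => ?_,
    fun u hu v hv u1 v1 n b b1 b2 => ?_, fun v hv v1 => ?_, fun a ha c => ?_, fun a ha a3 c => ?_, ?_, ?_⟩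
  · have n := (k.le b hb.1).1
    have := (h.π_one _ (mul_mem (mul_mem (mul_mem n k.yN) (inv_mem n)) (inv_mem k.yN))).2
      (zpowers_le.2 (h.θ_mem J4.even_T4) hb.2)
    rw [h.π_mul _ (mul_mem (mul_mem n k.yN) (inv_mem n)) _ (inv_mem k.yN), h.π_conj n k.yN, h.π_inv k.yN, k.πy,
      mul_inv_eq_one, mul_inv_eq_iff_eq_mul] at this
    obtain ⟨s, hs, rfl⟩ := (h.mem_V b).1 ((h.π_one b n).1 (X6_fpf (k.le b hb.1).2 this))
    exact (h.θ_Zt hs).2 (fpf_W ((k.θ_iff s hs).1 hb.1) (k.πy ▸ (z k.yN hs).1 hb.2))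
  · rw [h.π_mul a ha.1 b hb.1, σ0_mul ((mem_H h).1 ha).2 ((mem_H h).1 hb).2]
  · obtain ⟨g, hg, rfl⟩ := σ0_surj τ
    obtain ⟨a, ha, rfl⟩ := lift g hg
    exact ⟨a, ha, rfl⟩
  · rw [σ0_one ((mem_H h).1 ha).2]
    refine ⟨fun e => mem_of_im h (le_sup_of_le_left le_sup_left) ha.1 (sup_le (fun x hx => ?_) (zpowers_le.2 ?_) e),
      fun e => (h.mem_pre.1 (sup_le (sup_le (h.V_le_pre _) fun b hb => ?_) (zpowers_le.2 ?_) e)).2⟩
    · obtain ⟨b, hb, e⟩ := k.surj x hx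
      exact h.mem_im.2 ⟨b, mem_sup_left (mem_sup_right hb), (k.le b hb).1, e⟩
    · exact h.mem_im.2 ⟨y, mem_sup_right (mem_zpowers y), k.yN, k.πy⟩
    · exact h.mem_pre.2 ⟨(k.le b hb).1, mem_sup_left (k.le b hb).2⟩
    · exact h.mem_pre.2 ⟨k.yN, k.πy ▸ mem_sup_right (mem_zpowers _)⟩
  · simpa using k.mem_of_cube h (mul_mem (mul_mem ha (k.yH h)) (inv_mem ha)) (cy ha) (e := -1) (by
      simpa [h.π_conj ha.1 k.yN, k.πy] using inner0 ((mem_H h).1 ha).2 e)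
  · simpa using k.mem_of_cube h (mul_mem (mul_mem ha (k.yH h)) (inv_mem ha)) (cy ha) (e := 1) (by
      simpa [h.π_conj ha.1 k.yN, k.πy] using outer0 ((mem_H h).1 ha).2 e)
  · obtain ⟨s, hs, rfl⟩ := (h.mem_V u).1 hu
    obtain ⟨t, ht, rfl⟩ := (h.mem_V v).1 hv
    obtain ⟨g, hg, e, f⟩ := trans0 hs ht (mt (k.θ_iff s hs).2 u1) (mt (k.θ_iff t ht).2 v1)
    obtain ⟨a, ha, rfl⟩ := lift g hg
    refine ⟨a, ha, e, ?_⟩
    rw [h.conj a ha.1 s hs, h.inv_V hv, ← h.θ_mul _ (J4.even_smul _ hs) t ht]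
    exact (k.θ_iff _ f.even).2 f
  · obtain ⟨s, t, hs, ht, c⟩ := cE40 ((mem_H h).1 ha).2 e1 e2 e3
    have l : ∀ u : G, ((· * u) '' (V ⊓ Q : Subgroup G)).ncard ≤ 2 ^ 7 := fun u =>
      (Set.ncard_image_le (Set.toFinite _)).trans ((Nat.card_coe_set_eq _).symm.trans (k.cardW h)).le
    have m : ∀ {r s}, Even (Finset.card s) → EqP (r ∆ s) → θ ((r ∆ s) ∆ s) ∈ (· * θ s) '' (V ⊓ Q : Subgroup G) := fun hs e =>
      ⟨_, ⟨h.θ_mem e.even, (k.θ_iff _ e.even).2 e⟩, (h.θ_mul _ e.even _ hs).symm⟩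
    simp only [symmDiff_symmDiff_cancel_right] at m
    refine (Set.ncard_le_ncard (t := (· * θ ∅) '' (V ⊓ Q : Subgroup G) ∪ (· * θ s) '' (V ⊓ Q : Subgroup G) ∪
      ((· * θ t) '' (V ⊓ Q : Subgroup G) ∪ (· * θ (s ∆ t)) '' (V ⊓ Q : Subgroup G))) (fun v hv => ?_)).trans
      ((Set.ncard_union_le ..).trans ((Nat.add_le_add ((Set.ncard_union_le ..).trans (Nat.add_le_add (l _) (l _)))
        ((Set.ncard_union_le ..).trans (Nat.add_le_add (l _) (l _)))).trans (by norm_num)))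
    obtain ⟨r, hr, rfl⟩ := (h.mem_V v).1 hv.1
    rcases c r hr ((k.θ_iff _ (ev h _ hr)).1 (cm' h ha.1 hr ▸ hv.2)) with e | e | e | e
    exacts [.inl (.inl (m J4.even_empty ((symmDiff_bot r).symm ▸ e))), .inl (.inr (m hs e)), .inr (.inl (m ht e)),
      .inr (.inr (m (J4.even_symmDiff hs ht) (symmDiff_assoc r s t ▸ e)))]
  · obtain ⟨s, hs, rfl⟩ := (h.mem_V u).1 hu
    obtain ⟨t, ht, rfl⟩ := (h.mem_V v).1 hv
    have n' := (k.le b b1.1).1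
    exact (h.π_one b n').1 (four0 hs ht (mt (k.θ_iff s hs).2 u1) (mt (k.θ_iff t ht).2 v1)
      (fun e => n (h.θ_mul s hs t ht ▸ (k.θ_iff _ e.even).2 e)) (k.le b b1.1).2
      ((h.θ_Zt (ev h _ hs)).1 (h.commutator_θ n' hs ▸ b1.2)) ((h.θ_Zt (ev h _ ht)).1 (h.commutator_θ n' ht ▸ b2.2)))
  · obtain ⟨s, hs, rfl⟩ := (h.mem_V v).1 hv
    rw [k.ncard_Cm h hs, rkE0 hs (mt (k.θ_iff s hs).2 v1)]; rfl
  · exact k.sup_eq h ▸ h.mem_pre.2 ⟨ha.1, cW0 ((mem_H h).1 ha).2 fun s hs =>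
      (z ha.1 hs.even).1 (c _ (h.θ_mem hs.even) ((k.θ_iff s hs.even).2 hs))⟩
  · exact three0 ((mem_H h).1 ha).2 (h.π_pow ha.1 3 ▸ (k.le _ a3).2) fun s hs e => (h.θ_Zt hs.even).1
      (c _ ⟨⟨h.θ_mem hs.even, (k.θ_iff s hs.even).2 hs⟩, (z ha.1 hs.even).2 e⟩)
  · obtain ⟨_, ha', _, hb', e1, e2, e⟩ := yder0
    obtain ⟨a, ha, rfl⟩ := lift _ ha'
    obtain ⟨b, hb, rfl⟩ := lift _ hb'
    have na := ((mem_H h).1 ha).1
    have nb := ((mem_H h).1 hb).1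
    have m := mul_mem (mul_mem (mul_mem na nb) (inv_mem na)) (inv_mem nb)
    refine ⟨a, ha, b, hb, e1, e2, mem_sup_left ((h.π_one _ (mul_mem m (inv_mem k.yN))).1 ?_)⟩
    rw [h.π_mul _ m _ (inv_mem k.yN), h.π_mul _ (mul_mem (mul_mem na nb) (inv_mem na)) _ (inv_mem nb),
      h.π_conj na nb, h.π_inv nb, h.π_inv k.yN, k.πy, e, mul_inv_cancel]
  · obtain ⟨s, a, b, e⟩ := nwc0
    obtain ⟨g, -, f⟩ := h.conjT a
    exact ⟨g, f ▸ (k.θ_iff s b.even).2 b, f ▸ fun f => e ((h.θ_eq_iff b.even J4.even_T4).1 f)⟩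

end TQ
end CL.VM
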