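/- The signalizer functor of a weakly closed elementary abelian 2-subgroup. -/
import Cfsg.Agent.SPOR.VM.W0
import Cfsg.Agent.S0217
import Cfsg.Agent.SOLV.OddOrderCor
import Cfsg.Agent.SOLV.CoprimeGen

set_option autoImplicit false

namespace CL.VM
open Subgroup CL.MSS CL.PComp

variable {X : Type*} [Group X] [Finite X] {B S A : Subgroup X}

theorem WA.compl (h : WC B S) (hA : A ≤ B) : ∃ E, A ⊓ E = ⊥ ∧ A ⊔ E = B := by
  obtain ⟨E, -, hE⟩ := Finite.exists_le_maximal (p := fun E : Subgroup X => E ≤ B ∧ A ⊓ E = ⊥) (a := ⊥)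
    ⟨bot_le, inf_bot_eq _⟩
  refine ⟨E, hE.prop.2, le_antisymm (sup_le hA hE.prop.1) fun b hb => by_contra fun hn => hn ?_⟩
  refine mem_sup_right (hE.le_of_ge (y := E ⊔ zpowers b) ⟨sup_le hE.prop.1 (zpowers_le.2 hb),
    eq_bot_iff.2 fun a ha => ?_⟩ le_sup_left (mem_sup_right (mem_zpowers b)))
  obtain ⟨e, he, _, ⟨i, rfl⟩, rfl⟩ := (mem_sup_of_normalizes_left ((zpowers_le.2 hb).trans
    ((h.le_cent hE.prop.1).trans (centralizer_le_normalizer _)))).1 ha.2
  have b2 : ∀ k : ℤ, b ^ (2 * k) = 1 := fun k => by rw [zpow_mul, zpow_two, h.sq b hb, one_zpow]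
  obtain ⟨k, rfl | rfl⟩ := Int.even_or_odd' i
  · simp only [b2, mul_one] at ha ⊢
    exact hE.prop.2.le ⟨ha.1, he⟩
  · simp only [zpow_add_one, b2, one_mul] at ha
    exact (hn ((mul_mem_cancel_left (mem_sup_right he)).1 (mem_sup_left ha.1))).elim

omit [Finite X] in
theorem WA.cent_sup (A : Subgroup X) (e : X) :
    centralizer ((A ⊔ zpowers e : Subgroup X) : Set X) = centralizer (A : Set X) ⊓ centralizer {e} := by
  refine le_antisymm (le_inf (centralizer_le (le_sup_left (a := A))) (centralizer_le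
    (Set.singleton_subset_iff.2 (mem_sup_right (mem_zpowers e))))) fun x hx => ?_
  rw [← zpowers_le, le_centralizer_iff]
  refine sup_le (le_centralizer_iff.1 (zpowers_le.2 hx.1)) (zpowers_le.2 ?_)
  rw [← zpowers_le, le_centralizer_iff, zpowers_le]
  rintro _ ⟨i, rfl⟩
  exact (Commute.zpow_left (mem_centralizer_singleton_iff.1 hx.2).symm i).eq

/-- PROOF. Choose a complement `E` of `A` in the elementary abelian group `B`, `|E| ≥ 8`. For `1 ≠ e ∈ E` put
`θ e = O(C(A ⊔ ⟨e⟩))`: odd, solvable (`isSolvable_of_odd`), `B`-invariant, inside `C(e)`. Balance: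
`θ e ⊓ C(f)` is a `B`-invariant subgroup of odd order of `C(A ⊔ ⟨f⟩)`, use `WC.le_core`. `S0217`: `Θ = ⨆ θ e` has
odd order; it is `B`-invariant and lies in `C(A)`. A `B`-invariant `F ≤ C(A)` of odd order is generated by the
`C_F(e) ≤ θ e` (coprime action of the non-cyclic group `E`; `cf search` "iSup centralizer coprime noncyclic"), so
`Θ` is the largest such `F` and is normalised by `N(B) ⊓ C(A)`. For `b = a e`:
`C(A) ⊓ C(b) = C(A ⊔ ⟨e⟩) ≤ θ e ⊔ (N(B) ⊓ C(A))`. -/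
theorem WC.exists_mx (h : WC B S) (hA : A ≤ B) (h8 : 8 * Nat.card A ≤ Nat.card B)
    (ih : ∀ A₁, A < A₁ → A₁ ≤ B → Gd B A₁) : ∃ Θ M, Mx B A Θ M := by
  have : Fact (Nat.Prime 2) := ⟨Nat.prime_two⟩
  obtain ⟨E, e1, e2⟩ := WA.compl h hA
  have EB : E ≤ B := e2 ▸ le_sup_right
  have cE : 2 ^ 3 ≤ Nat.card E := by
    have := Nat.le_of_dvd (Nat.mul_pos Nat.card_pos Nat.card_pos) (card_sup_dvd_of_le_normalizer (H := E) (N := A)
      (EB.trans ((h.le_cent hA).trans (centralizer_le_normalizer _))))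
    rw [sup_comm, e2] at this
    exact Nat.le_of_mul_le_mul_right (h8.trans this) Nat.card_pos
  let θ : X → Subgroup X := fun e => opOf 2 (centralizer ((A ⊔ zpowers e : Subgroup X) : Set X))
  have le1 : ∀ e ∈ E, A ⊔ zpowers e ≤ B := fun e he => sup_le hA (zpowers_le.2 (EB he))
  have gd : ∀ e ∈ E, e ≠ 1 → Gd B (A ⊔ zpowers e) := fun e he h1 => ih _ (left_lt_sup.2 fun hh =>
    h1 (mem_bot.1 (e1.le ⟨zpowers_le.1 hh, he⟩))) (le1 e he)
  have t1 : ∀ e, θ e ≤ centralizer (A : Set X) ⊓ centralizer {e} := fun e => WA.cent_sup A e ▸ opOf_le _ _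
  have t2 : ∀ e ∈ E, B ≤ normalizer (θ e : Set X) := fun e he => (h.le_cent (le1 e he)).trans (le_normalizer_opOf _ _)
  have t3 : ∀ F ≤ centralizer (A : Set X), (Nat.card F).Coprime 2 → B ≤ normalizer (F : Set X) →
      ∀ e ∈ E, e ≠ 1 → F ⊓ centralizer {e} ≤ θ e := fun F h1 h2 h3 e he e1 =>
    h.le_core (le1 e he) (gd e he e1) ((inf_le_inf_right _ h1).trans (WA.cent_sup A e).ge)
      (coprime_card_of_le inf_le_left h2) (le_normalizer_inf h3 (le_trans
        (fun b hb => mem_centralizer_singleton_iff.2 (h.comm hb (EB he))) le_normalizer))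
  have odd := coprime_card_iff_not_dvd.2 (Cfsg.Agent.S0217.result (p := 2) E (fun a ha b hb => h.comm (EB ha) (EB hb))
    (fun a ha => by rw [pow_two, h.sq a (EB ha)]) cE θ (fun a _ _ => (t1 a).trans inf_le_right)
    (fun a _ _ => coprime_card_iff_not_dvd.1 (opOf_coprime _ _))
    (fun a ha _ b hb x hx => conj_mem_of_normalizes (t2 a ha) (EB hb) hx)
    (fun a _ _ => isSolvable_of_not_two_dvd _ (coprime_card_iff_not_dvd.1 (opOf_coprime _ _)))
    fun a ha _ b hb b1 => t3 _ ((t1 a).trans inf_le_left) (opOf_coprime _ _) (t2 a ha) b hb b1).1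
  generalize hΘ : (⨆ a : {a : X // a ∈ E ∧ a ≠ 1}, θ a) = Θ at odd
  have l1 : ∀ e ∈ E, e ≠ 1 → θ e ≤ Θ := fun e he e1 =>
    hΘ ▸ le_iSup (fun a : {a : X // a ∈ E ∧ a ≠ 1} => θ a) ⟨e, he, e1⟩
  have l2 : Θ ≤ centralizer (A : Set X) := hΘ ▸ iSup_le fun a => (t1 a).trans inf_le_left
  have l3 : B ≤ normalizer (Θ : Set X) := le_normalizer_of_cj_le fun b hb => by
    rw [← hΘ, cj_iSup]
    exact iSup_mono fun a => (cj_eq_of_mem_normalizer (t2 _ a.2.1 hb)).le
  have hc : IsMulCommutative E := ⟨⟨fun a b => Subtype.ext (h.comm (EB a.2) (EB b.2))⟩⟩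
  have nc : ¬ IsCyclic E := fun hh => by
    have := Nat.le_of_dvd two_pos (hh.exponent_eq_card ▸ Monoid.exponent_dvd_of_forall_pow_eq_one
      fun a : E => Subtype.ext (by rw [coe_pow, pow_two, h.sq _ (EB a.2), coe_one]))
    omega
  obtain ⟨n, hn⟩ := (h.pg.to_le EB).exists_card_eq
  have l4 : normalizer (B : Set X) ⊓ centralizer (A : Set X) ≤ normalizer (Θ : Set X) :=
    le_normalizer_of_cj_le fun x hx => by
      have a1 := cj_le_of_mem l2 hx.2
      have a2 : (Nat.card (x •ᶜ Θ : Subgroup X)).Coprime 2 := (card_cj x Θ).symm ▸ odd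
      have a3 : B ≤ normalizer ((x •ᶜ Θ : Subgroup X) : Set X) := by
        rw [← cj_normalizer, ← cj_eq_of_mem_normalizer hx.1]; exact cj_mono x l3
      exact coprime_le_of_forall_centralizer_le E _ _ nc (EB.trans a3) (hn ▸ a2.symm.pow_left n)
        fun e he e1 => (t3 _ a1 a2 a3 e he e1).trans (l1 e he e1)
  refine ⟨Θ, _, hA, odd, l2, rfl, sup_le le_normalizer l4, fun b hb bA => ?_⟩
  rw [← e2] at hb
  obtain ⟨a, ha, e, he, rfl⟩ := (mem_sup_of_normalizes_left (EB.trans ((h.le_cent hA).trans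
    (centralizer_le_normalizer _)))).1 hb
  have e1 : e ≠ 1 := fun e => bA (by rwa [e, mul_one])
  refine le_trans (fun x hx => ?_) ((gd e he e1).trans (sup_le_sup (l1 e he e1)
    (inf_le_inf_left _ (centralizer_le (le_sup_left (a := A))))))
  rw [WA.cent_sup]
  refine ⟨hx.1, mem_centralizer_singleton_iff.2 (mul_left_cancel (a := a) ?_)⟩
  rw [← mul_assoc, hx.1 a ha, mul_assoc, mem_centralizer_singleton_iff.1 hx.2, mul_assoc]

end CL.VM
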