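/- F-pairs. -/
import Cfsg.Agent.SPOR.VM.W0
import Cfsg.Agent.SPOR.VM.SC

set_option autoImplicit false
set_option maxHeartbeats 200000
set_option linter.unusedSectionVars false

namespace CL.VM
open Subgroup CL.MSS CL.PComp

variable {X : Type*} [Group X] [Finite X] {B S A Θ M : Subgroup X}

namespace WBx

omit [Finite X] in
theorem inv_eq (h : WC B S) {b : X} (hb : b ∈ B) : b⁻¹ = b := inv_eq_of_mul_eq_one_right (h.sq b hb)

omit [Finite X] in
theorem comm (h : WC B S) {a b : X} (ha : a ∈ B) (hb : b ∈ B) : a * b = b * a := by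
  rw [← inv_eq h (mul_mem ha hb), mul_inv_rev, inv_eq h ha, inv_eq h hb]

end WBx

/-- PROOF. Among `y ∈ C(A) ∖ M` take `|y •ᶜ B ⊓ M|` maximal and `D = y •ᶜ B ⊓ M ≤ N(B)`; `D' = B ⊓ y •ᶜ M`. -/
theorem Mx.fp (k : Mx B A Θ M) (h : WC B S) {y : X} (hy : y ∈ centralizer (A : Set X)) (hM : y ∉ M)
    (hn : ¬ (y •ᶜ B) ⊓ M ≤ A) : ∃ D D', FP B A D D' := by
  have MY : M ≤ centralizer (A : Set X) := k.eq ▸ sup_le k.le inf_le_right
  have NM : normalizer (B : Set X) ⊓ centralizer (A : Set X) ≤ M := k.eq ▸ le_sup_right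
  have TM : Θ ≤ M := k.eq ▸ le_sup_left
  have BY : B ≤ centralizer (A : Set X) := fun b hb a ha => WBx.comm h (k.AB ha) hb
  have BM : B ≤ M := (le_inf le_normalizer BY).trans NM
  have B2 : IsPGroup 2 B := h.syl.pgroup.to_le h.le
  have AB : ∀ y ∈ centralizer (A : Set X), A ≤ y •ᶜ B := fun y hy =>
    (cj_eq_of_mem_centralizer hy).ge.trans (cj_mono y k.AB)
  obtain ⟨x, ⟨hx, hxM⟩, hmax⟩ := Set.exists_max_image {y | y ∈ centralizer (A : Set X) ∧ y ∉ M}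
    (fun y => Nat.card ((y •ᶜ B) ⊓ M : Subgroup X)) (Set.toFinite _) ⟨y, hy, hM⟩
  have hlt : Nat.card A < Nat.card ((x •ᶜ B) ⊓ M : Subgroup X) := by
    refine lt_of_lt_of_le ?_ (hmax y ⟨hy, hM⟩)
    by_contra hle
    exact hn (eq_of_le_of_card_ge (le_inf (AB y hy) (k.AB.trans BM)) (not_lt.1 hle)).ge
  obtain ⟨m, hm, hmB⟩ := h.exists_conj_le BM (isPGroup_cj x B2).to_inf_left (inf_le_right (a := x •ᶜ B))
  have e : m •ᶜ ((x •ᶜ B) ⊓ M) = ((m * x) •ᶜ B) ⊓ M := by rw [cj_inf, cj_eq_of_mem hm, cj_mul]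
  rw [← card_cj m ((x •ᶜ B) ⊓ M), e] at hlt hmax
  rw [e] at hmB
  have hz : m * x ∈ centralizer (A : Set X) := mul_mem (MY hm) hx
  have hzM : m * x ∉ M := fun h => hxM (by simpa using mul_mem (inv_mem hm) h)
  generalize m * x = z at *
  clear e hM hn hy hx hxM hm
  have zA : ∀ u, u ∈ A ↔ z⁻¹ * u * z ∈ A := fun u => by
    rw [← mem_cj, cj_eq_of_mem_centralizer hz]
  have AD : A ≤ (z •ᶜ B) ⊓ M := le_inf (AB z hz) (k.AB.trans BM)
  have AD' : A ≤ B ⊓ z •ᶜ M :=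
    le_inf k.AB ((cj_eq_of_mem_centralizer hz).ge.trans (cj_mono z (k.AB.trans BM)))
  have hsq : ∀ d ∈ (z •ᶜ B) ⊓ M, d * d = 1 := by
    rintro _ ⟨⟨b, hb, rfl⟩, -⟩
    rw [← map_mul, h.sq b hb, map_one]
  have hu : ∀ d ∈ (z •ᶜ B) ⊓ M, ∀ b ∈ B, b * d * b⁻¹ * d⁻¹ ∈ B := fun d hd b hb => by
    have := mul_mem hb ((mem_normalizer_iff.1 (hmB hd) _).1 (inv_mem hb))
    rwa [← mul_assoc, ← mul_assoc] at this
  have hcomm : ∀ d ∈ (z •ᶜ B) ⊓ M, d ∉ A → ∀ b ∈ B, b * d * b⁻¹ * d⁻¹ ∈ A ↔ b ∈ B ⊓ z •ᶜ M := by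
    intro d hd hdA b hb
    constructor
    · intro ha
      refine ⟨hb, mem_cj.2 (k.mem h (b := z⁻¹ * (b * d * b⁻¹) * z) (mul_mem (mul_mem (inv_mem hz) (BY hb)) hz)
        (one_mem _) ?_ ?_ fun h => hdA ?_)⟩
      · convert conj_mem_cj (g := z⁻¹ * b * z) (mem_cj.1 hd.1) using 1
        group
      · rw [cj_one, ← mem_cj]
        simpa using mul_mem (AB z hz ha) hd.1
      · convert mul_mem (inv_mem ha) ((zA _).2 h) using 1
        group
    · rintro ⟨-, hb'⟩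
      have h1 : z⁻¹ * (b * d * b⁻¹ * d⁻¹) * z ∈ B ⊔ Θ := by
        have d1 : z⁻¹ * d * z ∈ B ⊔ Θ := mem_sup_left (mem_cj.1 hd.1)
        convert mul_mem (conj_mem_of_normalizes k.norm_sup (mem_cj.1 hb') d1) (inv_mem d1) using 1
        group
      obtain ⟨t, ht, h2⟩ := k.exists_cj h h1 (n := 1) (by
        have := h.sq _ (hu d hd b hb)
        generalize b * d * b⁻¹ * d⁻¹ = u at *
        calc (z⁻¹ * u * z) ^ 2 ^ 1 = z⁻¹ * (u * u) * z := by rw [pow_one, sq]; group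
          _ = 1 := by rw [this]; group)
      by_contra hA
      have := k.mem h (mul_mem hz (k.le ht)) (one_mem _) (by rw [cj_mul]; exact mem_cj.2 h2)
        (by rw [cj_one]; exact hu d hd b hb) hA
      exact hzM (by simpa using mul_mem this (inv_mem (TM ht)))
  have hu' : ∀ d ∈ (z •ᶜ B) ⊓ M, ∀ b ∈ B, b * d * b⁻¹ * d⁻¹ ∈ B ⊓ z •ᶜ M := by
    intro d hd b hb
    by_cases hdA : d ∈ A
    · rw [← WBx.comm h (k.AB hdA) hb]; simp
    refine (hcomm d hd hdA _ (hu d hd b hb)).1 ?_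
    have q : (b * d * b⁻¹ * d⁻¹ * d) * (b * d * b⁻¹ * d⁻¹ * d) = 1 :=
      calc _ = b * (d * d) * b⁻¹ := by group
        _ = 1 := by rw [hsq d hd]; group
    have h1 := WBx.inv_eq h (hu d hd b hb)
    generalize b * d * b⁻¹ * d⁻¹ = u at *
    rw [h1, inv_eq_of_mul_eq_one_right (hsq d hd), mul_assoc (u * d), q]
    exact one_mem _
  have hlt' : B ⊓ z •ᶜ M < B := by
    refine lt_of_le_of_ne inf_le_left fun e => hzM ?_
    obtain ⟨c, hc, e2⟩ := h.conj_in (g := z⁻¹) (k := 1) (le_cj_iff.1 (e.ge.trans inf_le_right))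
      (by rw [cj_one]; exact BM)
    rw [cj_one, ← cj_mul] at e2
    have := NM (mem_inf.2 ⟨mem_normalizer_iff_cj.2 e2, mul_mem (MY hc) (inv_mem hz)⟩)
    simpa using mul_mem (inv_mem this) hc
  have AltD : A < (z •ᶜ B) ⊓ M := lt_of_le_of_ne AD fun e => by rw [← e] at hlt; exact lt_irrefl _ hlt
  refine ⟨(z •ᶜ B) ⊓ M, B ⊓ z •ᶜ M, hsq, hmB, AltD, le_antisymm (fun b hb => ?_) (le_inf AD k.AB), AD', hlt',
    le_antisymm ?_ ?_, ?_, hcomm⟩
  · by_contra hA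
    exact hzM (k.mem h hz (one_mem _) hb.1.1 (by rw [cj_one]; exact hb.2) hA)
  · obtain ⟨b, hb, hbD⟩ := SetLike.exists_of_lt hlt'
    have hn : (z •ᶜ B) ⊓ M ≤ normalizer (A : Set X) :=
      inf_le_right.trans (MY.trans (centralizer_le_normalizer _))
    have h1 := SCx.card_cs (d := b) AD' hn fun d hd => by
      convert inv_mem (hu' d hd b hb) using 1
      group
    have h2 : SCx.cs _ A hn b ≤ A := fun d hd => by
      by_contra hA
      refine hbD ((hcomm d hd.1 hA b hb).1 ?_)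
      convert inv_mem hd.2 using 1
      group
    have h3 := h1.trans (Nat.mul_le_mul_right _ (card_le_of_le h2))
    rw [mul_comm] at h3
    exact Nat.le_of_mul_le_mul_left h3 Nat.card_pos
  · have := hmax z⁻¹ ⟨inv_mem hz, fun h => hzM (by simpa using h)⟩
    rwa [← card_cj z ((z⁻¹ •ᶜ B) ⊓ M), cj_inf, cj_inv_cj] at this
  · obtain ⟨d, hd, hdA⟩ := SetLike.exists_of_lt AltD
    have hn : B ≤ normalizer (A : Set X) := BY.trans (centralizer_le_normalizer _)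
    have h1 := SCx.card_cs (d := d) AD' hn (hu' d hd)
    have h2 : SCx.cs B A hn d ≤ B ⊓ z •ᶜ M := fun b hb => (hcomm d hd hdA b hb.1).1 hb.2
    rw [sq]
    exact h1.trans (Nat.mul_le_mul_right _ (card_le_of_le h2))

theorem FP.cj {D D' : Subgroup X} (f : FP B A D D') {n : X} (hn : n ∈ normalizer (B : Set X)) :
    FP B (n •ᶜ A) (n •ᶜ D) (n •ᶜ D') := by
  have e := cj_eq_of_mem_normalizer hn
  refine ⟨?_, ?_, (cj_lt_cj_iff n).2 f.lt, ?_, cj_mono n f.le, ?_, ?_, ?_, fun d hd hdA b hb => ?_⟩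
  · rintro _ ⟨d, hd, rfl⟩
    rw [← map_mul, f.sq d hd, map_one]
  · exact cj_le_of_mem_normalizer f.norm (le_normalizer hn)
  · rw [← f.inf, cj_inf, e]
  · have := (cj_lt_cj_iff n).2 f.lt'
    rwa [e] at this
  · rw [card_cj, card_cj, f.card]
  · rw [card_cj, card_cj]; exact f.idx
  · rw [← e] at hb
    rw [mem_cj] at hd hdA hb
    rw [mem_cj, mem_cj, ← f.comm _ hd hdA _ hb]
    exact iff_of_eq (by congr 1; group)

end CL.VM
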