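/- The dihedral argument. -/
import Cfsg.Agent.SPOR.VM.W0

set_option autoImplicit false

namespace CL.VM
open Subgroup CL.MSS CL.PComp

variable {X : Type*} [Group X] [Finite X] {B S A Θ M : Subgroup X}

omit [Finite X] in
theorem WT.inv_pow {r c : X} (h : c * r * c = r⁻¹) (hc : c * c = 1) (n : ℕ) : r ^ n * c * (r ^ n)⁻¹ = r ^ (2 * n) * c := by
  have e : c⁻¹ = c := inv_eq_of_mul_eq_one_right hc
  have : c * r ^ n * c⁻¹ = (r ^ n)⁻¹ := by rw [← conj_pow, e, h, _root_.inv_pow]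
  rw [← this, two_mul, pow_add, e, ← mul_assoc, ← mul_assoc, mul_assoc _ c c, hc, mul_one]

theorem WT.split (r : X) : (∃ i, r ^ (2 * i + 1) ∈ A) ∨ ∃ k, r ^ k ∉ A ∧ r ^ (2 * k) ∈ A := by
  have : ∀ n, 0 < n → r ^ n ∈ A → (∃ i, r ^ (2 * i + 1) ∈ A) ∨ ∃ k, r ^ k ∉ A ∧ r ^ (2 * k) ∈ A := fun n => by
    induction n using Nat.strong_induction_on with
    | _ n ih =>
    intro h0 h
    obtain ⟨k, rfl | rfl⟩ := Nat.even_or_odd' n
    · by_cases hk : r ^ k ∈ A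
      exacts [ih k (by omega) (by omega) hk, .inr ⟨k, hk, h⟩]
    · exact .inl ⟨k, h⟩
  exact this _ (orderOf_pos r) (by rw [pow_orderOf_eq_one]; exact one_mem _)

/-- PROOF. `Y = C(A)`, `A` is central in `Y`. Let `b, c ∈ B ∖ A`, `s = y b y⁻¹`; `s ∉ M` and `c ∉ y •ᶜ M` by `hn`
(applied to `y`, `y⁻¹`). Look at the dihedral group generated by the images of `s`, `c` in `Y / A`. If `s c` has
odd order modulo `A` then `x s x⁻¹ ∈ c A` for a power `x` of `s c`, and `WC.fusion` in `Y` finishes. Otherwise a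
power `u` of `s c` is an involution modulo `A` which commutes with `s` and `c` modulo `A`. `u c u⁻¹ ∈ c A` gives
`u ∈ M` (`Mx.mem`), likewise `u ∈ y •ᶜ M`. `c u = c (s c) ^ k` is conjugate modulo `A` to `c` or `s`, so lies in
`x •ᶜ B` for some `x ∈ Y`; `c u ∈ M ∖ A` (else `c ∈ y •ᶜ M`), so `x ∈ M` by `hn`, and `u ∈ B Θ` (`norm_sup`).
Likewise `u ∈ y •ᶜ (B Θ)`. `u ^ 4 = 1`, `u ∉ A`, so `u ∈ t •ᶜ B ⊓ (y t') •ᶜ B` (`exists_cj`) and `y t' ∈ M`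
(`Mx.mem`): contradiction. -/
theorem Mx.tr (k : Mx B A Θ M) (h : WC B S) {y : X} (hy : y ∈ centralizer (A : Set X)) (hM : y ∉ M)
    (hn : ∀ x ∈ centralizer (A : Set X), x ∉ M → (x •ᶜ B) ⊓ M ≤ A) : Tr B A := by
  intro b hb bA c hc cA
  have BY := h.le_cent k.AB
  have AM := k.AB.trans (k.B_le h)
  have cA' : ∀ {x a : X}, x ∈ centralizer (A : Set X) → a ∈ A → x * a * x⁻¹ = a := fun hx ha => by
    rw [← hx _ ha, mul_inv_cancel_right]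
  have cc := h.sq c hc
  obtain ⟨s, hs⟩ : ∃ s, s = y * b * y⁻¹ := ⟨_, rfl⟩
  have ss : s * s = 1 := by rw [hs, conj_mul, h.sq b hb, mul_one, mul_inv_cancel]
  have sB : s ∈ y •ᶜ B := hs ▸ conj_mem_cj hb
  have sY : s ∈ centralizer (A : Set X) := cj_le_of_mem BY hy sB
  have ri : (c * s)⁻¹ = s * c := by
    rw [mul_inv_rev, inv_eq_of_mul_eq_one_right cc, inv_eq_of_mul_eq_one_right ss]
  have r1 := WT.inv_pow (r := c * s) (c := c) (by rw [ri, ← mul_assoc, cc, one_mul]) cc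
  have r2 := WT.inv_pow (r := c * s) (c := s) (by rw [ri, mul_assoc, mul_assoc, ss, mul_one]) ss
  have rY : ∀ n : ℕ, (c * s) ^ n ∈ centralizer (A : Set X) := fun n => pow_mem (mul_mem (BY hc) sY) n
  have rs : ∀ n : ℕ, (c * s) ^ (n + 1) * s = (c * s) ^ n * c := fun n => by
    rw [pow_succ, mul_assoc, mul_assoc, ss, mul_one]
  generalize c * s = r at r1 r2 rY rs
  rcases WT.split (A := A) r with ⟨i, hi⟩ | ⟨j, j1, j2⟩
  · have e : r ^ (i + 1) * y * b * (r ^ (i + 1) * y)⁻¹ = r ^ (2 * i + 1) * c := by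
      rw [← rs, show 2 * i + 1 + 1 = 2 * (i + 1) from rfl, ← r2, hs]; group
    obtain ⟨n, hn, e'⟩ := h.fusion BY (mul_mem (rY _) hy) hb (e ▸ mul_mem (k.AB hi) hc)
    exact ⟨n, hn, by rwa [e', e, mul_inv_cancel_right]⟩
  exfalso
  have k1 : ∀ u ∈ centralizer (A : Set X), ∀ d ∈ B, d ∉ A → ∀ a ∈ A, u * d * u⁻¹ = a * d → u ∈ M :=
    fun u hu d hd dA a ha e => k.mem h hu (one_mem _) (e ▸ conj_mem_cj hd)
      ((cj_one B).ge (mul_mem (k.AB ha) hd)) fun e => dA ((mul_mem_cancel_left ha).1 e)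
  have k2 : ∀ u ∈ M, ∀ d ∈ B, ∀ x ∈ centralizer (A : Set X), u * d ∈ x •ᶜ B → u * d ∉ A → u ∈ B ⊔ Θ :=
    fun u hu d hd x hx e uA => by
      have xM : x ∈ M := by_contra fun xM => uA (hn x hx xM ⟨e, mul_mem hu (k.B_le h hd)⟩)
      exact (mul_mem_cancel_right (mem_sup_left hd)).1 (cj_le_of_mem_normalizer le_sup_left (k.norm_sup xM) e)
  have k3 : ∀ n : ℕ, (∃ x ∈ centralizer (A : Set X), r ^ n * c ∈ x •ᶜ B) ∧
      ∃ x ∈ centralizer (A : Set X), r ^ n * s ∈ x •ᶜ B := fun n => by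
    have a1 : ∀ i : ℕ, ∃ x ∈ centralizer (A : Set X), r ^ (2 * i) * c ∈ x •ᶜ B :=
      fun i => ⟨_, rY i, r1 i ▸ conj_mem_cj hc⟩
    have a2 : ∀ i : ℕ, ∃ x ∈ centralizer (A : Set X), r ^ (2 * i) * s ∈ x •ᶜ B :=
      fun i => ⟨_, mul_mem (rY i) hy, by rw [← r2, cj_mul]; exact conj_mem_cj sB⟩
    obtain ⟨i, rfl | rfl⟩ := Nat.even_or_odd' n
    · exact ⟨a1 i, a2 i⟩
    · exact ⟨rs _ ▸ a2 (i + 1), (rs _).symm ▸ a1 i⟩
  have uM : r ^ j ∈ M := k1 _ (rY j) c hc cA _ j2 (r1 j)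
  have vY : y⁻¹ * r ^ j * y ∈ centralizer (A : Set X) := mul_mem (mul_mem (inv_mem hy) (rY j)) hy
  have vb : y⁻¹ * r ^ j * y * b = y⁻¹ * (r ^ j * s) * y⁻¹⁻¹ := by rw [hs]; group
  have vM : y⁻¹ * r ^ j * y ∈ M := k1 _ vY b hb bA _ j2 (by
    calc _ = y⁻¹ * (r ^ j * s * (r ^ j)⁻¹) * y := by rw [hs]; group
      _ = y⁻¹ * r ^ (2 * j) * y⁻¹⁻¹ * b := by rw [r2, hs]; group
      _ = _ := by rw [cA' (inv_mem hy) j2])
  obtain ⟨⟨x, hx, e1⟩, x', hx', e2⟩ := k3 j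
  have u1 := k2 _ uM c hc x hx e1 fun e => cA (by
    have := hn _ (inv_mem hy) (mt inv_mem_iff.1 hM) ⟨conj_mem_cj hc, (mul_mem_cancel_left vM).1 (by
      rw [show y⁻¹ * r ^ j * y * (y⁻¹ * c * y⁻¹⁻¹) = y⁻¹ * (r ^ j * c) * y⁻¹⁻¹ by group, cA' (inv_mem hy) e]
      exact AM e)⟩
    rwa [← cA' hy this, show y * (y⁻¹ * c * y⁻¹⁻¹) * y⁻¹ = c by group] at this)
  have v1 := k2 _ vM b hb (y⁻¹ * x') (mul_mem (inv_mem hy) hx') (by
    rw [vb, cj_mul]; exact conj_mem_cj e2) fun e => bA (by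
    have e3 : r ^ j * s ∈ A := by
      rwa [← cA' hy e, vb, show y * (y⁻¹ * (r ^ j * s) * y⁻¹⁻¹) * y⁻¹ = r ^ j * s by group] at e
    have := hn y hy hM ⟨sB, (mul_mem_cancel_left uM).1 (AM e3)⟩
    rwa [← cA' (inv_mem hy) this, hs, show y⁻¹ * (y * b * y⁻¹) * y⁻¹⁻¹ = b by group] at this)
  have u4 : (r ^ j) ^ 2 ^ 2 = 1 := by
    rw [← h.sq _ (k.AB j2), ← pow_add, ← pow_mul]; congr 1; ring
  obtain ⟨t, ht, e3⟩ := k.exists_cj h u1 u4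
  obtain ⟨t', ht', e4⟩ := k.exists_cj h v1 (n := 2) (by
    rw [show y⁻¹ * r ^ j * y = y⁻¹ * r ^ j * y⁻¹⁻¹ by rw [inv_inv], conj_pow, u4, mul_one, mul_inv_cancel])
  exact hM ((mul_mem_cancel_right (k.Θ_le ht')).1 (k.mem h (mul_mem hy (k.le ht')) (k.Θ_le ht)
    (by rw [cj_mul]; exact mem_cj.2 e4) e3 j1))

end CL.VM
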