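/- A weakly closed elementary abelian 2-subgroup without F-pairs is normal modulo the core. -/
import Cfsg.Agent.SPOR.VM.WA
import Cfsg.Agent.SPOR.VM.WB
import Cfsg.Agent.SPOR.VM.WT

set_option autoImplicit false

namespace CL.VM
open Subgroup CL.MSS CL.PComp

variable {X : Type*} [Group X] [Finite X] {B S : Subgroup X}

theorem WC.gd (h : WC B S)
    (H : ∀ A ≤ B, Gd B A ∨ (8 * Nat.card A ≤ Nat.card B ∧ (∀ D ≤ S, ∀ D', ¬ FP B A D D') ∧ ¬ Tr B A)) :
    ∀ A ≤ B, Gd B A := by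
  have : Fact (Nat.Prime 2) := ⟨Nat.prime_two⟩
  intro A
  induction A using WellFoundedGT.induction with
  | ind A ih =>
  intro hA
  by_contra ng
  obtain ⟨h8, -, nt⟩ := (H A hA).resolve_left ng
  obtain ⟨Θ, M, k⟩ := h.exists_mx hA h8 ih
  obtain ⟨y, hy, hM⟩ : ∃ y ∈ centralizer (A : Set X), y ∉ M := by
    by_contra e
    push Not at e
    refine ng fun x hx => ?_
    have := e x hx
    rw [k.eq] at this
    exact sup_le_sup_right (le_opOf k.le (fun x hx => k.norm (e x hx)) k.odd) _ this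
  by_cases hn : ∀ x ∈ centralizer (A : Set X), x ∉ M → (x •ᶜ B) ⊓ M ≤ A
  · exact nt (k.tr h hy hM hn)
  push Not at hn
  obtain ⟨x, hx, hxM, hn⟩ := hn
  obtain ⟨D, D', f⟩ := k.fp h hx hxM hn
  have hS : S ≤ normalizer (B : Set X) := by
    simpa only [cj_one] using h.le_norm (g := 1) h.syl.pgroup (by rw [cj_one]; exact h.le)
  obtain ⟨n, hn, e⟩ := (h.syl.of_le hS le_top).exists_conj_le
    (show IsPGroup 2 D from fun d => ⟨1, Subtype.ext (by rw [pow_one, coe_pow, pow_two]; exact f.sq d d.2)⟩) f.norm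
  have hA' : n •ᶜ A ≤ B := cj_le_of_mem_normalizer hA hn
  rcases H _ hA' with g | ⟨-, nf, -⟩
  · exact ng (by simpa only [inv_cj_cj] using g.cj (inv_mem hn))
  · exact nf _ e _ (f.cj hn)

end CL.VM
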